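import Mathlib
import Cfsg.Agent.Lib.Helper65.MonoDefs

/-!
# S5634, piece ROOT (helper18 for helper65): a subgroup containing the monomial matrices of
determinant one and one root element contains `SL`.
-/

set_option autoImplicit false
set_option linter.unusedSectionVars false
set_option linter.unusedSimpArgs false

namespace Cfsg.Agent.Lib.Helper65.Mono

open Matrix
open Cfsg.Agent.Lib.Helper97

section
variable {F : Type*} [Field F] {κ : Type} [Fintype κ] [DecidableEq κ]

theorem root_sl_transvection_eq (i j : κ) (a : F) :
    Matrix.transvection i j a = tv (Pi.single i 1) (Pi.single j a) := by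
  rw [Matrix.transvection, tv]
  congr 1
  ext k l
  rw [Matrix.single_apply, Matrix.vecMulVec_apply, Pi.single_apply, Pi.single_apply]
  by_cases hk : k = i
  · by_cases hl : l = j
    · simp [hk, hl]
    · have hl' : ¬ j = l := fun h => hl h.symm
      simp [hk, hl, hl']
  · have hk' : ¬ i = k := fun h => hk h.symm
    simp [hk, hk']

theorem root_sl_TM_zero (X : Subgroup (GL κ F)) (u : κ → F) : TM X u 0 := by
  refine ⟨zero_dotProduct u, fun t ht => ?_⟩
  have h1 : t = 1 := Units.ext (by rw [ht, tv_zero_right]; rfl)
  rw [h1]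
  exact X.one_mem

theorem root_sl_TM_smul {X : Subgroup (GL κ F)} {u ψ : κ → F} (s : F) (h : TM X (s • u) ψ) :
    TM X u (s • ψ) := by
  refine ⟨?_, fun t ht => h.2 t ?_⟩
  · have h1 := h.1
    rw [dotProduct_smul] at h1
    rw [smul_dotProduct]
    exact h1
  · rw [ht, tv, tv, Matrix.smul_vecMulVec, Matrix.vecMulVec_smul]

theorem root_sl_dot1 {p q : κ} (hpq : p ≠ q) :
    (Pi.single q 1 : κ → F) ⬝ᵥ Pi.single p 1 = 0 := by
  rw [single_one_dotProduct, Pi.single_apply, if_neg hpq.symm]

theorem root_sl_dot2 {p q : κ} (hpq : p ≠ q) :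
    (-Pi.single p 1 : κ → F) ⬝ᵥ Pi.single q 1 = 0 := by
  rw [neg_dotProduct, single_one_dotProduct, Pi.single_apply, if_neg hpq, neg_zero]

/-- the rotation `e_p ↦ -e_q`, `e_q ↦ e_p` (monomial of determinant one) -/
noncomputable def root_sl_rot (p q : κ) (hpq : p ≠ q) : GL κ F :=
  tvG (Pi.single p 1) (Pi.single q 1) (root_sl_dot1 hpq) *
    tvG (Pi.single q 1) (-Pi.single p 1) (root_sl_dot2 hpq) *
    tvG (Pi.single p 1) (Pi.single q 1) (root_sl_dot1 hpq)

theorem root_sl_rot_val (p q : κ) (hpq : p ≠ q) :
    ((root_sl_rot p q hpq : GL κ F) : Matrix κ κ F) =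
      tv (Pi.single p 1) (Pi.single q 1) * tv (Pi.single q 1) (-Pi.single p 1) *
        tv (Pi.single p 1) (Pi.single q 1) := rfl

theorem root_sl_rot_mulVec (p q : κ) (hpq : p ≠ q) (y : κ → F) (k : κ) :
    (((root_sl_rot p q hpq : GL κ F) : Matrix κ κ F) *ᵥ y) k =
      if k = p then y q else if k = q then - y p else y k := by
  rw [root_sl_rot_val, ← Matrix.mulVec_mulVec, ← Matrix.mulVec_mulVec, tv_mulVec, tv_mulVec,
    tv_mulVec]
  simp only [neg_dotProduct, single_one_dotProduct, Pi.add_apply, Pi.smul_apply, Pi.single_apply,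
    smul_eq_mul]
  by_cases hkp : k = p
  · subst hkp
    simp [hpq, hpq.symm]
  · by_cases hkq : k = q
    · subst hkq
      simp [hkp, hpq, hpq.symm]
    · simp [hkp, hkq, hpq, hpq.symm]

theorem root_sl_rot_apply (p q : κ) (hpq : p ≠ q) (a b : κ) :
    ((root_sl_rot p q hpq : GL κ F) : Matrix κ κ F) a b =
      if a = p then (Pi.single b (1 : F) : κ → F) q
      else if a = q then - (Pi.single b (1 : F) : κ → F) p
      else (Pi.single b (1 : F) : κ → F) a := by
  have h : ((root_sl_rot p q hpq : GL κ F) : Matrix κ κ F) a b =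
      (((root_sl_rot p q hpq : GL κ F) : Matrix κ κ F) *ᵥ (Pi.single b (1 : F) : κ → F)) a := by
    rw [Matrix.mulVec_single_one]
    rfl
  rw [h, root_sl_rot_mulVec]

theorem root_sl_rot_det (p q : κ) (hpq : p ≠ q) :
    ((root_sl_rot p q hpq : GL κ F) : Matrix κ κ F).det = 1 := by
  rw [root_sl_rot_val, Matrix.det_mul, Matrix.det_mul, tv_det (root_sl_dot1 hpq),
    tv_det (root_sl_dot2 hpq), one_mul, one_mul]

theorem root_sl_rot_mono (p q : κ) (hpq : p ≠ q) :
    IsMono ((root_sl_rot p q hpq : GL κ F) : Matrix κ κ F) := by
  intro b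
  refine ⟨if b = q then p else if b = p then q else b, fun a ha => ?_⟩
  rw [root_sl_rot_apply] at ha
  by_cases hap : a = p
  · rw [if_pos hap, Pi.single_apply] at ha
    have hqb : q = b := by
      by_contra hne
      exact ha (if_neg hne)
    rw [if_pos hqb.symm]
    exact hap
  · rw [if_neg hap] at ha
    by_cases haq : a = q
    · rw [if_pos haq, Pi.single_apply] at ha
      have hpb : p = b := by
        by_contra hne
        exact ha (by rw [if_neg hne, neg_zero])
      have hbq : b ≠ q := by
        rw [← hpb]
        exact hpq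
      rw [if_neg hbq, if_pos hpb.symm]
      exact haq
    · rw [if_neg haq, Pi.single_apply] at ha
      have hab : a = b := by
        by_contra hne
        exact ha (if_neg hne)
      have hbq : b ≠ q := by
        rw [← hab]
        exact haq
      have hbp : b ≠ p := by
        rw [← hab]
        exact hap
      rw [if_neg hbq, if_neg hbp]
      exact hab

/-- ROOT -/
theorem root_sl (hn : 3 ≤ Fintype.card κ) {X : Subgroup (GL κ F)} (hX : MonIn X)
    (h : RootIn X) : Cfsg.Geo.specialLinear κ F ≤ X := by
  classical
  obtain ⟨i, j, a, g, hij, ha, hgX, hg⟩ := h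
  have hnt : Nontrivial κ := Fintype.one_lt_card_iff_nontrivial.mp (by omega)
  have hrotX : ∀ (p q : κ) (hpq : p ≠ q), (root_sl_rot p q hpq : GL κ F) ∈ X :=
    fun p q hpq => hX _ (root_sl_rot_det p q hpq) (root_sl_rot_mono p q hpq)
  -- a third index
  obtain ⟨m, hmi, hmj⟩ : ∃ m : κ, m ≠ i ∧ m ≠ j := by
    by_contra hcon
    push Not at hcon
    have hsub : (Finset.univ : Finset κ) ⊆ {i, j} := by
      intro x _
      by_cases hx : x = i
      · simp [hx]
      · simp [hcon x hx]
    have h1 := Finset.card_le_card hsub
    have h2 : ({i, j} : Finset κ).card ≤ 2 := Finset.card_le_two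
    rw [Finset.card_univ] at h1
    omega
  -- the given root element
  have h0 : TM X (Pi.single i 1) (Pi.single j a) := by
    refine ⟨?_, fun t ht => ?_⟩
    · rw [dotProduct_single_one]
      exact Pi.single_eq_of_ne hij _
    · have h1 : t = g := Units.ext (by rw [ht, hg, root_sl_transvection_eq])
      rw [h1]
      exact hgX
  -- all scalars at `(i, j)`
  have hA : ∀ c : F, TM X (Pi.single i 1) (Pi.single j c) := by
    intro c
    by_cases hc : c = 0
    · rw [hc, Pi.single_zero]
      exact root_sl_TM_zero X _
    · obtain ⟨ν, hν⟩ : ∃ ν : Fˣ, (ν : F) = a / c := ⟨Units.mk0 (a / c) (div_ne_zero ha hc), rfl⟩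
      have hd : dg i m ν ∈ X := dg_mem hX (Ne.symm hmi) ν
      have h1 := TM_conj h0 hd
      have e1 : (((dg i m ν)⁻¹ : GL κ F) : Matrix κ κ F) *ᵥ (Pi.single i 1 : κ → F) =
          (ν : F)⁻¹ • (Pi.single i 1 : κ → F) := by
        rw [dg, diagU_inv_val, Matrix.diagonal_mulVec_single]
        funext k
        rw [Pi.smul_apply, smul_eq_mul, Pi.single_apply, Pi.single_apply]
        by_cases hk : k = i
        · rw [if_pos hk, if_pos hk]
          simp [dgv]
        · rw [if_neg hk, if_neg hk, mul_zero]
      have e2 : (Pi.single j a : κ → F) ᵥ* ((dg i m ν : GL κ F) : Matrix κ κ F) =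
          Pi.single j a := by
        rw [dg, diagU_val]
        funext k
        rw [Matrix.vecMul_diagonal]
        by_cases hk : k = j
        · subst hk
          simp [dgv, hij.symm, hmj.symm]
        · rw [Pi.single_eq_of_ne hk, zero_mul]
      rw [e1, e2] at h1
      have h2 := root_sl_TM_smul _ h1
      have e3 : (ν : F)⁻¹ • (Pi.single j a : κ → F) = Pi.single j c := by
        funext l
        rw [Pi.smul_apply, smul_eq_mul, Pi.single_apply, Pi.single_apply]
        by_cases hl : l = j
        · rw [if_pos hl, if_pos hl, hν]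
          field_simp
        · rw [if_neg hl, if_neg hl, mul_zero]
      rw [e3] at h2
      exact h2
  -- all scalars at `(i, k)`
  have hB : ∀ k : κ, k ≠ i → ∀ c : F, TM X (Pi.single i 1) (Pi.single k c) := by
    intro k hki c
    by_cases hkj : k = j
    · rw [hkj]
      exact hA c
    · have hjk : j ≠ k := fun h => hkj h.symm
      have h1 := TM_conj (hA c) (hrotX j k hjk)
      have e0 : ((root_sl_rot j k hjk : GL κ F) : Matrix κ κ F) *ᵥ (Pi.single i 1 : κ → F) =
          Pi.single i 1 := by
        funext l
        rw [root_sl_rot_mulVec]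
        by_cases hl1 : l = j
        · rw [if_pos hl1, Pi.single_eq_of_ne hki, hl1, Pi.single_eq_of_ne hij.symm]
        · by_cases hl2 : l = k
          · rw [if_neg hl1, if_pos hl2, Pi.single_eq_of_ne hij.symm, neg_zero, hl2,
              Pi.single_eq_of_ne hki]
          · rw [if_neg hl1, if_neg hl2]
      have e1 : (((root_sl_rot j k hjk)⁻¹ : GL κ F) : Matrix κ κ F) *ᵥ
          (Pi.single i 1 : κ → F) = Pi.single i 1 := by
        calc (((root_sl_rot j k hjk)⁻¹ : GL κ F) : Matrix κ κ F) *ᵥ (Pi.single i 1 : κ → F)
            = (((root_sl_rot j k hjk)⁻¹ : GL κ F) : Matrix κ κ F) *ᵥ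
              (((root_sl_rot j k hjk : GL κ F) : Matrix κ κ F) *ᵥ (Pi.single i 1 : κ → F)) := by
              rw [e0]
          _ = Pi.single i 1 := by
              rw [Matrix.mulVec_mulVec, ← Units.val_mul, inv_mul_cancel, Units.val_one,
                Matrix.one_mulVec]
      have e2 : (Pi.single j c : κ → F) ᵥ* ((root_sl_rot j k hjk : GL κ F) : Matrix κ κ F) =
          Pi.single k c := by
        funext l
        rw [Matrix.single_vecMul]
        show c * ((root_sl_rot j k hjk : GL κ F) : Matrix κ κ F) j l = _
        rw [root_sl_rot_apply, if_pos rfl, Pi.single_apply, Pi.single_apply]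
        by_cases hl : l = k
        · rw [if_pos hl, if_pos hl.symm, mul_one]
        · rw [if_neg hl, if_neg (fun h => hl h.symm), mul_zero]
      rw [e1, e2] at h1
      exact h1
  -- `e_i` is a centre
  have hci : (Pi.single i 1 : κ → F) ∈ centres X := by
    apply mem_centres_of_TM
    intro ψ hψ
    rw [dotProduct_single_one] at hψ
    have hsum : ∀ s : Finset κ, i ∉ s →
        TM X (Pi.single i 1) (∑ k ∈ s, (Pi.single k (ψ k) : κ → F)) := by
      intro s
      induction s using Finset.induction_on with
      | empty =>
        intro _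
        rw [Finset.sum_empty]
        exact root_sl_TM_zero X _
      | insert k s hk ih =>
        intro hi
        rw [Finset.sum_insert hk]
        have hki : k ≠ i := fun h => hi (by rw [← h]; exact Finset.mem_insert_self k s)
        exact TM_add (hB k hki _) (ih (fun h => hi (Finset.mem_insert_of_mem h)))
    have hψeq : ψ = ∑ k ∈ Finset.univ.erase i, (Pi.single k (ψ k) : κ → F) := by
      have h1 := Finset.univ_sum_single ψ
      rw [← Finset.add_sum_erase Finset.univ _ (Finset.mem_univ i), hψ, Pi.single_zero,
        zero_add] at h1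
      exact h1.symm
    have h2 := hsum (Finset.univ.erase i) (Finset.notMem_erase i Finset.univ)
    rw [← hψeq] at h2
    exact h2
  -- every basis vector is a centre
  have hck : ∀ k : κ, (Pi.single k 1 : κ → F) ∈ centres X := by
    intro k
    by_cases hki : k = i
    · rw [hki]
      exact hci
    · have hik : i ≠ k := fun h => hki h.symm
      have h1 := centres_smul_mem X hci (hrotX i k hik)
      have e1 : ((root_sl_rot i k hik : GL κ F) : Matrix κ κ F) *ᵥ (Pi.single i 1 : κ → F) =
          Pi.single k (-1) := by
        funext l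
        rw [root_sl_rot_mulVec]
        by_cases hl1 : l = i
        · rw [if_pos hl1, Pi.single_eq_of_ne hki, hl1, Pi.single_eq_of_ne hik]
        · by_cases hl2 : l = k
          · rw [if_neg hl1, if_pos hl2, Pi.single_eq_same, hl2, Pi.single_eq_same]
          · rw [if_neg hl1, if_neg hl2, Pi.single_eq_of_ne hl1, Pi.single_eq_of_ne hl2]
      rw [e1] at h1
      have h2 := centres_smul X h1 (-1)
      have e2 : (-1 : F) • (Pi.single k (-1) : κ → F) = Pi.single k 1 := by
        funext l
        by_cases hl : l = k
        · subst hl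
          simp
        · simp [Pi.single_eq_of_ne hl]
      rw [e2] at h2
      exact h2
  -- every vector is a centre
  have hall : ∀ v : κ → F, v ∈ centres X := by
    intro v
    have h0c : (0 : κ → F) ∈ centres X := by
      have h1 := centres_smul X hci 0
      rwa [zero_smul] at h1
    have hsum : ∀ s : Finset κ, (∑ k ∈ s, (Pi.single k (v k) : κ → F)) ∈ centres X := by
      intro s
      induction s using Finset.induction_on with
      | empty =>
        rw [Finset.sum_empty]
        exact h0c
      | insert k s hk ih =>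
        rw [Finset.sum_insert hk]
        have h1 := centres_smul X (hck k) (v k)
        have e : v k • (Pi.single k 1 : κ → F) = Pi.single k (v k) := by
          funext l
          by_cases hl : l = k
          · subst hl
            simp
          · simp [Pi.single_eq_of_ne hl]
        rw [e] at h1
        exact centres_add X h1 ih
    have h2 := hsum Finset.univ
    rw [Finset.univ_sum_single] at h2
    exact h2
  exact specialLinear_le_of_tv X (fun v φ hφ t ht => hall v φ hφ t ht)

end

end Cfsg.Agent.Lib.Helper65.Mono
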