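import Cfsg.Agent.Lib.Helper10.LC0

set_option autoImplicit false

namespace Cfsg.Agent.Lib.Helper18.LCB11

open Matrix Cfsg.Agent.Lib.Helper10.LC

/-- LC-B11: the mod-4 pattern of an odd vector of a good lattice (after sign normalisation) is a
code word, the code being self-dual. -/
theorem odd_pattern_mem {M : AddSubgroup (Fin 24 → ℤ)} (hM : Good M) (ε : Fin 24 → ℤ)
    (hε : ∀ i, ε i = 1 ∨ ε i = -1)
    (hsum : ∀ y ∈ M, (∀ i, y i % 2 = 0) → (∑ i, ε i * y i) % 8 = 0)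
    (hnf : ∀ c ∈ code M, ∃ y ∈ M, ∀ i, (c i = 1 → (y i = 2 ∨ y i = -2)) ∧ (c i = 0 → y i = 0))
    (hsd : ∀ t : Fin 24 → ZMod 2, (∀ c ∈ code M, ∑ i, c i * t i = 0) → t ∈ code M)
    (y : Fin 24 → ℤ) (hy : y ∈ M) (hodd : ∀ i, y i % 2 = 1) :
    (fun i => if (ε i * y i) % 4 = 3 then (1 : ZMod 2) else 0) ∈ code M := by
  classical
  have h01 : ∀ x : ZMod 2, x = 0 ∨ x = 1 := by decide
  apply hsd
  intro c hc
  obtain ⟨yc, hycM, hyc⟩ := hnf c hc
  -- (i) 8 ∣ Σ y i * yc i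
  have hexp : ∑ i, (y + yc) i ^ 2 = ∑ i, y i ^ 2 + 2 * ∑ i, y i * yc i + ∑ i, yc i ^ 2 := by
    rw [Finset.mul_sum, ← Finset.sum_add_distrib, ← Finset.sum_add_distrib]
    apply Finset.sum_congr rfl
    intro i _
    simp only [Pi.add_apply]
    ring
  have hdot : (8 : ℤ) ∣ ∑ i, y i * yc i := by
    have h1 := hM.norm16 (y + yc) (M.add_mem hy hycM)
    have h2 := hM.norm16 y hy
    have h3 := hM.norm16 yc hycM
    rw [hexp] at h1
    omega
  -- (ii)
  have hdot' : ∑ i, (ε i * y i) * (ε i * yc i) = ∑ i, y i * yc i := by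
    apply Finset.sum_congr rfl
    intro i _
    rcases hε i with he | he <;> rw [he] <;> ring
  have hyceven : ∀ i, yc i % 2 = 0 := by
    intro i
    rcases h01 (c i) with h | h
    · rw [(hyc i).2 h]; rfl
    · rcases (hyc i).1 h with h' | h' <;> rw [h'] <;> rfl
  have hs8 := hsum yc hycM hyceven
  -- (iii) termwise congruence
  have hterm : ∀ i, (8 : ℤ) ∣ (ε i * y i) * (ε i * yc i) - ε i * yc i
      - 4 * (if (c i = 1 ∧ (ε i * y i) % 4 = 3) then (1 : ℤ) else 0) := by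
    intro i
    have ho := hodd i
    rcases h01 (c i) with h | h
    · have hz := (hyc i).2 h
      have hc1 : ¬ (c i = 1 ∧ (ε i * y i) % 4 = 3) := by
        rintro ⟨h1, -⟩
        rw [h] at h1
        exact absurd h1 (by decide)
      rw [if_neg hc1, hz]
      simp
    · rcases (hyc i).1 h with h' | h' <;> rcases hε i with he | he <;>
        simp only [h, he, h', true_and] <;> split_ifs <;> omega
  have hD : (8 : ℤ) ∣ ∑ i, ((ε i * y i) * (ε i * yc i) - ε i * yc i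
      - 4 * (if (c i = 1 ∧ (ε i * y i) % 4 = 3) then (1 : ℤ) else 0)) :=
    Finset.dvd_sum (fun i _ => hterm i)
  rw [Finset.sum_sub_distrib, Finset.sum_sub_distrib, ← Finset.mul_sum, hdot'] at hD
  have hN : (2 : ℤ) ∣ ∑ i, (if (c i = 1 ∧ (ε i * y i) % 4 = 3) then (1 : ℤ) else 0) := by
    omega
  -- conclusion in ZMod 2
  have hcast : ∑ i, c i * (if (ε i * y i) % 4 = 3 then (1 : ZMod 2) else 0)
      = ((∑ i, (if (c i = 1 ∧ (ε i * y i) % 4 = 3) then (1 : ℤ) else 0) : ℤ) : ZMod 2) := by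
    rw [Int.cast_sum]
    apply Finset.sum_congr rfl
    intro i _
    rcases h01 (c i) with h | h
    · rw [h, zero_mul, if_neg]
      · simp
      · rintro ⟨h1, -⟩
        exact absurd h1 (by decide)
    · by_cases h3 : (ε i * y i) % 4 = 3
      · rw [if_pos h3, if_pos ⟨h, h3⟩, h]
        simp
      · rw [if_neg h3, if_neg (fun hh => h3 hh.2)]
        simp
  rw [hcast]
  exact (ZMod.intCast_zmod_eq_zero_iff_dvd _ 2).mpr hN

end Cfsg.Agent.Lib.Helper18.LCB11
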