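import Cfsg.Agent.Lib.Helper10.LC0

set_option autoImplicit false

namespace Cfsg.Agent.Lib.Helper18.LCB9

open Matrix Cfsg.Agent.Lib.Helper10.LC

/-- an odd vector of norm 32 has exactly one coordinate `±3`, the others being `±1`. -/
theorem odd_shape (y : Fin 24 → ℤ) (hs : ∑ i, y i ^ 2 = 32) (hodd : ∀ i, y i % 2 = 1) :
    ∃ j : Fin 24, y j ^ 2 = 9 ∧ ∀ i, i ≠ j → y i ^ 2 = 1 := by
  classical
  have hcase : ∀ i, y i ^ 2 = 1 ∨ 9 ≤ y i ^ 2 := by
    intro i
    have h := hodd i
    have h' : y i ≤ -3 ∨ y i = -1 ∨ y i = 1 ∨ 3 ≤ y i := by omega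
    rcases h' with h' | h' | h' | h'
    · right; nlinarith
    · left; rw [h']; norm_num
    · left; rw [h']; norm_num
    · right; nlinarith
  have hge1 : ∀ i, 1 ≤ y i ^ 2 := by
    intro i
    rcases hcase i with h | h <;> omega
  have hlow : ∀ s : Finset (Fin 24), (s.card : ℤ) ≤ ∑ i ∈ s, y i ^ 2 := by
    intro s
    have : ∑ i ∈ s, (1 : ℤ) ≤ ∑ i ∈ s, y i ^ 2 := Finset.sum_le_sum (fun i _ => hge1 i)
    simpa using this
  -- some coordinate is big
  have hex : ∃ j, 9 ≤ y j ^ 2 := by
    by_contra hne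
    rw [not_exists] at hne
    have hall : ∀ i, y i ^ 2 = 1 := by
      intro i
      rcases hcase i with h | h
      · exact h
      · exact absurd h (hne i)
    have : ∑ i : Fin 24, y i ^ 2 = 24 := by
      rw [Finset.sum_congr rfl (fun i _ => hall i)]
      simp
    omega
  obtain ⟨j, hj⟩ := hex
  have hsplit : y j ^ 2 + ∑ i ∈ (Finset.univ.erase j), y i ^ 2 = 32 := by
    rw [← hs]
    exact Finset.add_sum_erase Finset.univ (fun i => y i ^ 2) (Finset.mem_univ j)
  have hcard : ((Finset.univ.erase j : Finset (Fin 24)).card : ℤ) = 23 := by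
    rw [Finset.card_erase_of_mem (Finset.mem_univ j)]
    simp
  have h23 := hlow (Finset.univ.erase j)
  rw [hcard] at h23
  refine ⟨j, by omega, ?_⟩
  intro i hij
  have himem : i ∈ (Finset.univ.erase j : Finset (Fin 24)) :=
    Finset.mem_erase.mpr ⟨hij, Finset.mem_univ i⟩
  have hsplit2 : y i ^ 2 + ∑ k ∈ (Finset.univ.erase j).erase i, y k ^ 2
      = ∑ k ∈ (Finset.univ.erase j), y k ^ 2 :=
    Finset.add_sum_erase (Finset.univ.erase j) (fun k => y k ^ 2) himem
  have hcard2 : (((Finset.univ.erase j).erase i : Finset (Fin 24)).card : ℤ) = 22 := by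
    rw [Finset.card_erase_of_mem himem, Finset.card_erase_of_mem (Finset.mem_univ j)]
    simp
  have h22 := hlow ((Finset.univ.erase j).erase i)
  rw [hcard2] at h22
  rcases hcase i with h | h
  · exact h
  · omega

/-- LC-B9: the odd minimal vectors of a good lattice number at most `24 * |code M|`. -/
theorem odd_min_count {M : AddSubgroup (Fin 24 → ℤ)} (hM : Good M) :
    {y : Fin 24 → ℤ | y ∈ M ∧ ∑ i, y i ^ 2 = 32 ∧ ∀ i, y i % 2 = 1}.ncard ≤
      24 * Nat.card (code M) := by
  classical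
  set S : Set (Fin 24 → ℤ) := {y : Fin 24 → ℤ | y ∈ M ∧ ∑ i, y i ^ 2 = 32 ∧ ∀ i, y i % 2 = 1}
    with hS
  by_cases hne : S.Nonempty
  swap
  · rw [Set.not_nonempty_iff_eq_empty] at hne
    rw [hne, Set.ncard_empty]
    exact Nat.zero_le _
  obtain ⟨y0, hy0M, hy0s, hy0odd⟩ := hne
  -- the index of the coordinate ±3
  let jj : (Fin 24 → ℤ) → Fin 24 := fun y =>
    if h : ∃ j : Fin 24, y j ^ 2 = 9 ∧ ∀ i, i ≠ j → y i ^ 2 = 1 then Classical.choose h else 0
  have hjj : ∀ y ∈ S, y (jj y) ^ 2 = 9 ∧ ∀ i, i ≠ jj y → y i ^ 2 = 1 := by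
    intro y hy
    have h := odd_shape y hy.2.1 hy.2.2
    have : jj y = Classical.choose h := dif_pos h
    rw [this]
    exact Classical.choose_spec h
  -- the code word of the difference with y0
  let dd : (Fin 24 → ℤ) → (Fin 24 → ZMod 2) := fun y i => (((y i - y0 i) / 2 : ℤ) : ZMod 2)
  have hdd : ∀ y ∈ S, dd y ∈ code M := by
    intro y hy
    refine ⟨y - y0, M.sub_mem hy.1 hy0M, fun i => ?_, fun i => rfl⟩
    have h1 := hy.2.2 i
    have h2 := hy0odd i
    simp only [Pi.sub_apply]
    omega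
  let f : (Fin 24 → ℤ) → Fin 24 × code M := fun y =>
    if h : y ∈ S then (jj y, ⟨dd y, hdd y h⟩) else (0, 0)
  have hfin : (Set.univ : Set (Fin 24 × code M)).Finite := Set.finite_univ
  have hinj : Set.InjOn f S := by
    intro y hy y' hy' hff
    have e1 : f y = (jj y, ⟨dd y, hdd y hy⟩) := dif_pos hy
    have e2 : f y' = (jj y', ⟨dd y', hdd y' hy'⟩) := dif_pos hy'
    rw [e1, e2] at hff
    have hj : jj y = jj y' := congrArg Prod.fst hff
    have hd : dd y = dd y' := congrArg (fun p : Fin 24 × code M => (p.2 : Fin 24 → ZMod 2)) hff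
    funext i
    have hdi : (((y i - y0 i) / 2 : ℤ) : ZMod 2) = (((y' i - y0 i) / 2 : ℤ) : ZMod 2) :=
      congrFun hd i
    rw [ZMod.intCast_eq_intCast_iff_dvd_sub] at hdi
    have h1 := hy.2.2 i
    have h2 := hy'.2.2 i
    have h0 := hy0odd i
    have h4 : (y i - y' i) % 4 = 0 := by
      obtain ⟨t, ht⟩ := hdi
      push_cast at ht
      omega
    obtain ⟨hy9, hy1⟩ := hjj y hy
    obtain ⟨hy9', hy1'⟩ := hjj y' hy'
    by_cases hi : i = jj y
    · have a1 : y i ^ 2 = 9 := by rw [hi]; exact hy9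
      have a2 : y' i ^ 2 = 9 := by rw [hi, hj]; exact hy9'
      have b1 : y i = 3 ∨ y i = -3 := by
        have : (y i - 3) * (y i + 3) = 0 := by nlinarith
        rcases mul_eq_zero.mp this with h | h
        · left; omega
        · right; omega
      have b2 : y' i = 3 ∨ y' i = -3 := by
        have : (y' i - 3) * (y' i + 3) = 0 := by nlinarith
        rcases mul_eq_zero.mp this with h | h
        · left; omega
        · right; omega
      omega
    · have a1 : y i ^ 2 = 1 := hy1 i hi
      have a2 : y' i ^ 2 = 1 := hy1' i (by rw [← hj]; exact hi)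
      have b1 : y i = 1 ∨ y i = -1 := by
        have : (y i - 1) * (y i + 1) = 0 := by nlinarith
        rcases mul_eq_zero.mp this with h | h
        · left; omega
        · right; omega
      have b2 : y' i = 1 ∨ y' i = -1 := by
        have : (y' i - 1) * (y' i + 1) = 0 := by nlinarith
        rcases mul_eq_zero.mp this with h | h
        · left; omega
        · right; omega
      omega
  have h1 : S.ncard ≤ (Set.univ : Set (Fin 24 × code M)).ncard :=
    Set.ncard_le_ncard_of_injOn f (fun _ _ => Set.mem_univ _) hinj hfin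
  have h2 : (Set.univ : Set (Fin 24 × code M)).ncard = 24 * Nat.card (code M) := by
    rw [Set.ncard_univ, Nat.card_prod, Nat.card_fin]
  rw [h2] at h1
  exact h1

end Cfsg.Agent.Lib.Helper18.LCB9
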