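import Cfsg.Agent.Lib.Helper10.TH0

/-!
# S1632 piece B6: `n`-dimensional Gaussian theta inversion for triangular forms

Induction on the triangular data `Tri n`, using the one-dimensional inversion formula (given as a
hypothesis) and Fubini for absolutely summable double series.
-/

set_option autoImplicit false

namespace Cfsg.Agent.Lib.Helper18.THB6

open Matrix Complex UpperHalfPlane ModularForm MatrixGroups Cfsg.Agent.Lib.Helper10.TH
open scoped Manifold Real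

/-- the term of the theta sum of `T` with phase `z` -/
noncomputable def Ft (t : ℂ) {n : ℕ} (T : Tri n) (z : Fin n → ℝ) (x : Fin n → ℤ) : ℂ :=
  cexp (-(π : ℂ) * t * ((T.Q (fun i => (x i : ℝ)) : ℝ) : ℂ) +
    2 * π * Complex.I * ((∑ i, (x i : ℝ) * z i : ℝ) : ℂ))

/-- the term of the dual theta sum of `T` with shift `z` -/
noncomputable def Gt (t : ℂ) {n : ℕ} (T : Tri n) (z : Fin n → ℝ) (ξ : Fin n → ℤ) : ℂ :=
  cexp (-(π : ℂ) / t * ((T.Qd (fun i => (ξ i : ℝ) - z i) : ℝ) : ℂ))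

theorem norm_Ft (t : ℂ) {n : ℕ} (T : Tri n) (z : Fin n → ℝ) (x : Fin n → ℤ) :
    ‖Ft t T z x‖ = Real.exp (-(π * t.re) * T.Q (fun i => (x i : ℝ))) := by
  rw [Ft, Complex.norm_exp]
  congr 1
  simp only [Complex.add_re, Complex.mul_re, Complex.neg_re, Complex.ofReal_re,
    Complex.ofReal_im, Complex.neg_im, Complex.mul_im, Complex.I_re, Complex.I_im,
    Complex.re_ofNat, Complex.im_ofNat]
  ring

theorem norm_Gt (t : ℂ) {n : ℕ} (T : Tri n) (z : Fin n → ℝ) (ξ : Fin n → ℤ) :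
    ‖Gt t T z ξ‖ =
      Real.exp (-(π * (t.re / Complex.normSq t)) * T.Qd (fun i => (ξ i : ℝ) - z i)) := by
  rw [Gt, Complex.norm_exp]
  congr 1
  simp only [div_eq_mul_inv, Complex.mul_re, Complex.neg_re, Complex.ofReal_re,
    Complex.ofReal_im, Complex.neg_im, Complex.mul_im, Complex.inv_re, Complex.inv_im]
  ring

theorem norm_gauss (t : ℂ) (d : ℝ) (k : ℤ) (z0 : ℝ) :
    ‖cexp (-(π : ℂ) / (t * d) * ((k : ℂ) - z0) ^ 2)‖ =
      Real.exp (-(π * (t.re / Complex.normSq t) / d) * ((k : ℝ) - z0) ^ 2) := by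
  have e : -(π : ℂ) / (t * d) * ((k : ℂ) - z0) ^ 2
      = -(π : ℂ) * t⁻¹ * (((d⁻¹ * ((k : ℝ) - z0) ^ 2 : ℝ)) : ℂ) := by
    push_cast
    rw [div_eq_mul_inv, mul_inv]
    ring
  rw [e, Complex.norm_exp]
  congr 1
  simp only [Complex.mul_re, Complex.neg_re, Complex.ofReal_re,
    Complex.ofReal_im, Complex.neg_im, Complex.mul_im, Complex.inv_re, Complex.inv_im]
  ring

theorem rho_pos {t : ℂ} (ht : 0 < t.re) : 0 < π * (t.re / Complex.normSq t) := by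
  have ht0 : t ≠ 0 := by
    rintro rfl
    simp at ht
  exact mul_pos Real.pi_pos (div_pos ht (Complex.normSq_pos.mpr ht0))

theorem summable_Ft
    (hQ : ∀ {n : ℕ} (T : Tri n) (ρ : ℝ), 0 < ρ →
      Summable (fun x : Fin n → ℤ => Real.exp (-ρ * T.Q (fun i => (x i : ℝ)))))
    {t : ℂ} (ht : 0 < t.re) {n : ℕ} (T : Tri n) (z : Fin n → ℝ) : Summable (Ft t T z) := by
  apply Summable.of_norm
  simp only [norm_Ft]
  exact hQ T (π * t.re) (mul_pos Real.pi_pos ht)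

theorem summable_Gt
    (hQd : ∀ {n : ℕ} (T : Tri n) (ρ : ℝ), 0 < ρ → ∀ z : Fin n → ℝ,
      Summable (fun ξ : Fin n → ℤ => Real.exp (-ρ * T.Qd (fun i => (ξ i : ℝ) - z i))))
    {t : ℂ} (ht : 0 < t.re) {n : ℕ} (T : Tri n) (z : Fin n → ℝ) : Summable (Gt t T z) := by
  apply Summable.of_norm
  simp only [norm_Gt]
  exact hQd T _ (rho_pos ht) z

/-- `(x', x0) ↦ cons x0 x'` -/
def consE (n : ℕ) : (Fin n → ℤ) × ℤ ≃ (Fin (n + 1) → ℤ) where
  toFun p := Fin.cons p.2 p.1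
  invFun x := (fun j => x j.succ, x 0)
  left_inv p := by simp
  right_inv x := Fin.cons_self_tail x

/-- `(x0, x') ↦ cons x0 x'` -/
def consE' (n : ℕ) : ℤ × (Fin n → ℤ) ≃ (Fin (n + 1) → ℤ) where
  toFun p := Fin.cons p.1 p.2
  invFun x := (x 0, fun j => x j.succ)
  left_inv p := by simp
  right_inv x := Fin.cons_self_tail x

theorem Ft_cons (t : ℂ) {n : ℕ} (d : ℝ) (hd : 0 < d) (u : Fin n → ℝ) (T' : Tri n)
    (z : Fin (n + 1) → ℝ) (x' : Fin n → ℤ) (x0 : ℤ) :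
    Ft t (Tri.cons d hd u T') z (Fin.cons x0 x') =
      cexp (-(π : ℂ) * t * d * ((x0 : ℂ) + ((∑ j, u j * (x' j : ℝ) : ℝ) : ℂ)) ^ 2
        + 2 * π * Complex.I * (x0 : ℂ) * ((z 0 : ℝ) : ℂ)) * Ft t T' (fun j => z j.succ) x' := by
  rw [Ft, Ft, ← Complex.exp_add]
  congr 1
  rw [Tri.Q_cons, Fin.sum_univ_succ]
  simp only [Fin.cons_zero, Fin.cons_succ]
  push_cast
  ring

theorem Ft_shift (t : ℂ) {n : ℕ} (d : ℝ) (u : Fin n → ℝ) (T' : Tri n)
    (z : Fin (n + 1) → ℝ) (x' : Fin n → ℤ) (k : ℤ) :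
    cexp (-(π : ℂ) / (t * d) * ((k : ℂ) - ((z 0 : ℝ) : ℂ)) ^ 2 +
        2 * π * Complex.I * ((∑ j, u j * (x' j : ℝ) : ℝ) : ℂ) * ((k : ℂ) - ((z 0 : ℝ) : ℂ)))
      * Ft t T' (fun j => z j.succ) x' =
    cexp (-(π : ℂ) / (t * d) * ((k : ℂ) - ((z 0 : ℝ) : ℂ)) ^ 2)
      * Ft t T' (fun j => z j.succ + ((k : ℝ) - z 0) * u j) x' := by
  have e : ∑ j, (x' j : ℝ) * (z j.succ + ((k : ℝ) - z 0) * u j)
      = ∑ j, (x' j : ℝ) * z j.succ + ((k : ℝ) - z 0) * ∑ j, u j * (x' j : ℝ) := by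
    rw [Finset.mul_sum, ← Finset.sum_add_distrib]
    exact Finset.sum_congr rfl (fun j _ => by ring)
  simp only [Ft]
  rw [e, ← Complex.exp_add, ← Complex.exp_add]
  congr 1
  push_cast
  ring

theorem Gt_cons (t : ℂ) (ht0 : t ≠ 0) {n : ℕ} (d : ℝ) (hd : 0 < d) (u : Fin n → ℝ)
    (T' : Tri n) (z : Fin (n + 1) → ℝ) (ξ' : Fin n → ℤ) (k : ℤ) :
    cexp (-(π : ℂ) / (t * d) * ((k : ℂ) - ((z 0 : ℝ) : ℂ)) ^ 2)
      * Gt t T' (fun j => z j.succ + ((k : ℝ) - z 0) * u j) ξ' =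
    Gt t (Tri.cons d hd u T') z (Fin.cons k ξ') := by
  have hd0 : (d : ℂ) ≠ 0 := by exact_mod_cast hd.ne'
  have e : (fun j => (ξ' j : ℝ) - (z j.succ + ((k : ℝ) - z 0) * u j))
      = (fun j => (ξ' j : ℝ) - z j.succ - ((k : ℝ) - z 0) * u j) := by
    funext j
    ring
  simp only [Gt]
  rw [← Complex.exp_add, Tri.Qd_cons]
  simp only [Fin.cons_zero, Fin.cons_succ]
  rw [e]
  congr 1
  push_cast
  field_simp
  ring

/-- the main induction -/
theorem inv_aux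
    (h1 : ∀ c : ℝ, 0 < c → ∀ z : ℝ, Summable (fun k : ℤ => Real.exp (-c * ((k : ℝ) - z) ^ 2)))
    (hQ : ∀ {n : ℕ} (T : Tri n) (ρ : ℝ), 0 < ρ →
      Summable (fun x : Fin n → ℤ => Real.exp (-ρ * T.Q (fun i => (x i : ℝ)))))
    (hQd : ∀ {n : ℕ} (T : Tri n) (ρ : ℝ), 0 < ρ → ∀ z : Fin n → ℝ,
      Summable (fun ξ : Fin n → ℤ => Real.exp (-ρ * T.Qd (fun i => (ξ i : ℝ) - z i))))
    (h5 : ∀ (t : ℂ), 0 < t.re → ∀ (d : ℝ), 0 < d → ∀ (s z : ℝ),
      ∑' k : ℤ, cexp (-(π : ℂ) * t * d * ((k : ℂ) + s) ^ 2 + 2 * π * Complex.I * (k : ℂ) * z) =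
        (((Real.sqrt d)⁻¹ : ℝ) : ℂ) * (t ^ (1 / 2 : ℂ))⁻¹ *
          ∑' k : ℤ, cexp (-(π : ℂ) / (t * d) * ((k : ℂ) - z) ^ 2 +
            2 * π * Complex.I * s * ((k : ℂ) - z)))
    (t : ℂ) (ht : 0 < t.re) :
    ∀ {n : ℕ} (T : Tri n) (z : Fin n → ℝ),
      ∑' x : Fin n → ℤ, Ft t T z x =
        (T.c : ℂ) * ((t ^ (1 / 2 : ℂ)) ^ n)⁻¹ * ∑' ξ : Fin n → ℤ, Gt t T z ξ
  | _, .nil, z => by
      rw [tsum_eq_single (0 : Fin 0 → ℤ) (fun b hb => absurd (Subsingleton.elim b 0) hb),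
        tsum_eq_single (0 : Fin 0 → ℤ) (fun b hb => absurd (Subsingleton.elim b 0) hb)]
      simp [Ft, Gt, Tri.Q_nil, Tri.Qd_nil, Tri.c_nil]
  | _, .cons (n := n) d hd u T', z => by
      have ht0 : t ≠ 0 := by
        rintro rfl
        simp at ht
      -- step 1: split off the first coordinate
      have hsF : Summable (fun p : (Fin n → ℤ) × ℤ => Ft t (Tri.cons d hd u T') z (consE n p)) :=
        (Equiv.summable_iff (consE n)).2 (summable_Ft hQ ht (Tri.cons d hd u T') z)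
      have s1 : ∑' x : Fin (n + 1) → ℤ, Ft t (Tri.cons d hd u T') z x
          = ∑' (x' : Fin n → ℤ) (x0 : ℤ), Ft t (Tri.cons d hd u T') z (Fin.cons x0 x') := by
        rw [← Equiv.tsum_eq (consE n), hsF.tsum_prod]
        rfl
      -- step 2: the inner sum by the one-dimensional formula
      have s2 : ∀ x' : Fin n → ℤ,
          ∑' x0 : ℤ, Ft t (Tri.cons d hd u T') z (Fin.cons x0 x')
            = (((Real.sqrt d)⁻¹ : ℝ) : ℂ) * (t ^ (1 / 2 : ℂ))⁻¹ *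
              ∑' k : ℤ, cexp (-(π : ℂ) / (t * d) * ((k : ℂ) - ((z 0 : ℝ) : ℂ)) ^ 2)
                * Ft t T' (fun j => z j.succ + ((k : ℝ) - z 0) * u j) x' := by
        intro x'
        simp only [Ft_cons]
        rw [tsum_mul_right, h5 t ht d hd _ (z 0), mul_assoc, ← tsum_mul_right]
        congr 1
        exact tsum_congr fun k => Ft_shift t d u T' z x' k
      -- step 3: swap the two sums
      have hsH : Summable (Function.uncurry fun (x' : Fin n → ℤ) (k : ℤ) =>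
          cexp (-(π : ℂ) / (t * d) * ((k : ℂ) - ((z 0 : ℝ) : ℂ)) ^ 2)
            * Ft t T' (fun j => z j.succ + ((k : ℝ) - z 0) * u j) x') := by
        apply Summable.of_norm
        have hc : 0 < π * (t.re / Complex.normSq t) / d := div_pos (rho_pos ht) hd
        have := Summable.mul_of_nonneg (hQ T' (π * t.re) (mul_pos Real.pi_pos ht))
          (h1 _ hc (z 0)) (fun _ => (Real.exp_pos _).le) (fun _ => (Real.exp_pos _).le)
        refine this.congr ?_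
        rintro ⟨x', k⟩
        simp only [Function.uncurry_apply_pair, norm_mul, norm_gauss, norm_Ft]
        ring
      have s3 : ∀ k : ℤ,
          ∑' x' : Fin n → ℤ, cexp (-(π : ℂ) / (t * d) * ((k : ℂ) - ((z 0 : ℝ) : ℂ)) ^ 2)
              * Ft t T' (fun j => z j.succ + ((k : ℝ) - z 0) * u j) x'
            = (T'.c : ℂ) * ((t ^ (1 / 2 : ℂ)) ^ n)⁻¹ *
              ∑' ξ' : Fin n → ℤ, Gt t (Tri.cons d hd u T') z (Fin.cons k ξ') := by
        intro k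
        rw [tsum_mul_left, inv_aux h1 hQ hQd h5 t ht T' _, mul_left_comm, ← tsum_mul_left]
        congr 1
        exact tsum_congr fun ξ' => Gt_cons t ht0 d hd u T' z ξ' k
      -- step 4: the right-hand side
      have hsG : Summable (fun p : ℤ × (Fin n → ℤ) => Gt t (Tri.cons d hd u T') z (consE' n p)) :=
        (Equiv.summable_iff (consE' n)).2 (summable_Gt hQd ht (Tri.cons d hd u T') z)
      have s4 : ∑' ξ : Fin (n + 1) → ℤ, Gt t (Tri.cons d hd u T') z ξ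
          = ∑' (k : ℤ) (ξ' : Fin n → ℤ), Gt t (Tri.cons d hd u T') z (Fin.cons k ξ') := by
        rw [← Equiv.tsum_eq (consE' n), hsG.tsum_prod]
        rfl
      rw [s1, s4, tsum_congr s2, tsum_mul_left, hsH.tsum_comm.symm, tsum_congr s3, tsum_mul_left,
        Tri.c_cons, pow_succ]
      push_cast
      rw [mul_inv]
      ring

/-- Piece B6 of S1632 (from B1, B3, B4, B5 as hypotheses). -/
theorem inv_of
    (h1 : ∀ c : ℝ, 0 < c → ∀ z : ℝ, Summable (fun k : ℤ => Real.exp (-c * ((k : ℝ) - z) ^ 2)))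
    (hQ : ∀ {n : ℕ} (T : Tri n) (ρ : ℝ), 0 < ρ →
      Summable (fun x : Fin n → ℤ => Real.exp (-ρ * T.Q (fun i => (x i : ℝ)))))
    (hQd : ∀ {n : ℕ} (T : Tri n) (ρ : ℝ), 0 < ρ → ∀ z : Fin n → ℝ,
      Summable (fun ξ : Fin n → ℤ => Real.exp (-ρ * T.Qd (fun i => (ξ i : ℝ) - z i))))
    (h5 : ∀ (t : ℂ), 0 < t.re → ∀ (d : ℝ), 0 < d → ∀ (s z : ℝ),
      ∑' k : ℤ, cexp (-(π : ℂ) * t * d * ((k : ℂ) + s) ^ 2 + 2 * π * Complex.I * (k : ℂ) * z) =
        (((Real.sqrt d)⁻¹ : ℝ) : ℂ) * (t ^ (1 / 2 : ℂ))⁻¹ *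
          ∑' k : ℤ, cexp (-(π : ℂ) / (t * d) * ((k : ℂ) - z) ^ 2 +
            2 * π * Complex.I * s * ((k : ℂ) - z)))
    {n : ℕ} (T : Tri n) (t : ℂ) (ht : 0 < t.re) (z : Fin n → ℝ) :
    ∑' x : Fin n → ℤ, cexp (-(π : ℂ) * t * ((T.Q (fun i => (x i : ℝ)) : ℝ) : ℂ) +
        2 * π * Complex.I * ((∑ i, (x i : ℝ) * z i : ℝ) : ℂ)) =
      (T.c : ℂ) * ((t ^ (1 / 2 : ℂ)) ^ n)⁻¹ *
        ∑' ξ : Fin n → ℤ, cexp (-(π : ℂ) / t * ((T.Qd (fun i => (ξ i : ℝ) - z i) : ℝ) : ℂ)) :=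
  inv_aux h1 hQ hQd h5 t ht T z

end Cfsg.Agent.Lib.Helper18.THB6
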