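import Mathlib

/-!
# Project CT (S4699): definitions

Cyclic TI Sylow `p`-subgroup `P = ⟨x⟩` of order `p ^ n`; a faithful irreducible modular
representation has dimension at least `p ^ n - (p - 1)`.
-/

set_option autoImplicit false

namespace Cfsg.Agent.Lib.Helper18.CT

variable {G : Type*} [Group G] {F : Type*} [Field F] {V : Type*} [AddCommGroup V] [Module F V]

/-- The orbit of `x` under conjugation by the normalizer of `P`, as a finset. -/
noncomputable def orbN [Finite G] (P : Subgroup G) (x : G) : Finset G :=
  (Set.toFinite {u : G | ∃ g ∈ Subgroup.normalizer (P : Set G), u = g * x * g⁻¹}).toFinset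

/-- The product over the orbit of `x` of the operators `ρ u - 1` (they commute when `P` is
commutative; the product is taken along the list of the finset). -/
noncomputable def tau [Finite G] (ρ : Representation F G V) (P : Subgroup G) (x : G) :
    Module.End F V :=
  ((orbN P x).toList.map (fun u => ρ u - 1)).prod

/-- The conjugation trace `∑_{i<q} X^i φ Xi^i` (with `Xi` the inverse of `X`). -/
noncomputable def trX (X Xi : Module.End F V) (q : ℕ) (φ : Module.End F V) : Module.End F V :=
  ∑ i ∈ Finset.range q, X ^ i * φ * Xi ^ i

/-- `Θ g = ρ g * t * ρ g⁻¹`. -/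
noncomputable def Th (ρ : Representation F G V) (t : Module.End F V) (g : G) : Module.End F V :=
  ρ g * t * ρ g⁻¹

/-- The relative trace from `N` to `G` of `t`: the sum of `Θ` over coset representatives. -/
noncomputable def dN [Finite G] (ρ : Representation F G V) (N : Subgroup G) (t : Module.End F V) :
    Module.End F V :=
  ∑ᶠ c : G ⧸ N, Th ρ t (Quotient.out c)

end Cfsg.Agent.Lib.Helper18.CT
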