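import Mathlib
import Cfsg.Agent.Lib.Helper48.StB

set_option autoImplicit false

namespace Cfsg.Agent.Lib.Helper48.St

open Cfsg.Agent.Lib.Helper48 Matrix

variable {K : Type*} [Field K] {G : Type*} [Group G] {n : ℕ}
variable {X : Fin n → Fin n → K → G}

theorem h18_spW_false_coe (t : K) (ht : t ≠ 0) :
    ((spW spM false t : Matrix.SpecialLinearGroup (Fin 2) K) : Matrix (Fin 2) (Fin 2) K)
      = !![0, -t⁻¹; t, 0] := by
  unfold spW
  rw [show (!false) = true from rfl, spM_false, spM_true]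
  ext i j
  fin_cases i <;> fin_cases j <;>
    simp [spXm_coe, spYm_coe, Matrix.mul_apply, Fin.sum_univ_two, ht]

theorem h18_H_mul (s t : K) (hs : s ≠ 0) (ht : t ≠ 0) :
    (spH spM (s * t) : Matrix.SpecialLinearGroup (Fin 2) K) = spH spM s * spH spM t := by
  apply Subtype.ext
  rw [Matrix.SpecialLinearGroup.coe_mul, spH_spM_coe _ (mul_ne_zero hs ht), spH_spM_coe _ hs,
    spH_spM_coe _ ht]
  ext i j
  fin_cases i <;> fin_cases j <;> simp [Matrix.mul_apply, Fin.sum_univ_two, mul_comm]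

theorem h18_W_swap (t : K) (ht : t ≠ 0) :
    (spW spM false t : Matrix.SpecialLinearGroup (Fin 2) K) = spW spM true (-t⁻¹) := by
  apply Subtype.ext
  rw [h18_spW_false_coe t ht, spW_spM_coe _ (neg_ne_zero.mpr (inv_ne_zero ht))]
  ext i j
  fin_cases i <;> fin_cases j <;> simp

theorem h18_H_swap (t : K) (ht : t ≠ 0) :
    (spW spM false t * (spW spM false 1)⁻¹ : Matrix.SpecialLinearGroup (Fin 2) K) =
      spH spM t⁻¹ := by
  apply Subtype.ext
  rw [Matrix.SpecialLinearGroup.coe_mul, Matrix.SpecialLinearGroup.coe_inv,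
    h18_spW_false_coe t ht, h18_spW_false_coe 1 one_ne_zero, spH_spM_coe _ (inv_ne_zero ht)]
  ext i j
  fin_cases i <;> fin_cases j <;>
    simp [Matrix.mul_apply, Fin.sum_univ_two, Matrix.adjugate_fin_two_of]

theorem h18_W_sq :
    (spW spM true 1 * spW spM true 1 : Matrix.SpecialLinearGroup (Fin 2) K) =
      spH spM (-1) := by
  apply Subtype.ext
  rw [Matrix.SpecialLinearGroup.coe_mul, spW_spM_coe 1 one_ne_zero,
    spH_spM_coe _ (neg_ne_zero.mpr one_ne_zero)]
  ext i j
  fin_cases i <;> fin_cases j <;> simp [Matrix.mul_apply, Fin.sum_univ_two]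

theorem h18_W_X_W (t s : K) (ht : t ≠ 0) (hs : s ≠ 0) :
    (spW spM true t * spM true s * spW spM true 1 : Matrix.SpecialLinearGroup (Fin 2) K) =
      spM true (-(t ^ 2 * s⁻¹)) * spW spM true (-(t * s⁻¹)) * spM true (-s⁻¹) := by
  have h1 : -(t * s⁻¹) ≠ 0 := neg_ne_zero.mpr (mul_ne_zero ht (inv_ne_zero hs))
  apply Subtype.ext
  rw [Matrix.SpecialLinearGroup.coe_mul, Matrix.SpecialLinearGroup.coe_mul,
    Matrix.SpecialLinearGroup.coe_mul, Matrix.SpecialLinearGroup.coe_mul,
    spW_spM_coe t ht, spW_spM_coe 1 one_ne_zero, spW_spM_coe _ h1, spM_true, spM_true, spM_true,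
    spXm_coe, spXm_coe, spXm_coe]
  ext i j
  fin_cases i <;> fin_cases j <;> simp [Matrix.mul_apply, Fin.sum_univ_two] <;> field_simp <;>
    ring

/-! ## Piece SL2X : consequences of the `SL₂`-homomorphisms -/
theorem sl2Facts [Finite K]
    (hsp : ∀ i j : Fin n, i ≠ j → SPRel (fun (b : Bool) (t : K) => if b then X i j t else X j i t)) :
    SL2Facts X := by
  have key : ∀ i j : Fin n, i ≠ j → ∃ ψ : Matrix.SpecialLinearGroup (Fin 2) K →* G,
      (∀ t, ψ (spM true t) = X i j t) ∧ (∀ t, ψ (spW spM true t) = stW X i j t) ∧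
      (∀ t, ψ (spW spM false t) = stW X j i t) ∧ (∀ t, ψ (spH spM t) = stH X i j t) := by
    intro i j hij
    obtain ⟨ψ, hψ⟩ := sl2_hom _ (hsp i j hij)
    have hx : ∀ t, ψ (spM true t) = X i j t := fun t => hψ true t
    have hy : ∀ t, ψ (spM false t) = X j i t := fun t => hψ false t
    have hW : ∀ t, ψ (spW spM true t) = stW X i j t := by
      intro t
      show ψ (spM true t * spM false (-t⁻¹) * spM true t) = _
      rw [map_mul, map_mul, hx, hy]
      rfl
    have hW' : ∀ t, ψ (spW spM false t) = stW X j i t := by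
      intro t
      show ψ (spM false t * spM true (-t⁻¹) * spM false t) = _
      rw [map_mul, map_mul, hx, hy]
      rfl
    refine ⟨ψ, hx, hW, hW', fun t => ?_⟩
    unfold spH stH
    rw [map_mul, map_inv, hW, hW]
  refine ⟨?_, ?_, ?_, ?_, ?_⟩
  · intro i j hij s t hs ht
    obtain ⟨ψ, hx, hW, hW', hH⟩ := key i j hij
    rw [← hH, ← hH, ← hH, ← map_mul, h18_H_mul s t hs ht]
  · intro i j hij t ht
    obtain ⟨ψ, hx, hW, hW', hH⟩ := key i j hij
    rw [← hW', ← hW, h18_W_swap t ht]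
  · intro i j hij t ht
    obtain ⟨ψ, hx, hW, hW', hH⟩ := key i j hij
    have e : stH X j i t = ψ (spW spM false t * (spW spM false 1)⁻¹) := by
      rw [map_mul, map_inv, hW', hW']
      rfl
    rw [e, ← hH, h18_H_swap t ht]
  · intro i j hij
    obtain ⟨ψ, hx, hW, hW', hH⟩ := key i j hij
    rw [← hW, ← hH, ← map_mul, h18_W_sq]
  · intro i j hij t s ht hs
    obtain ⟨ψ, hx, hW, hW', hH⟩ := key i j hij
    rw [← hW, ← hW, ← hW, ← hx, ← hx, ← hx, ← map_mul, ← map_mul, ← map_mul, ← map_mul,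
      h18_W_X_W t s ht hs]

end Cfsg.Agent.Lib.Helper48.St
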