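import Mathlib
import Cfsg.Agent.Lib.Helper18.CTDefs

set_option autoImplicit false

namespace Cfsg.Agent.Lib.Helper18.CT

variable {G : Type*} [Group G] {F : Type*} [Field F] {V : Type*} [AddCommGroup V] [Module F V]

theorem geom_char (p : ℕ) [Fact p.Prime] [CharP F p] {A : Type*} [Ring A] [Algebra F A]
    (n : ℕ) (T : A) : ∑ i ∈ Finset.range (p ^ n), T ^ i = (T - 1) ^ (p ^ n - 1) := by
  have hp : p.Prime := Fact.out
  have hq : 0 < p ^ n := pow_pos hp.pos n
  have key : ∑ i ∈ Finset.range (p ^ n), (Polynomial.X : Polynomial F) ^ i =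
      (Polynomial.X - 1) ^ (p ^ n - 1) := by
    have h1 : (Polynomial.X - 1 : Polynomial F) * ∑ i ∈ Finset.range (p ^ n), Polynomial.X ^ i =
        (Polynomial.X - 1) * (Polynomial.X - 1) ^ (p ^ n - 1) := by
      rw [mul_geom_sum, ← pow_succ', Nat.sub_add_cancel hq, sub_pow_char_pow, one_pow]
    have hne : (Polynomial.X - 1 : Polynomial F) ≠ 0 := by
      have := Polynomial.X_sub_C_ne_zero (1 : F)
      simpa using this
    exact mul_left_cancel₀ hne h1
  have := congrArg (Polynomial.aeval T) key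
  simpa using this

end Cfsg.Agent.Lib.Helper18.CT
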