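import Mathlib
import Cfsg.Agent.Lib.Helper18.CTDefs

set_option autoImplicit false

namespace Cfsg.Agent.Lib.Helper18.CT

variable {G : Type*} [Group G] {F : Type*} [Field F] {V : Type*} [AddCommGroup V] [Module F V]

theorem free_orbit_sum {Ω : Type*} (T : Equiv.Perm Ω) (q : ℕ) (hq : 0 < q) (hTq : T ^ q = 1)
    (S : Finset Ω) (hS : ∀ c ∈ S, T c ∈ S)
    (hfree : ∀ c ∈ S, ∀ i, 0 < i → i < q → (T ^ i) c ≠ c)
    (X Xi : Module.End F V) (f : Ω → Module.End F V) (hf : ∀ c, f (T c) = X * f c * Xi) :
    ∃ φ : Module.End F V, ∑ c ∈ S, f c = trX X Xi q φ := by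
  classical
  induction' hn : S.card using Nat.strong_induction_on with m ih generalizing S
  rcases S.eq_empty_or_nonempty with rfl | ⟨c, hc⟩
  · exact ⟨0, by simp [trX]⟩
  · have hpow_mem : ∀ i : ℕ, (T ^ i) c ∈ S := by
      intro i
      induction i with
      | zero => simpa using hc
      | succ i ih' =>
        rw [pow_succ', Equiv.Perm.mul_apply]
        exact hS _ ih'
    have hOS : (Finset.range q).image (fun i => (T ^ i) c) ⊆ S := by
      intro a ha
      rw [Finset.mem_image] at ha
      obtain ⟨i, -, rfl⟩ := ha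
      exact hpow_mem i
    have hinj0 : ∀ i j : ℕ, i < j → j < q → (T ^ i) c ≠ (T ^ j) c := by
      intro i j hij hj h
      have h2 : (T ^ j) c = (T ^ i) ((T ^ (j - i)) c) := by
        rw [← Equiv.Perm.mul_apply, ← pow_add, Nat.add_sub_cancel' hij.le]
      rw [h2] at h
      have h3 := (T ^ i).injective h
      exact hfree c hc (j - i) (by omega) (by omega) h3.symm
    have hinj : Set.InjOn (fun i => (T ^ i) c) (Finset.range q : Set ℕ) := by
      intro i hi j hj hij
      simp only [Finset.coe_range, Set.mem_Iio] at hi hj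
      by_contra hne
      rcases lt_or_gt_of_ne hne with h | h
      · exact hinj0 i j h hj hij
      · exact hinj0 j i h hi hij.symm
    have hfpow : ∀ i : ℕ, f ((T ^ i) c) = X ^ i * f c * Xi ^ i := by
      intro i
      induction i with
      | zero => simp
      | succ i ih' =>
        rw [pow_succ', Equiv.Perm.mul_apply, hf, ih', pow_succ' X, pow_succ Xi]
        simp only [mul_assoc]
    have hcO : c ∈ (Finset.range q).image (fun i => (T ^ i) c) := by
      rw [Finset.mem_image]
      exact ⟨0, Finset.mem_range.2 hq, by simp⟩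
    have hS' : ∀ c' ∈ S \ (Finset.range q).image (fun i => (T ^ i) c),
        T c' ∈ S \ (Finset.range q).image (fun i => (T ^ i) c) := by
      intro c' hc'
      rw [Finset.mem_sdiff] at hc' ⊢
      refine ⟨hS c' hc'.1, fun hT => hc'.2 ?_⟩
      rw [Finset.mem_image] at hT ⊢
      obtain ⟨i, hi, hi2⟩ := hT
      rw [Finset.mem_range] at hi
      rcases Nat.eq_zero_or_pos i with rfl | hpos
      · refine ⟨q - 1, Finset.mem_range.2 (by omega), ?_⟩
        apply T.injective
        rw [← Equiv.Perm.mul_apply, ← pow_succ', Nat.sub_add_cancel hq, hTq]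
        simpa using hi2
      · refine ⟨i - 1, Finset.mem_range.2 (by omega), ?_⟩
        apply T.injective
        rw [← Equiv.Perm.mul_apply, ← pow_succ', Nat.sub_add_cancel hpos]
        exact hi2
    have hfree' : ∀ c' ∈ S \ (Finset.range q).image (fun i => (T ^ i) c),
        ∀ i, 0 < i → i < q → (T ^ i) c' ≠ c' :=
      fun c' hc' => hfree c' (Finset.mem_sdiff.1 hc').1
    have hcard : (S \ (Finset.range q).image (fun i => (T ^ i) c)).card < m := by
      rw [← hn]
      exact Finset.card_lt_card (Finset.sdiff_ssubset hOS ⟨c, hcO⟩)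
    obtain ⟨φ, hφ⟩ := ih _ hcard _ hS' hfree' rfl
    refine ⟨φ + f c, ?_⟩
    rw [← Finset.sum_sdiff hOS, hφ, Finset.sum_image hinj]
    simp only [trX, hfpow, mul_add, add_mul, Finset.sum_add_distrib]

end Cfsg.Agent.Lib.Helper18.CT
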