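import Mathlib
import Cfsg.Agent.Lib.Helper18.CTDefs
import Cfsg.Agent.Lib.Helper11.CTMACK3
import Cfsg.Agent.Lib.Helper16.CTTAU5
import Cfsg.Agent.Lib.Helper18.CTLA1
import Cfsg.Agent.Lib.Helper18.CTMACK1
import Cfsg.Agent.Lib.Helper21.CTMACK2
import Cfsg.Agent.Lib.Helper23.CTTAU4A
import Cfsg.Agent.Lib.Helper34.CTNILP
import Cfsg.Agent.Lib.Helper60.CTMACK4
import Cfsg.Agent.Lib.Helper61.CTGEN
import Cfsg.Agent.Lib.Helper72.CTTAU4B
import Cfsg.Agent.Lib.Helper75.CTRNG
import Cfsg.Agent.Lib.Helper76.CTTAU3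
import Cfsg.Agent.Lib.Helper80.CTSCHUR
import Cfsg.Agent.Lib.Helper81.CTLA2
import Cfsg.Agent.Lib.Helper89.CTTAU2
import Cfsg.Agent.Lib.Helper95.CTTAU1

/-!
# Cyclic TI Sylow subgroups and faithful modular irreducible representations: assembly
(helper18, S4699)

Pieces by the team (files `Cfsg/Agent/Lib/<Seat>/CT<TAG>.lean`); this file is the final argument.
-/

set_option autoImplicit false

namespace Cfsg.Agent.Lib.Helper18.CT

variable {G : Type*} [Group G] {F : Type*} [Field F] {V : Type*} [AddCommGroup V] [Module F V]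

theorem range_pow_anti (y : Module.End F V) {a b : ℕ} (hab : a ≤ b) :
    LinearMap.range (y ^ b) ≤ LinearMap.range (y ^ a) := by
  obtain ⟨c, rfl⟩ := Nat.exists_eq_add_of_le hab
  rw [pow_add]
  exact LinearMap.range_comp_le_range _ _

theorem ct_main {G : Type*} [Group G] [Finite G] (p : ℕ) [Fact p.Prime] (P : Sylow p G)
    (hcyc : IsCyclic P) (n : ℕ) (hn : 2 ≤ n) (hPn : Nat.card P = p ^ n)
    (hTI : ∀ Q : Sylow p G, Q ≠ P → (P : Subgroup G) ⊓ (Q : Subgroup G) = ⊥)
    (F : Type*) [Field F] [CharP F p] (V : Type*) [AddCommGroup V] [Module F V]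
    [FiniteDimensional F V] (ρ : Representation F G V) (hfaith : Function.Injective ρ)
    (hirr : ρ.IsIrreducible) : p ^ n - (p - 1) ≤ Module.finrank F V := by
  classical
  have hp : p.Prime := Fact.out
  obtain ⟨x, hx⟩ := exists_gen (P : Subgroup G) hcyc
  have hord : orderOf x = p ^ n := by
    rw [← hPn, ← Nat.card_zpowers, hx]
  have hxP : x ∈ (P : Subgroup G) := by
    rw [← hx]; exact Subgroup.mem_zpowers x
  have hxq : x ^ (p ^ n) = 1 := by
    rw [← hord]; exact pow_orderOf_eq_one x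
  have hqpos : 0 < p ^ n := pow_pos hp.pos n
  by_contra hlt
  rw [not_le] at hlt
  -- notation
  have hyq : (ρ x - 1) ^ (p ^ n) = 0 := y_pow_zero p ρ x n hxq
  have hynil : IsNilpotent (ρ x - 1) := ⟨p ^ n, hyq⟩
  have hyD : (ρ x - 1) ^ Module.finrank F V = 0 := y_pow_finrank (ρ x - 1) hynil
  have he : (orbN (P : Subgroup G) x).card ≤ p - 1 :=
    orbN_card_le p (P : Subgroup G) x hx n (by omega) hord
      (fun k hk c hc hc1 => conj_pow_trivial p P x hx n hord k hk c hc hc1)
  have htN : ∀ g ∈ Subgroup.normalizer ((P : Subgroup G) : Set G),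
      ρ g * tau ρ (P : Subgroup G) x = tau ρ (P : Subgroup G) x * ρ g :=
    fun g hg => tau_comm ρ (P : Subgroup G) x hx g hg
  have hfree : ∀ i : ℕ, ∀ g : G, g ∉ Subgroup.normalizer ((P : Subgroup G) : Set G) →
      g⁻¹ * x ^ i * g ∈ Subgroup.normalizer ((P : Subgroup G) : Set G) → x ^ i = 1 :=
    fun i g hg h => coset_free p P hTI (x ^ i) (Subgroup.pow_mem _ hxP i) g hg h
  have hordi : ∀ i : ℕ, 0 < i → i < p ^ n → x ^ i ≠ 1 := by
    intro i hi hiq
    exact pow_ne_one_of_lt_orderOf hi.ne' (by rw [hord]; exact hiq)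
  obtain ⟨φ, hd⟩ := mackey (P : Subgroup G) x hxP (p ^ n) hqpos hxq hfree hordi ρ
    (tau ρ (P : Subgroup G) x) htN
    (fun T S f X Xi hT hS hfr hf => free_orbit_sum T (p ^ n) hqpos hT S hS hfr X Xi f hf)
  have hX1 : ρ x * ρ x⁻¹ = 1 := by rw [← map_mul, mul_inv_cancel, map_one]
  have hX2 : ρ x⁻¹ * ρ x = 1 := by rw [← map_mul, inv_mul_cancel, map_one]
  have hDq : Module.finrank F V ≤ p ^ n := by omega
  have hπ : LinearMap.range (trX (ρ x) (ρ x⁻¹) (p ^ n) φ) ≤
      LinearMap.range ((ρ x - 1) ^ (p ^ n - Module.finrank F V)) :=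
    trX_range p n (fun T => geom_char (F := F) p n T) (ρ x) (ρ x⁻¹) hX1 hX2 (Module.finrank F V) hDq hyD φ
  have hdcomm : ∀ h : G, dN ρ (Subgroup.normalizer ((P : Subgroup G) : Set G))
      (tau ρ (P : Subgroup G) x) * ρ h =
      ρ h * dN ρ (Subgroup.normalizer ((P : Subgroup G) : Set G)) (tau ρ (P : Subgroup G) x) :=
    fun h => dN_comm ρ _ _ htN h
  have hp1 : p - 1 < p ^ n - Module.finrank F V := by omega
  rcases schur ρ hirr _ hdcomm with h0 | hu
  · -- d = 0
    rw [h0] at hd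
    have ht : tau ρ (P : Subgroup G) x = -trX (ρ x) (ρ x⁻¹) (p ^ n) φ := by
      rw [eq_neg_iff_add_eq_zero]; exact hd.symm
    have hr : LinearMap.range ((ρ x - 1) ^ (orbN (P : Subgroup G) x).card) ≤
        LinearMap.range ((ρ x - 1) ^ ((orbN (P : Subgroup G) x).card + 1)) := by
      rw [← tau_range ρ (P : Subgroup G) x hx, ht, LinearMap.range_neg]
      exact hπ.trans (range_pow_anti _ (by omega))
    have hye := range_stable_zero (ρ x - 1) hynil _ hr
    have hpn : p - 1 ≤ p ^ (n - 1) := by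
      have : p ^ 1 ≤ p ^ (n - 1) := Nat.pow_le_pow_right hp.pos (by omega)
      rw [pow_one] at this
      omega
    exact faith_contra p ρ hfaith x n (n - 1) (by omega) hord
      (pow_eq_zero_of_le (he.trans hpn) hye)
  · -- d is a unit
    have htnil : IsNilpotent (tau ρ (P : Subgroup G) x) := tau_nilp p ρ (P : Subgroup G) x hx n hxq
    have hcomm : Commute (dN ρ (Subgroup.normalizer ((P : Subgroup G) : Set G))
        (tau ρ (P : Subgroup G) x)) (tau ρ (P : Subgroup G) x) :=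
      tau_commute ρ (P : Subgroup G) x _ (fun u => hdcomm u)
    have hπu : IsUnit (trX (ρ x) (ρ x⁻¹) (p ^ n) φ) := by
      have e1 : trX (ρ x) (ρ x⁻¹) (p ^ n) φ =
          dN ρ (Subgroup.normalizer ((P : Subgroup G) : Set G)) (tau ρ (P : Subgroup G) x) +
            -tau ρ (P : Subgroup G) x := by
        rw [hd]; abel
      rw [e1]
      exact IsNilpotent.isUnit_add_left_of_commute htnil.neg hu hcomm.symm.neg_left
    have htop : LinearMap.range (trX (ρ x) (ρ x⁻¹) (p ^ n) φ) = ⊤ :=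
      LinearMap.range_eq_top.2 ((Module.End.isUnit_iff _).1 hπu).surjective
    have hr : LinearMap.range ((ρ x - 1) ^ 0) ≤ LinearMap.range ((ρ x - 1) ^ (0 + 1)) := by
      rw [pow_zero, Module.End.one_eq_id, LinearMap.range_id, ← htop]
      exact hπ.trans (range_pow_anti _ (by omega))
    have h10 := range_stable_zero (ρ x - 1) hynil 0 hr
    rw [pow_zero] at h10
    have := nontriv ρ hirr
    exact one_ne_zero h10


end Cfsg.Agent.Lib.Helper18.CT
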