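import Mathlib
import Cfsg.Prelude.Def_ClassicalGeometry
import Cfsg.Agent.S0784

set_option autoImplicit false

/-!
Weak Cartan–Dieudonné theorem in characteristic different from two: the isometry group of a
quadratic form with non-degenerate polar form on `F^n` is generated by reflections.
-/

namespace Cfsg.Agent.Lib.Helper18

open Matrix

variable {F : Type*} [Field F] {n : ℕ}

theorem cd_mat_ext (M N : Matrix (Fin n) (Fin n) F) (h : ∀ x, M *ᵥ x = N *ᵥ x) : M = N := by
  apply Matrix.toLin'.injective
  apply LinearMap.ext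
  intro x
  rw [Matrix.toLin'_apply, Matrix.toLin'_apply]
  exact h x

/-- The set of reflections in the isometry group. -/
def reflSet (Q : QuadraticForm F (Fin n → F)) : Set ↥(Cfsg.isometryGroup F ⇑Q) :=
  {g | ∃ v : Fin n → F, Q v ≠ 0 ∧
    ((g : Matrix.GeneralLinearGroup (Fin n) F) : Matrix (Fin n) (Fin n) F) =
      Cfsg.reflectionMatrix ⇑Q v}

/-- A reflection as an element of the isometry group. -/
noncomputable def reflElt (Q : QuadraticForm F (Fin n → F)) (v : Fin n → F) (hv : Q v ≠ 0) :
    ↥(Cfsg.isometryGroup F ⇑Q) :=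
  ⟨Matrix.GeneralLinearGroup.mkOfDetNeZero (Cfsg.reflectionMatrix ⇑Q v) (by
      rw [(Cfsg.Agent.S0784.result Q v hv).2.2.2]
      exact neg_ne_zero.mpr one_ne_zero),
    fun x _ => (Cfsg.Agent.S0784.result Q v hv).1 x⟩

theorem reflElt_val (Q : QuadraticForm F (Fin n → F)) (v : Fin n → F) (hv : Q v ≠ 0) :
    ((reflElt Q v hv : Matrix.GeneralLinearGroup (Fin n) F) : Matrix (Fin n) (Fin n) F) =
      Cfsg.reflectionMatrix ⇑Q v := rfl

theorem reflElt_mem (Q : QuadraticForm F (Fin n → F)) (v : Fin n → F) (hv : Q v ≠ 0) :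
    reflElt Q v hv ∈ reflSet Q := ⟨v, hv, rfl⟩

theorem isom_apply (Q : QuadraticForm F (Fin n → F)) (g : ↥(Cfsg.isometryGroup F ⇑Q))
    (x : Fin n → F) :
    Q (((g : Matrix.GeneralLinearGroup (Fin n) F) : Matrix (Fin n) (Fin n) F) *ᵥ x) = Q x :=
  g.2 x x

theorem isom_polar (Q : QuadraticForm F (Fin n → F)) (g : ↥(Cfsg.isometryGroup F ⇑Q))
    (x y : Fin n → F) :
    QuadraticMap.polar (⇑Q)
      (((g : Matrix.GeneralLinearGroup (Fin n) F) : Matrix (Fin n) (Fin n) F) *ᵥ x)
      (((g : Matrix.GeneralLinearGroup (Fin n) F) : Matrix (Fin n) (Fin n) F) *ᵥ y) =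
    QuadraticMap.polar (⇑Q) x y := by
  unfold QuadraticMap.polar
  rw [← Matrix.mulVec_add, isom_apply, isom_apply, isom_apply]

theorem cd_odd_aux (h2 : (2 : F) ≠ 0) (Q : QuadraticForm F (Fin n → F)) :
    ∀ (d : ℕ) (W : Submodule F (Fin n → F)), Module.finrank F W = d →
      (∀ w ∈ W, (∀ w' ∈ W, QuadraticMap.polar (⇑Q) w w' = 0) → w = 0) →
      ∀ g : ↥(Cfsg.isometryGroup F ⇑Q),
        (∀ x, (∀ w ∈ W, QuadraticMap.polar (⇑Q) w x = 0) →
          ((g : Matrix.GeneralLinearGroup (Fin n) F) : Matrix (Fin n) (Fin n) F) *ᵥ x = x) →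
        g ∈ Subgroup.closure (reflSet Q) := by
  intro d
  induction d using Nat.strong_induction_on with
  | _ d ih =>
    intro W hWd hWnd g hg
    by_cases hex : ∃ v ∈ W, Q v ≠ 0
    · obtain ⟨v, hvW, hQv⟩ := hex
      set gm : Matrix (Fin n) (Fin n) F :=
        ((g : Matrix.GeneralLinearGroup (Fin n) F) : Matrix (Fin n) (Fin n) F) with hgm
      have hvv : QuadraticMap.polar (⇑Q) v v = 2 * Q v := by
        rw [QuadraticMap.polar_self, two_smul, two_mul]
      have hvv0 : QuadraticMap.polar (⇑Q) v v ≠ 0 := by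
        rw [hvv]; exact mul_ne_zero h2 hQv
      have hQgv : Q (gm *ᵥ v) = Q v := isom_apply Q g v
      have hgvgv : QuadraticMap.polar (⇑Q) (gm *ᵥ v) (gm *ᵥ v) = 2 * Q v := by
        rw [QuadraticMap.polar_self, hQgv, two_smul, two_mul]
      -- the subspace W' = W ∩ v^⊥
      let W' : Submodule F (Fin n → F) := W ⊓ LinearMap.ker (QuadraticMap.polarBilin Q v)
      have hW'mem : ∀ w, w ∈ W' ↔ w ∈ W ∧ QuadraticMap.polar (⇑Q) v w = 0 := by
        intro w
        show w ∈ W ∧ w ∈ LinearMap.ker (QuadraticMap.polarBilin Q v) ↔ _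
        rw [LinearMap.mem_ker]
        rfl
      have hW'lt : W' < W := by
        refine lt_of_le_of_ne inf_le_left ?_
        intro h
        have : v ∈ W' := by rw [h]; exact hvW
        exact hvv0 ((hW'mem v).mp this).2
      have hdec : ∀ z ∈ W, ∃ μ : F, z - μ • v ∈ W' := by
        intro z hz
        refine ⟨QuadraticMap.polar (⇑Q) v z / QuadraticMap.polar (⇑Q) v v, ?_⟩
        rw [hW'mem]
        refine ⟨W.sub_mem hz (W.smul_mem _ hvW), ?_⟩
        rw [QuadraticMap.polar_sub_right, QuadraticMap.polar_smul_right, smul_eq_mul,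
          div_mul_cancel₀ _ hvv0, sub_self]
      have hW'nd : ∀ w ∈ W', (∀ w' ∈ W', QuadraticMap.polar (⇑Q) w w' = 0) → w = 0 := by
        intro w hw hw0
        have hwW := ((hW'mem w).mp hw).1
        have hwv : QuadraticMap.polar (⇑Q) w v = 0 := by
          rw [QuadraticMap.polar_comm]; exact ((hW'mem w).mp hw).2
        apply hWnd w hwW
        intro z hz
        obtain ⟨μ, hμ⟩ := hdec z hz
        have h1 := hw0 _ hμ
        rw [QuadraticMap.polar_sub_right, QuadraticMap.polar_smul_right, hwv, smul_zero,
          sub_zero] at h1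
        exact h1
      -- key: an element r of the closure with r * g fixing v and W^⊥
      have hkey : ∃ r : ↥(Cfsg.isometryGroup F ⇑Q), r ∈ Subgroup.closure (reflSet Q) ∧
          (((r * g : ↥(Cfsg.isometryGroup F ⇑Q)) : Matrix.GeneralLinearGroup (Fin n) F) :
            Matrix (Fin n) (Fin n) F) *ᵥ v = v ∧
          ∀ x, (∀ w ∈ W, QuadraticMap.polar (⇑Q) w x = 0) →
            (((r * g : ↥(Cfsg.isometryGroup F ⇑Q)) : Matrix.GeneralLinearGroup (Fin n) F) :
              Matrix (Fin n) (Fin n) F) *ᵥ x = x := by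
        by_cases hcase : Q (gm *ᵥ v - v) ≠ 0
        · have hQa : Q (gm *ᵥ v - v) = 2 * Q v - QuadraticMap.polar (⇑Q) (gm *ᵥ v) v := by
            rw [sub_eq_add_neg, QuadraticMap.map_add (⇑Q), QuadraticMap.map_neg, hQgv,
              QuadraticMap.polar_neg_right]
            ring
          refine ⟨reflElt Q _ hcase, Subgroup.subset_closure (reflElt_mem Q _ hcase), ?_, ?_⟩
          · show (Cfsg.reflectionMatrix (⇑Q) (gm *ᵥ v - v) * gm) *ᵥ v = v
            rw [← Matrix.mulVec_mulVec, Cfsg.Agent.S0784.refl_mulVec,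
              QuadraticMap.polar_sub_left, hgvgv, QuadraticMap.polar_comm (⇑Q) v, ← hQa,
              inv_mul_cancel₀ hcase, one_smul]
            abel
          · intro x hx
            show (Cfsg.reflectionMatrix (⇑Q) (gm *ᵥ v - v) * gm) *ᵥ x = x
            rw [← Matrix.mulVec_mulVec, hg x hx]
            apply (Cfsg.Agent.S0784.result Q _ hcase).2.2.1
            rw [QuadraticMap.polar_sub_left, hx v hvW, sub_zero]
            have := isom_polar Q g v x
            rw [hg x hx] at this
            rw [this]
            exact hx v hvW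
        · push Not at hcase
          have hQa : Q (gm *ᵥ v - v) = 2 * Q v - QuadraticMap.polar (⇑Q) (gm *ᵥ v) v := by
            rw [sub_eq_add_neg, QuadraticMap.map_add (⇑Q), QuadraticMap.map_neg, hQgv,
              QuadraticMap.polar_neg_right]
            ring
          have hpol : QuadraticMap.polar (⇑Q) (gm *ᵥ v) v = 2 * Q v := by
            rw [hcase] at hQa
            linear_combination hQa
          have hQb : Q (gm *ᵥ v + v) = 2 * Q v + QuadraticMap.polar (⇑Q) (gm *ᵥ v) v := by
            rw [QuadraticMap.map_add (⇑Q), hQgv]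
            ring
          have hQb0 : Q (gm *ᵥ v + v) ≠ 0 := by
            rw [hQb, hpol]
            have : 2 * Q v + 2 * Q v = 2 * (2 * Q v) := by ring
            rw [this]
            exact mul_ne_zero h2 (mul_ne_zero h2 hQv)
          refine ⟨reflElt Q v hQv * reflElt Q _ hQb0,
            Subgroup.mul_mem _ (Subgroup.subset_closure (reflElt_mem Q _ hQv))
              (Subgroup.subset_closure (reflElt_mem Q _ hQb0)), ?_, ?_⟩
          · show (Cfsg.reflectionMatrix (⇑Q) v * Cfsg.reflectionMatrix (⇑Q) (gm *ᵥ v + v) * gm)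
              *ᵥ v = v
            rw [← Matrix.mulVec_mulVec, ← Matrix.mulVec_mulVec]
            have e1 : Cfsg.reflectionMatrix (⇑Q) (gm *ᵥ v + v) *ᵥ (gm *ᵥ v) = -v := by
              rw [Cfsg.Agent.S0784.refl_mulVec, QuadraticMap.polar_add_left, hgvgv,
                QuadraticMap.polar_comm (⇑Q) v, ← hQb, inv_mul_cancel₀ hQb0, one_smul]
              abel
            rw [e1, Matrix.mulVec_neg, (Cfsg.Agent.S0784.result Q v hQv).2.1, neg_neg]
          · intro x hx
            show (Cfsg.reflectionMatrix (⇑Q) v * Cfsg.reflectionMatrix (⇑Q) (gm *ᵥ v + v) * gm)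
              *ᵥ x = x
            rw [← Matrix.mulVec_mulVec, ← Matrix.mulVec_mulVec, hg x hx]
            have e1 : Cfsg.reflectionMatrix (⇑Q) (gm *ᵥ v + v) *ᵥ x = x := by
              apply (Cfsg.Agent.S0784.result Q _ hQb0).2.2.1
              rw [QuadraticMap.polar_add_left, hx v hvW, add_zero]
              have := isom_polar Q g v x
              rw [hg x hx] at this
              rw [this]
              exact hx v hvW
            rw [e1]
            exact (Cfsg.Agent.S0784.result Q v hQv).2.2.1 x (hx v hvW)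
      obtain ⟨r, hr, hrv, hrx⟩ := hkey
      have hrg : r * g ∈ Subgroup.closure (reflSet Q) := by
        apply ih (Module.finrank F W') (by rw [← hWd]; exact Submodule.finrank_lt_finrank_of_lt hW'lt)
          W' rfl hW'nd
        intro x hx
        -- x = y + λ v with y ⟂ W
        set lam : F := QuadraticMap.polar (⇑Q) v x / QuadraticMap.polar (⇑Q) v v with hlam
        have hy : ∀ w ∈ W, QuadraticMap.polar (⇑Q) w (x - lam • v) = 0 := by
          intro w hw
          obtain ⟨μ, hμ⟩ := hdec w hw
          have h1 := hx _ hμ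
          rw [QuadraticMap.polar_sub_left, QuadraticMap.polar_smul_left] at h1
          have h3 : QuadraticMap.polar (⇑Q) v (x - lam • v) = 0 := by
            rw [QuadraticMap.polar_sub_right, QuadraticMap.polar_smul_right, smul_eq_mul, hlam,
              div_mul_cancel₀ _ hvv0, sub_self]
          have h4 : QuadraticMap.polar (⇑Q) (w - μ • v) v = 0 := by
            rw [QuadraticMap.polar_comm]; exact ((hW'mem _).mp hμ).2
          have h5 : QuadraticMap.polar (⇑Q) w (x - lam • v) =
              QuadraticMap.polar (⇑Q) (w - μ • v) (x - lam • v) +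
                μ • QuadraticMap.polar (⇑Q) v (x - lam • v) := by
            rw [QuadraticMap.polar_sub_left, QuadraticMap.polar_smul_left]
            ring
          rw [h5, h3, smul_zero, add_zero, QuadraticMap.polar_sub_right,
            QuadraticMap.polar_smul_right, h4, smul_zero, sub_zero, QuadraticMap.polar_sub_left,
            QuadraticMap.polar_smul_left]
          exact h1
        have hxdec : x = (x - lam • v) + lam • v := by abel
        rw [hxdec, Matrix.mulVec_add, Matrix.mulVec_smul, hrv, hrx _ hy]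
      have : g = r⁻¹ * (r * g) := by group
      rw [this]
      exact Subgroup.mul_mem _ (Subgroup.inv_mem _ hr) hrg
    · push Not at hex
      have hW0 : ∀ w ∈ W, w = 0 := by
        intro w hw
        apply hWnd w hw
        intro w' hw'
        unfold QuadraticMap.polar
        rw [hex _ (W.add_mem hw hw'), hex w hw, hex w' hw']
        simp
      have hg1 : ∀ x, ((g : Matrix.GeneralLinearGroup (Fin n) F) : Matrix (Fin n) (Fin n) F) *ᵥ x
          = x := by
        intro x
        apply hg x
        intro w hw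
        rw [hW0 w hw, QuadraticMap.polar_zero_left]
      have : g = 1 := by
        apply Subtype.ext
        apply Units.ext
        apply cd_mat_ext
        intro x
        rw [hg1 x]
        show x = (1 : Matrix (Fin n) (Fin n) F) *ᵥ x
        rw [Matrix.one_mulVec]
      rw [this]
      exact one_mem _

/-- Weak Cartan–Dieudonné theorem, characteristic not two. -/
theorem closure_reflSet_eq_top (h2 : (2 : F) ≠ 0) (Q : QuadraticForm F (Fin n → F))
    (hQ : (QuadraticMap.polarBilin Q).Nondegenerate) :
    Subgroup.closure (reflSet Q) = ⊤ := by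
  rw [eq_top_iff]
  intro g _
  apply cd_odd_aux h2 Q (Module.finrank F (⊤ : Submodule F (Fin n → F))) ⊤ rfl
  · intro w _ hw
    exact hQ.1 w (fun y => hw y Submodule.mem_top)
  · intro x hx
    have hx0 : x = 0 := by
      apply hQ.2 x
      intro y
      exact hx y Submodule.mem_top
    rw [hx0, Matrix.mulVec_zero]

end Cfsg.Agent.Lib.Helper18
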