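import Mathlib

set_option autoImplicit false

namespace Cfsg.Agent.Lib.Helper18.DCP4b

/-- case "z moves T": `x ↦ x * (z x z⁻¹)` embeds `T` into `C_W(z)`. -/
theorem card_le_of_moved {G : Type*} [Group G] [Finite G] (T : Subgroup G)
    (z : G) (hz : z * z = 1)
    (hcomm : ∀ t ∈ T, ∀ s ∈ T, t * (z * s * z⁻¹) = (z * s * z⁻¹) * t)
    (htriv : ∀ t ∈ T, z * t * z⁻¹ ∈ T → t = 1)
    (W : Subgroup G) (hTW : T ≤ W) (hzW : ∀ w ∈ W, z * w * z⁻¹ ∈ W) :
    Nat.card T ≤ Nat.card ↥(W ⊓ Subgroup.centralizer {z}) := by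
  have hzinv : z⁻¹ = z := inv_eq_of_mul_eq_one_left hz
  refine Nat.card_le_card_of_injective
    (fun x : T => (⟨(x : G) * (z * x * z⁻¹), ?_⟩ : ↥(W ⊓ Subgroup.centralizer {z}))) ?_
  · refine ⟨W.mul_mem (hTW x.2) (hzW _ (hTW x.2)), ?_⟩
    change _ ∈ Subgroup.centralizer {z}
    rw [Subgroup.mem_centralizer_iff]
    intro h hh
    rw [Set.mem_singleton_iff] at hh
    subst hh
    have h1 := hcomm x x.2 x x.2
    rw [hzinv] at h1 ⊢
    calc h * ((x : G) * (h * x * h)) = h * ((h * x * h) * x) := by rw [h1]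
      _ = (h * h) * x * h * x := by group
      _ = x * h * x := by rw [hz, one_mul]
      _ = x * h * x * (h * h) := by rw [hz, mul_one]
      _ = (x : G) * (h * x * h) * h := by group
  · intro x y hxy
    have hxy' : (x : G) * (z * x * z⁻¹) = y * (z * y * z⁻¹) := by
      simpa using congrArg Subtype.val hxy
    have h2 : z * ((y : G) * (x : G)⁻¹) * z⁻¹ = (y : G)⁻¹ * x := by
      have : z * ((y : G) * (x : G)⁻¹) * z⁻¹ = (z * y * z⁻¹) * (z * x * z⁻¹)⁻¹ := by group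
      rw [this]
      rw [eq_comm, inv_mul_eq_iff_eq_mul, ← mul_assoc, ← hxy', mul_assoc, mul_inv_cancel, mul_one]
    have h3 : (y : G) * (x : G)⁻¹ = 1 := by
      apply htriv _ (T.mul_mem y.2 (T.inv_mem x.2))
      rw [h2]
      exact T.mul_mem (T.inv_mem y.2) x.2
    have h4 : (y : G) = x := by
      rw [mul_inv_eq_one] at h3
      exact h3
    exact Subtype.ext h4.symm

/-- case "z normalises T", given an element with a large centralizer: `T` embeds into a symmetric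
group of degree at most `n`. -/
theorem card_le_factorial_of_centralizer {G : Type*} [Group G] [Finite G] (T : Subgroup G)
    (hsimple : ∀ R : Subgroup G, R ≤ T → (∀ t ∈ T, ∀ r ∈ R, t * r * t⁻¹ ∈ R) → R = ⊥ ∨ R = T)
    (hcenter : ∀ x ∈ T, (∀ y ∈ T, x * y = y * x) → x = 1)
    (g : G) (hgT : g ∈ T) (hg1 : g ≠ 1) (n : ℕ)
    (hn : Nat.card T ≤ n * Nat.card ↥(T ⊓ Subgroup.centralizer {g})) :
    Nat.card T ≤ n.factorial := by
  classical
  set H : Subgroup T := (T ⊓ Subgroup.centralizer {g}).subgroupOf T with hH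
  have hHcard : Nat.card H = Nat.card ↥(T ⊓ Subgroup.centralizer {g}) :=
    Nat.card_congr (Subgroup.subgroupOfEquivOfLe inf_le_left).toEquiv
  have hidx : H.index ≤ n := by
    have h1 : H.index * Nat.card H = Nat.card T := H.index_mul_card
    have hpos : 0 < Nat.card H := Nat.card_pos
    rw [← hHcard, ← h1] at hn
    exact Nat.le_of_mul_le_mul_right hn hpos
  -- the normal core is trivial
  have hcore : H.normalCore = ⊥ := by
    set R : Subgroup G := H.normalCore.map T.subtype with hR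
    have hRT : R ≤ T := by
      rintro _ ⟨x, -, rfl⟩
      exact x.2
    have hRn : ∀ t ∈ T, ∀ r ∈ R, t * r * t⁻¹ ∈ R := by
      rintro t ht _ ⟨x, hx, rfl⟩
      refine ⟨⟨t, ht⟩ * x * ⟨t, ht⟩⁻¹, ?_, rfl⟩
      exact (Subgroup.normalCore_normal H).conj_mem x hx ⟨t, ht⟩
    rcases hsimple R hRT hRn with h | h
    · rw [hR] at h
      exact (Subgroup.map_eq_bot_iff_of_injective _ T.subtype_injective).mp h
    · exfalso
      apply hg1
      apply hcenter g hgT
      intro y hy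
      have hy' : y ∈ R := by rw [h]; exact hy
      obtain ⟨x, hx, rfl⟩ := hy'
      have hxH : x ∈ H := Subgroup.normalCore_le H hx
      rw [hH, Subgroup.mem_subgroupOf] at hxH
      have this : (x : G) ∈ Subgroup.centralizer {g} := hxH.2
      rw [Subgroup.mem_centralizer_iff] at this
      exact this g rfl
  -- so T embeds in Perm (T ⧸ H)
  have hinj : Function.Injective (MulAction.toPermHom T (T ⧸ H)) := by
    rw [← MonoidHom.ker_eq_bot_iff, ← Subgroup.normalCore_eq_ker, hcore]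
  have h1 : Nat.card T ≤ Nat.card (Equiv.Perm (T ⧸ H)) :=
    Nat.card_le_card_of_injective _ hinj
  have h2 : Nat.card (Equiv.Perm (T ⧸ H)) = (Nat.card (T ⧸ H)).factorial := Nat.card_perm
  rw [h2] at h1
  refine le_trans h1 (Nat.factorial_le ?_)
  exact hidx

/-- `simple_bound`, with the Brauer-Fowler count as a hypothesis. -/
theorem simple_bound_of_bf {G : Type*} [Group G] [Finite G]
    (bf : ∀ (T : Subgroup G) (z : G), z * z = 1 → (∀ t ∈ T, z * t * z⁻¹ ∈ T) → ∀ c : ℕ,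
      Nat.card ↥(T ⊓ Subgroup.centralizer {z}) ≤ c → 2 * c < Nat.card T →
      ∃ g ∈ T, g ≠ 1 ∧ Nat.card T ≤ 4 * c ^ 2 * Nat.card ↥(T ⊓ Subgroup.centralizer {g}))
    (T : Subgroup G)
    (hsimple : ∀ R : Subgroup G, R ≤ T → (∀ t ∈ T, ∀ r ∈ R, t * r * t⁻¹ ∈ R) → R = ⊥ ∨ R = T)
    (hcenter : ∀ x ∈ T, (∀ y ∈ T, x * y = y * x) → x = 1)
    (z : G) (hz : z * z = 1)
    (hconj : (∀ t ∈ T, z * t * z⁻¹ ∈ T) ∨
      ((∀ t ∈ T, ∀ s ∈ T, t * (z * s * z⁻¹) = (z * s * z⁻¹) * t) ∧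
        ∀ t ∈ T, z * t * z⁻¹ ∈ T → t = 1))
    (W : Subgroup G) (hTW : T ≤ W) (hzW : ∀ w ∈ W, z * w * z⁻¹ ∈ W)
    (c : ℕ) (hc0 : 1 ≤ c) (hc : Nat.card ↥(W ⊓ Subgroup.centralizer {z}) ≤ c) :
    Nat.card T ≤ (4 * c ^ 2).factorial := by
  have hc4 : c ≤ 4 * c ^ 2 := by nlinarith
  have h2c4 : 2 * c ≤ 4 * c ^ 2 := by nlinarith
  have hfac : 4 * c ^ 2 ≤ (4 * c ^ 2).factorial := Nat.self_le_factorial _
  rcases hconj with hzT | ⟨hcomm, htriv⟩
  · have hcT : Nat.card ↥(T ⊓ Subgroup.centralizer {z}) ≤ c :=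
      le_trans (Subgroup.card_le_of_le (inf_le_inf_right _ hTW)) hc
    by_cases h2 : Nat.card T ≤ 2 * c
    · omega
    · obtain ⟨g, hgT, hg1, hg⟩ := bf T z hz hzT c hcT (not_le.mp h2)
      exact card_le_factorial_of_centralizer T hsimple hcenter g hgT hg1 _ hg
  · have := card_le_of_moved T z hz hcomm htriv W hTW hzW
    omega

end Cfsg.Agent.Lib.Helper18.DCP4b
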