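import Mathlib
import Cfsg.Agent.Lib.Helper53.MinusDefs
import Cfsg.Agent.Lib.Helper54.OrthInnMinus
import Cfsg.Agent.Lib.Helper54.OrthLagMinus
import Cfsg.Agent.Lib.Helper75.OUM3
import Cfsg.Agent.Lib.Helper44.Dickson

/-!
# Piece MF-C2A (helper18, for helper53, S2716): in characteristic two `Inndiag(PΩ⁻) = Inn`

Given the class character data `ChiData` over every quadratic extension.
-/

set_option autoImplicit false
set_option linter.unusedSectionVars false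
set_option linter.unusedVariables false

namespace Cfsg.Agent.Lib.Helper18.MFC2A

open Module QuadraticMap Matrix
open Cfsg Cfsg.Agent.Lib.Helper51 Cfsg.Agent.Lib.Helper53.MinusF Cfsg.Agent.Lib.Helper54
  Cfsg.Agent.Lib.Helper44

universe u

section Core

variable {ι : Type} [Fintype ι] [DecidableEq ι] {F : Type*} [Field F] [Fintype F]
variable (Q : QuadraticForm F (ι → F))

/-- every similarity is a scalar multiple of an isometry inducing the same automorphism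
(finite field of characteristic 2) -/
theorem exists_isometry_smul (h2 : (2 : F) = 0)
    (g : ↥(Geo.quadSimilarityGroup (F := F) ⇑Q)) :
    ∃ (l : F) (t : ↥(isometryGroup F ⇑Q)), l ≠ 0 ∧
      ((t : GL ι F) : Matrix ι ι F) = l⁻¹ • ((g : GL ι F) : Matrix ι ι F) ∧
      simAut ⇑Q g = simAut ⇑Q ⟨(t : GL ι F), isometry_le_similarity ⇑Q t.2⟩ := by
  obtain ⟨c, hc⟩ := g.2
  have : CharP F 2 := CharTwo.of_one_ne_zero_of_two_eq_zero one_ne_zero h2
  obtain ⟨l, hl⟩ := FiniteField.isSquare_of_char_two (ringChar.eq F 2) (c : F)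
  have hl0 : l ≠ 0 := by
    rintro rfl
    rw [mul_zero] at hl
    exact c.ne_zero hl
  let zGL : GL ι F := ⟨l • (1 : Matrix ι ι F), l⁻¹ • (1 : Matrix ι ι F), by
    rw [Matrix.smul_mul, Matrix.mul_smul, smul_smul, Matrix.one_mul, mul_inv_cancel₀ hl0,
      one_smul], by
    rw [Matrix.smul_mul, Matrix.mul_smul, smul_smul, Matrix.one_mul, inv_mul_cancel₀ hl0,
      one_smul]⟩
  have hzmat : (zGL : Matrix ι ι F) = l • (1 : Matrix ι ι F) := rfl
  have hzS : zGL ∈ Geo.quadSimilarityGroup (F := F) ⇑Q := by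
    refine ⟨Units.mk0 (l * l) (mul_ne_zero hl0 hl0), fun v => ?_⟩
    rw [hzmat, Matrix.smul_mulVec, Matrix.one_mulVec, QuadraticMap.map_smul]
    rfl
  let z : ↥(Geo.quadSimilarityGroup (F := F) ⇑Q) := ⟨zGL, hzS⟩
  have hz1 : simAut ⇑Q z = 1 := simAut_of_scalar Q z l hzmat
  have e1 : (((z⁻¹ * g : ↥(Geo.quadSimilarityGroup (F := F) ⇑Q)) : GL ι F) : Matrix ι ι F)
      = l⁻¹ • ((g : GL ι F) : Matrix ι ι F) := by
    show (l⁻¹ • (1 : Matrix ι ι F)) * ((g : GL ι F) : Matrix ι ι F) = _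
    rw [Matrix.smul_mul, Matrix.one_mul]
  have ht : ((z⁻¹ * g : ↥(Geo.quadSimilarityGroup (F := F) ⇑Q)) : GL ι F) ∈
      isometryGroup F ⇑Q := by
    rw [mem_isometryGroup_iff']
    intro v
    rw [e1, Matrix.smul_mulVec, QuadraticMap.map_smul, hc v, hl, smul_eq_mul]
    field_simp
  refine ⟨l, ⟨_, ht⟩, hl0, e1, ?_⟩
  have e2 : (⟨((z⁻¹ * g : ↥(Geo.quadSimilarityGroup (F := F) ⇑Q)) : GL ι F),
      isometry_le_similarity ⇑Q ht⟩ : ↥(Geo.quadSimilarityGroup (F := F) ⇑Q)) = z⁻¹ * g := rfl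
  rw [e2, map_mul, map_inv, hz1, inv_one, one_mul]

/-- STEP 1: a "class character" (a predicate on matrices which is multiplicative on the
similarity group) holds on the commutator subgroup `Ω` of the isometry group -/
theorem pres_of_mem_omega (P : Matrix ι ι F → Prop)
    (c1 : ∀ g h : GL ι F, g ∈ Geo.quadSimilarityGroup (F := F) ⇑Q →
      h ∈ Geo.quadSimilarityGroup (F := F) ⇑Q → P (g : Matrix ι ι F) → P (h : Matrix ι ι F) →
      P ((g * h : GL ι F) : Matrix ι ι F))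
    (c2 : ∀ g : GL ι F, g ∈ Geo.quadSimilarityGroup (F := F) ⇑Q → P (g : Matrix ι ι F) →
      P ((g⁻¹ : GL ι F) : Matrix ι ι F))
    (c3 : ∀ g h : GL ι F, g ∈ Geo.quadSimilarityGroup (F := F) ⇑Q →
      h ∈ Geo.quadSimilarityGroup (F := F) ⇑Q → ¬ P (g : Matrix ι ι F) →
      ¬ P (h : Matrix ι ι F) → P ((g * h : GL ι F) : Matrix ι ι F))
    (s : ↥(isometryGroup F ⇑Q)) (hs : s ∈ Omega F ⇑Q) :
    P ((s : GL ι F) : Matrix ι ι F) := by
  classical
  have hOS := isometry_le_similarity (F := F) ⇑Q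
  have hinv : ∀ g : GL ι F, g ∈ Geo.quadSimilarityGroup (F := F) ⇑Q →
      (P ((g⁻¹ : GL ι F) : Matrix ι ι F) ↔ P (g : Matrix ι ι F)) := by
    intro g hg
    constructor
    · intro h
      have h' := c2 g⁻¹ (inv_mem hg) h
      rwa [inv_inv] at h'
    · exact c2 g hg
  -- the character
  obtain ⟨χ, hχ⟩ : ∃ χ : ↥(isometryGroup F ⇑Q) →* ℤˣ,
      ∀ g : ↥(isometryGroup F ⇑Q), χ g = 1 → P ((g : GL ι F) : Matrix ι ι F) := by
    refine ⟨MonoidHom.mk' (fun g : ↥(isometryGroup F ⇑Q) =>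
      if P ((g : GL ι F) : Matrix ι ι F) then (1 : ℤˣ) else -1) ?_, ?_⟩
    · intro g h
      show (if P (((g : GL ι F) * (h : GL ι F) : GL ι F) : Matrix ι ι F) then (1 : ℤˣ) else -1)
        = (if P ((g : GL ι F) : Matrix ι ι F) then (1 : ℤˣ) else -1) *
          (if P ((h : GL ι F) : Matrix ι ι F) then (1 : ℤˣ) else -1)
      by_cases hg : P ((g : GL ι F) : Matrix ι ι F) <;>
        by_cases hh : P ((h : GL ι F) : Matrix ι ι F)
      · rw [if_pos hg, if_pos hh, if_pos (c1 _ _ (hOS g.2) (hOS h.2) hg hh)]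
        rfl
      · rw [if_pos hg, if_neg hh, if_neg]
        · rfl
        · intro hgh
          apply hh
          have h' := c1 _ _ (inv_mem (hOS g.2)) (mul_mem (hOS g.2) (hOS h.2))
            ((hinv _ (hOS g.2)).2 hg) hgh
          rwa [inv_mul_cancel_left] at h'
      · rw [if_neg hg, if_pos hh, if_neg]
        · rfl
        · intro hgh
          apply hg
          have h' := c1 _ _ (mul_mem (hOS g.2) (hOS h.2)) (inv_mem (hOS h.2)) hgh
            ((hinv _ (hOS h.2)).2 hh)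
          rwa [mul_inv_cancel_right] at h'
      · rw [if_neg hg, if_neg hh, if_pos (c3 _ _ (hOS g.2) (hOS h.2) hg hh)]
        rfl
    · intro g hg
      by_contra hn
      have h5 : (if P ((g : GL ι F) : Matrix ι ι F) then (1 : ℤˣ) else -1) = 1 := hg
      rw [if_neg hn] at h5
      exact absurd h5 (by decide)
  exact hχ s (MonoidHom.mem_ker.mp (Abelianization.commutator_subset_ker χ hs))

/-- STEP 3: a similarity on which the class character holds induces an inner automorphism -/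
theorem simAut_mem_inn [Nonempty ι] (h2 : (2 : F) = 0) (hQ : (polarBilin Q).Nondegenerate)
    (hcard : Fintype.card F ≠ 2 ∨ Fintype.card ι ≠ 4) (u : ι → F) (hu : Q u ≠ 0)
    (P : Matrix ι ι F → Prop)
    (c1 : ∀ g h : GL ι F, g ∈ Geo.quadSimilarityGroup (F := F) ⇑Q →
      h ∈ Geo.quadSimilarityGroup (F := F) ⇑Q → P (g : Matrix ι ι F) → P (h : Matrix ι ι F) →
      P ((g * h : GL ι F) : Matrix ι ι F))
    (c2 : ∀ g : GL ι F, g ∈ Geo.quadSimilarityGroup (F := F) ⇑Q → P (g : Matrix ι ι F) →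
      P ((g⁻¹ : GL ι F) : Matrix ι ι F))
    (c3 : ∀ g h : GL ι F, g ∈ Geo.quadSimilarityGroup (F := F) ⇑Q →
      h ∈ Geo.quadSimilarityGroup (F := F) ⇑Q → ¬ P (g : Matrix ι ι F) →
      ¬ P (h : Matrix ι ι F) → P ((g * h : GL ι F) : Matrix ι ι F))
    (c4 : ¬ P (reflectionMatrix ⇑Q u))
    (c5 : ∀ (c : F) (M : Matrix ι ι F), c ≠ 0 → (P (c • M) ↔ P M))
    (g : ↥(Geo.quadSimilarityGroup (F := F) ⇑Q)) (hg : P ((g : GL ι F) : Matrix ι ι F)) :
    simAut ⇑Q g ∈ Inn (POmega F ⇑Q) := by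
  have hOS := isometry_le_similarity (F := F) ⇑Q
  obtain ⟨l, t, hl, ht, hgt⟩ := exists_isometry_smul Q h2 g
  have hPt : P ((t : GL ι F) : Matrix ι ι F) := by
    rw [ht]
    exact (c5 l⁻¹ _ (inv_ne_zero hl)).2 hg
  have hmem : ∀ t : ↥(isometryGroup F ⇑Q), t ∈ Omega F ⇑Q ↔
      Even (((t : GL ι F) : Matrix ι ι F) - 1).rank :=
    fun t => mem_commutator_iff_even_rank Q h2 hQ hcard t
  have htΩ : t ∈ Omega F ⇑Q := by
    by_contra hn
    have hrt : refl Q u hu * t ∈ Omega F ⇑Q := by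
      rw [hmem, even_rank_flip Q hQ t u hu, ← hmem]
      exact hn
    have hP1 := pres_of_mem_omega Q P c1 c2 c3 _ hrt
    have hP2 := c2 _ (hOS t.2) hPt
    have hP3 := c1 _ _ (hOS (refl Q u hu * t).2) (inv_mem (hOS t.2)) hP1 hP2
    have e : ((refl Q u hu * t : ↥(isometryGroup F ⇑Q)) : GL ι F) * (t : GL ι F)⁻¹ =
        ((refl Q u hu : ↥(isometryGroup F ⇑Q)) : GL ι F) := by
      show ((refl Q u hu : ↥(isometryGroup F ⇑Q)) : GL ι F) * (t : GL ι F) * (t : GL ι F)⁻¹ = _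
      rw [mul_inv_cancel_right]
    rw [e, coe_refl] at hP3
    exact c4 hP3
  rw [hgt, inn_eq]
  exact ⟨⟨(t : GL ι F), hOS t.2⟩, Subgroup.mem_subgroupOf.mpr ⟨t, htΩ, rfl⟩, rfl⟩

end Core

theorem inndiag_minus_eq_inn_aux {F : Type u} [Field F] [Fintype F] (h2 : (2 : F) = 0) {m : ℕ}
    (hm : 3 ≤ m) (a b : F)
    (hab : ∀ z₁ z₂ : F, z₁ ^ 2 + a * z₁ * z₂ + b * z₂ ^ 2 = 0 → z₁ = 0 ∧ z₂ = 0)
    (hchi : ∀ (K : Type u) [Field K] [Algebra F K], Module.finrank F K = 2 → ChiData m a b K)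
    (Q' : ((Fin m ⊕ Fin m) ⊕ Fin 2 → F) → F) (hQ' : ⇑(QMinus m F a b) = Q') :
    inndiagOfMinus m a b Q' = Cfsg.Inn (Cfsg.POmega F Q') := by
  subst hQ'
  obtain ⟨Q, hQc, hQ, hn, -⟩ := OAF.minus_data hm a b hab
  have hQeq : Q = QMinus m F a b := DFunLike.coe_injective (hQc.trans (coe_QMinus m F a b).symm)
  subst hQeq
  have hne : Nonempty ((Fin m ⊕ Fin m) ⊕ Fin 2) := ⟨Sum.inr 0⟩
  have hcard : Fintype.card F ≠ 2 ∨ Fintype.card ((Fin m ⊕ Fin m) ⊕ Fin 2) ≠ 4 :=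
    Or.inr (by omega)
  have hu : QMinus m F a b (Pi.single (Sum.inr 0) 1) ≠ 0 := by
    rw [coe_QMinus]
    simp [Cfsg.quadFormMinus]
  apply le_antisymm
  · unfold inndiagOfMinus autSubgroupOf
    rw [Subgroup.closure_le]
    rintro β ⟨g, hg, ⟨K, _, _, hK2, hP⟩, hind⟩
    have hc := hchi K hK2
    unfold ChiData at hc
    rw [← coe_QMinus m F a b] at hc
    obtain ⟨c1, c2, c3, c4, c5⟩ := hc
    have hβ : β = simAut ⇑(QMinus m F a b) ⟨g, hg⟩ := (induced_iff _ ⟨g, hg⟩ β).mp hind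
    rw [SetLike.mem_coe, hβ]
    exact simAut_mem_inn (QMinus m F a b) h2 hQ hcard _ hu (PresK m a b K) c1 c2 c3 (c4 _ hu) c5
      ⟨g, hg⟩ hP
  · rw [inn_eq]
    rintro _ ⟨g, hg, rfl⟩
    obtain ⟨s, hs, hsg⟩ := Subgroup.mem_subgroupOf.mp hg
    obtain ⟨K, _, _, hK2⟩ := exists_quadratic_ext a b hab
    have hc := hchi K hK2
    unfold ChiData at hc
    rw [← coe_QMinus m F a b] at hc
    obtain ⟨c1, c2, c3, c4, c5⟩ := hc
    apply Subgroup.subset_closure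
    refine ⟨(g : GL ((Fin m ⊕ Fin m) ⊕ Fin 2) F), g.2, ⟨K, inferInstance, inferInstance, hK2, ?_⟩,
      (induced_iff _ g _).mpr rfl⟩
    have h3 := pres_of_mem_omega (QMinus m F a b) (PresK m a b K) c1 c2 c3 s hs
    have hsg' : ((s : ↥(isometryGroup F ⇑(QMinus m F a b))) : GL ((Fin m ⊕ Fin m) ⊕ Fin 2) F) =
        (g : GL ((Fin m ⊕ Fin m) ⊕ Fin 2) F) := hsg
    rw [hsg'] at h3
    exact h3

/-- **MF-C2A**: in characteristic two `Inndiag(PΩ⁻) = Inn` -/
theorem inndiag_minus_eq_inn {F : Type u} [Field F] [Fintype F] (h2 : (2 : F) = 0) {m : ℕ}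
    (hm : 3 ≤ m) (a b : F)
    (hab : ∀ z₁ z₂ : F, z₁ ^ 2 + a * z₁ * z₂ + b * z₂ ^ 2 = 0 → z₁ = 0 ∧ z₂ = 0)
    (hchi : ∀ (K : Type u) [Field K] [Algebra F K], Module.finrank F K = 2 → ChiData m a b K) :
    Cfsg.inndiagPOmegaMinus m F a b = Cfsg.Inn (Cfsg.POmega F (Cfsg.quadFormMinus m F a b)) :=
  inndiag_minus_eq_inn_aux h2 hm a b hab hchi _ (coe_QMinus m F a b)

end Cfsg.Agent.Lib.Helper18.MFC2A
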