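import Mathlib

/-!
Arithmetic in a finite field of odd order used for the orthogonal decomposition stabilisers:
values of `1 - θ b²` in prescribed square classes, sums of two squares.
-/

set_option autoImplicit false
set_option linter.unusedSectionVars false

namespace Cfsg.Agent.Lib.Helper18.OD

variable {F : Type*} [Field F] [Fintype F]

theorem card_mod_two (h2 : (2 : F) ≠ 0) : Fintype.card F % 2 = 1 := by
  apply FiniteField.odd_card_of_char_ne_two
  intro h
  have h' : (2 : F) = 0 := by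
    have := CharP.cast_eq_zero F (ringChar F)
    rw [h] at this
    exact_mod_cast this
  exact h2 h'

theorem exists_nonsq (h2 : (2 : F) ≠ 0) : ∃ δ : F, ¬ IsSquare δ := by
  have hchar : ringChar F ≠ 2 := by
    intro hc2
    apply h2
    have : ((ringChar F : ℕ) : F) = 0 := ringChar.Nat.cast_ringChar
    rw [hc2] at this
    exact_mod_cast this
  exact FiniteField.exists_nonsquare hchar

/-- Every element of a finite field of odd order is a sum of two squares. -/
theorem exists_sq_add_sq (h2 : (2 : F) ≠ 0) (x : F) : ∃ a b : F, a ^ 2 + b ^ 2 = x := by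
  have hf : (Polynomial.X ^ 2 : Polynomial F).degree = 2 := Polynomial.degree_X_pow 2
  have hg : (Polynomial.X ^ 2 - Polynomial.C x : Polynomial F).degree = 2 :=
    Polynomial.degree_X_pow_sub_C (by decide) _
  obtain ⟨a, b, hab⟩ := FiniteField.exists_root_sum_quadratic hf hg (card_mod_two h2)
  refine ⟨a, b, ?_⟩
  simp only [Polynomial.eval_sub, Polynomial.eval_pow, Polynomial.eval_X,
    Polynomial.eval_C] at hab
  linear_combination hab

theorem exists_avoid_three (h5 : 5 ≤ Fintype.card F) (a b c : F) :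
    ∃ x : F, x ≠ a ∧ x ≠ b ∧ x ≠ c := by
  classical
  obtain ⟨x, -, hx⟩ := Finset.exists_mem_notMem_of_card_lt_card
    (s := ({a, b, c} : Finset F)) (t := Finset.univ) (by
      rw [Finset.card_univ]
      have := Finset.card_le_three (a := a) (b := b) (c := c)
      omega)
  simp only [Finset.mem_insert, Finset.mem_singleton, not_or] at hx
  exact ⟨x, hx.1, hx.2.1, hx.2.2⟩

theorem exists_sq_ne_one (h5 : 5 ≤ Fintype.card F) : ∃ b : F, b ≠ 0 ∧ b ^ 2 ≠ 1 := by
  obtain ⟨b, hb0, hb1, hb2⟩ := exists_avoid_three h5 (0 : F) 1 (-1)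
  refine ⟨b, hb0, ?_⟩
  intro h
  have : (b - 1) * (b + 1) = 0 := by linear_combination h
  rcases mul_eq_zero.mp this with h1 | h1
  · exact hb1 (sub_eq_zero.mp h1)
  · exact hb2 (eq_neg_of_add_eq_zero_left h1)

/-- For a non-square `θ` some `1 - θ b²` with `b ≠ 0` is a non-zero square. -/
theorem exists_one_sub_sq (h2 : (2 : F) ≠ 0) (h5 : 5 ≤ Fintype.card F) {θ : F}
    (hθ : ¬ IsSquare θ) : ∃ b : F, b ≠ 0 ∧ IsSquare (1 - θ * b ^ 2) ∧ 1 - θ * b ^ 2 ≠ 0 := by
  have hθ0 : θ ≠ 0 := by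
    rintro rfl
    exact hθ ⟨0, by simp⟩
  obtain ⟨l, hl0, hl⟩ : ∃ l : F, l ≠ 0 ∧ θ * l ^ 2 ≠ -1 := by
    by_cases hex : ∃ l₀ : F, θ * l₀ ^ 2 = -1
    · obtain ⟨l₀, hl₀⟩ := hex
      obtain ⟨l, h0, h1, h2'⟩ := exists_avoid_three h5 (0 : F) l₀ (-l₀)
      refine ⟨l, h0, ?_⟩
      intro h
      have : θ * ((l - l₀) * (l + l₀)) = 0 := by linear_combination h - hl₀
      rcases mul_eq_zero.mp this with h3 | h3
      · exact hθ0 h3
      · rcases mul_eq_zero.mp h3 with h4 | h4
        · exact h1 (sub_eq_zero.mp h4)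
        · exact h2' (eq_neg_of_add_eq_zero_left h4)
    · push Not at hex
      exact ⟨1, one_ne_zero, hex 1⟩
  have hD : 1 + θ * l ^ 2 ≠ 0 := by
    intro h
    apply hl
    linear_combination h
  have hN : 1 - θ * l ^ 2 ≠ 0 := by
    intro h
    apply hθ
    refine ⟨l⁻¹, ?_⟩
    field_simp
    linear_combination -h
  refine ⟨2 * l / (1 + θ * l ^ 2), ?_, ?_, ?_⟩
  · exact div_ne_zero (mul_ne_zero h2 hl0) hD
  · refine ⟨(1 - θ * l ^ 2) / (1 + θ * l ^ 2), ?_⟩
    field_simp
    ring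
  · have e : 1 - θ * (2 * l / (1 + θ * l ^ 2)) ^ 2
        = ((1 - θ * l ^ 2) / (1 + θ * l ^ 2)) ^ 2 := by
      field_simp
      ring
    rw [e]
    exact pow_ne_zero 2 (div_ne_zero hN hD)

/-- For `θ ≠ 0` some `1 - θ b²` with `b ≠ 0` is a non-square. -/
theorem exists_one_sub_nonsq (h2 : (2 : F) ≠ 0) (h5 : 5 ≤ Fintype.card F) {θ : F}
    (hθ0 : θ ≠ 0) : ∃ b : F, b ≠ 0 ∧ ¬ IsSquare (1 - θ * b ^ 2) := by
  by_cases hθ : IsSquare θ
  · obtain ⟨τ, hτ⟩ := hθ
    have hτ0 : τ ≠ 0 := by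
      rintro rfl
      apply hθ0
      rw [hτ]; ring
    obtain ⟨ν, hν, hν1⟩ : ∃ ν : F, ¬ IsSquare ν ∧ ν ≠ -1 := by
      obtain ⟨ν₀, hν₀⟩ := exists_nonsq h2
      by_cases h : ν₀ = -1
      · obtain ⟨l, hl0, hl1⟩ := exists_sq_ne_one h5
        refine ⟨-l ^ 2, ?_, ?_⟩
        · rintro ⟨x, hx⟩
          apply hν₀
          rw [h]
          refine ⟨x / l, ?_⟩
          field_simp
          linear_combination hx
        · intro h'
          apply hl1
          linear_combination -h'
      · exact ⟨ν₀, hν₀, h⟩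
    have hν0 : ν ≠ 0 := by
      rintro rfl
      exact hν ⟨0, by simp⟩
    have hD : 1 + ν ≠ 0 := by
      intro h
      apply hν1
      linear_combination h
    have hN : 1 - ν ≠ 0 := by
      intro h
      apply hν
      refine ⟨1, ?_⟩
      linear_combination -h
    refine ⟨(1 - ν) / (1 + ν) / τ, div_ne_zero (div_ne_zero hN hD) hτ0, ?_⟩
    have e : 1 - θ * ((1 - ν) / (1 + ν) / τ) ^ 2 = ν * (2 / (1 + ν)) ^ 2 := by
      rw [hτ]
      field_simp
      ring
    rw [e]
    rintro ⟨x, hx⟩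
    apply hν
    refine ⟨x * (1 + ν) / 2, ?_⟩
    field_simp
    field_simp at hx
    linear_combination hx
  · obtain ⟨s, b, hsb⟩ := exists_sq_add_sq h2 (θ⁻¹)
    have hmul : θ * s ^ 2 + θ * b ^ 2 = 1 := by
      have := congrArg (fun z => θ * z) hsb
      simp only [mul_inv_cancel₀ hθ0] at this
      linear_combination this
    have hs0 : s ≠ 0 := by
      rintro rfl
      apply hθ
      have hb0 : b ≠ 0 := by
        rintro rfl
        simp at hmul
      refine ⟨b⁻¹, ?_⟩
      field_simp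
      linear_combination hmul
    have hb0 : b ≠ 0 := by
      rintro rfl
      apply hθ
      refine ⟨s⁻¹, ?_⟩
      field_simp
      linear_combination hmul
    refine ⟨b, hb0, ?_⟩
    have e : 1 - θ * b ^ 2 = θ * s ^ 2 := by linear_combination -hmul
    rw [e]
    rintro ⟨x, hx⟩
    apply hθ
    refine ⟨x / s, ?_⟩
    field_simp
    linear_combination hx

end Cfsg.Agent.Lib.Helper18.OD
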