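import Mathlib
import Cfsg.Agent.Lib.Helper52.NondegFull
import Cfsg.Agent.Lib.Helper18.ODArith

/-!
Geometry of a non-degenerate summand `N` of an orthogonal decomposition `V = N ⊥ U`
(finite field of odd order): non-singular vectors, orthogonal complements of non-singular
vectors inside `N`, vectors of prescribed norm and prescribed product with a given vector,
and the fact that an additive subgroup invariant under the Eichler transformations of `N`
and containing a vector not orthogonal to `N` contains `N` (`dim N ≥ 3`).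
-/

set_option autoImplicit false
set_option linter.unusedSectionVars false

namespace Cfsg.Agent.Lib.Helper18.OD

open Module QuadraticMap
open Cfsg.Agent.Lib.Helper51 Cfsg.Agent.Lib.Helper52

section Geom

variable {ι : Type} [Fintype ι] [DecidableEq ι] {F : Type*} [Field F] [Fintype F]
variable {Q : QuadraticForm F (ι → F)}

theorem Q_add' (x y : ι → F) : Q (x + y) = Q x + Q y + polar ⇑Q x y := by
  unfold QuadraticMap.polar; ring

/-- A non-zero summand contains a non-singular vector. -/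
theorem exists_nonsing {N U : Submodule F (ι → F)} (h : OrthPair Q N U)
    (hQ : (polarBilin Q).Nondegenerate) (hN : N ≠ ⊥) : ∃ t ∈ N, Q t ≠ 0 := by
  obtain ⟨n, hn, hn0⟩ := Submodule.exists_mem_ne_zero_of_ne_bot hN
  obtain ⟨n', hn', hne⟩ := h.nondeg hQ hn hn0
  by_cases h1 : Q n = 0
  · by_cases h2 : Q n' = 0
    · refine ⟨n + n', N.add_mem hn hn', ?_⟩
      rw [Q_add', h1, h2]
      simpa using hne
    · exact ⟨n', hn', h2⟩
  · exact ⟨n, hn, h1⟩

/-- The vectors of `N` orthogonal to `y`. -/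
def perpIn (Q : QuadraticForm F (ι → F)) (N : Submodule F (ι → F)) (y : ι → F) :
    Submodule F (ι → F) :=
  N ⊓ LinearMap.ker (polarBilin Q y)

theorem mem_perpIn {N : Submodule F (ι → F)} {y x : ι → F} :
    x ∈ perpIn Q N y ↔ x ∈ N ∧ polar ⇑Q y x = 0 := by
  unfold perpIn
  rw [Submodule.mem_inf, LinearMap.mem_ker, polarBilin_apply_apply]

theorem finrank_perpIn_ge (N : Submodule F (ι → F)) (y : ι → F) :
    finrank F N ≤ finrank F ↥(perpIn Q N y) + 1 := by
  obtain ⟨f, hf⟩ : ∃ f : N →ₗ[F] F, f = (polarBilin Q y).domRestrict N := ⟨_, rfl⟩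
  have h1 := LinearMap.finrank_range_add_finrank_ker f
  have h2 : finrank F ↥(LinearMap.range f) ≤ 1 := by
    have := Submodule.finrank_le (LinearMap.range f)
    rwa [Module.finrank_self] at this
  have h3 : (LinearMap.ker f).map N.subtype = perpIn Q N y := by
    ext x
    constructor
    · rintro ⟨⟨z, hz⟩, hzk, rfl⟩
      have hzk' : f ⟨z, hz⟩ = 0 := hzk
      rw [hf, LinearMap.domRestrict_apply, polarBilin_apply_apply] at hzk'
      exact mem_perpIn.mpr ⟨hz, hzk'⟩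
    · intro hx
      obtain ⟨hxN, hxy⟩ := mem_perpIn.mp hx
      refine ⟨⟨x, hxN⟩, ?_, rfl⟩
      rw [SetLike.mem_coe, LinearMap.mem_ker, hf, LinearMap.domRestrict_apply,
        polarBilin_apply_apply]
      exact hxy
  have h4 : finrank F ↥(perpIn Q N y) = finrank F ↥(LinearMap.ker f) := by
    rw [← h3]
    exact Submodule.finrank_map_subtype_eq N (LinearMap.ker f)
  omega

/-- Splitting off a non-singular vector of `N`. -/
theorem perp_orthPair {N U : Submodule F (ι → F)} (h : OrthPair Q N U) (h2 : (2 : F) ≠ 0)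
    {y : ι → F} (hy : y ∈ N) (hQy : Q y ≠ 0) :
    OrthPair Q (perpIn Q N y) (U ⊔ Submodule.span F ({y} : Set (ι → F))) := by
  refine ⟨?_, ?_⟩
  · intro x hx z hz
    obtain ⟨hxN, hxy⟩ := mem_perpIn.mp hx
    obtain ⟨u, hu, w, hw, rfl⟩ := Submodule.mem_sup.mp hz
    obtain ⟨c, rfl⟩ := Submodule.mem_span_singleton.mp hw
    rw [polar_add_right, polar_smul_right, h.orth x hxN u hu, polar_comm ⇑Q x y, hxy]
    simp
  · rw [eq_top_iff]
    intro v _
    obtain ⟨a, ha, b, hb, rfl⟩ := h.exists_decomp v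
    have hmem : a - ((2 * Q y)⁻¹ * polar ⇑Q y a) • y ∈ perpIn Q N y := by
      rw [mem_perpIn]
      refine ⟨N.sub_mem ha (N.smul_mem _ hy), ?_⟩
      rw [polar_sub_right, polar_smul_right, Cfsg.Agent.Lib.Helper51.polar_self, smul_eq_mul]
      field_simp
      ring
    have e : a + b = (a - ((2 * Q y)⁻¹ * polar ⇑Q y a) • y)
        + (b + ((2 * Q y)⁻¹ * polar ⇑Q y a) • y) := by abel
    rw [e]
    exact Submodule.add_mem _ (Submodule.mem_sup_left hmem)
      (Submodule.mem_sup_right (Submodule.add_mem _ (Submodule.mem_sup_left hb)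
        (Submodule.mem_sup_right (Submodule.smul_mem _ _
          (Submodule.mem_span_singleton_self y)))))

/-- A non-singular vector of `N` orthogonal to a given singular vector of `N`. -/
theorem exists_nonsing_orth {N U : Submodule F (ι → F)} (h : OrthPair Q N U)
    (hQ : (polarBilin Q).Nondegenerate) (hdim : 3 ≤ finrank F N) {z : ι → F} (hz : z ∈ N)
    (hz0 : z ≠ 0) (hQz : Q z = 0) : ∃ w ∈ N, polar ⇑Q z w = 0 ∧ Q w ≠ 0 := by
  obtain ⟨v, hvN, hv, hzv⟩ := h.exists_partner hQ hz hz0 hQz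
  have hge := finrank_inf_orth_pair_ge hQ N z v
  have hne : N ⊓ LinearMap.BilinForm.orthogonal (polarBilin Q)
      (Submodule.span F ({z, v} : Set (ι → F))) ≠ ⊥ := by
    intro hbot
    rw [hbot, finrank_bot] at hge
    omega
  obtain ⟨t, ht, ht0⟩ := Submodule.exists_mem_ne_zero_of_ne_bot hne
  obtain ⟨htN, hzt, hvt⟩ := (mem_inf_orth_pair N z v t).mp ht
  obtain ⟨n, hn, hne'⟩ := h.nondeg hQ htN ht0
  obtain ⟨hp1, hp2⟩ := polar_proj z v n hQz hv hzv
  obtain ⟨n₀, hn₀⟩ : ∃ n₀, n₀ = n - polar ⇑Q n v • z - polar ⇑Q n z • v := ⟨_, rfl⟩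
  rw [← hn₀] at hp1 hp2
  have hn₀N : n₀ ∈ N := by
    rw [hn₀]
    exact N.sub_mem (N.sub_mem hn (N.smul_mem _ hz)) (N.smul_mem _ hvN)
  have htn₀ : polar ⇑Q t n₀ = polar ⇑Q t n := by
    rw [hn₀, polar_sub_right, polar_sub_right, polar_smul_right, polar_smul_right,
      polar_comm ⇑Q t z, hzt, polar_comm ⇑Q t v, hvt]
    simp
  by_cases h1 : Q t = 0
  · by_cases h2 : Q n₀ = 0
    · refine ⟨t + n₀, N.add_mem htN hn₀N, by rw [polar_add_right, hzt, hp1, add_zero], ?_⟩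
      rw [Q_add', h1, h2, htn₀]
      simpa using hne'
    · exact ⟨n₀, hn₀N, hp1, h2⟩
  · exact ⟨t, htN, hzt, h1⟩

/-- An additive subgroup invariant under the Eichler transformations of `N` and containing a
vector not orthogonal to `N` contains `N`. -/
theorem le_of_eich_inv {N U : Submodule F (ι → F)} (h : OrthPair Q N U)
    (hQ : (polarBilin Q).Nondegenerate) (h2 : (2 : F) ≠ 0) (hdim : 3 ≤ finrank F N)
    (Y : AddSubgroup (ι → F))
    (hinv : ∀ z ∈ N, ∀ w ∈ N, Q z = 0 → polar ⇑Q z w = 0 → ∀ x ∈ Y,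
      (eichMat Q z w).mulVec x ∈ Y)
    {a : ι → F} (ha : a ∈ Y) {n : ι → F} (hn : n ∈ N) (han : polar ⇑Q a n ≠ 0) :
    ∀ x ∈ N, x ∈ Y := by
  -- the difference `E x - x`
  have hdiff : ∀ z ∈ N, ∀ w ∈ N, Q z = 0 → polar ⇑Q z w = 0 → ∀ x ∈ Y,
      polar ⇑Q w x • z - polar ⇑Q z x • w - (Q w * polar ⇑Q z x) • z ∈ Y := by
    intro z hz w hw hQz hzw x hx
    have h1 := Y.sub_mem (hinv z hz w hw hQz hzw x hx) hx
    rw [eichMat_mulVec] at h1
    have e : x + polar ⇑Q w x • z - polar ⇑Q z x • w - (Q w * polar ⇑Q z x) • z - x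
        = polar ⇑Q w x • z - polar ⇑Q z x • w - (Q w * polar ⇑Q z x) • z := by abel
    rwa [e] at h1
  -- a singular vector of `N` not orthogonal to `a`
  obtain ⟨z₀, hz₀N, hQz₀, haz₀⟩ : ∃ z₀ ∈ N, Q z₀ = 0 ∧ polar ⇑Q a z₀ ≠ 0 := by
    by_contra hcon
    push Not at hcon
    exact han (h.orth_of_orth_singular hQ hdim a (fun s hs hQs => hcon s hs hQs) n hn)
  have hz₀0 : z₀ ≠ 0 := by
    rintro rfl
    exact haz₀ (polar_zero_right _ _)
  have hz₀a : polar ⇑Q z₀ a ≠ 0 := by rw [polar_comm]; exact haz₀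
  obtain ⟨w₀, hw₀N, hz₀w₀, hQw₀⟩ := exists_nonsing_orth h hQ hdim hz₀N hz₀0 hQz₀
  have hw₀z₀ : polar ⇑Q w₀ z₀ = 0 := by rw [polar_comm]; exact hz₀w₀
  have hz₀z₀ : polar ⇑Q z₀ z₀ = 0 := by
    rw [Cfsg.Agent.Lib.Helper51.polar_self, hQz₀, mul_zero]
  obtain ⟨y', hy'⟩ : ∃ y', y' = polar ⇑Q w₀ a • z₀ - polar ⇑Q z₀ a • w₀
      - (Q w₀ * polar ⇑Q z₀ a) • z₀ := ⟨_, rfl⟩
  have hy'Y : y' ∈ Y := by rw [hy']; exact hdiff z₀ hz₀N w₀ hw₀N hQz₀ hz₀w₀ a ha
  have hz₀y' : polar ⇑Q z₀ y' = 0 := by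
    rw [hy', polar_sub_right, polar_sub_right, polar_smul_right, polar_smul_right,
      polar_smul_right, hz₀z₀, hz₀w₀]
    simp
  have hw₀y' : polar ⇑Q w₀ y' = -(2 * Q w₀ * polar ⇑Q z₀ a) := by
    rw [hy', polar_sub_right, polar_sub_right, polar_smul_right, polar_smul_right,
      polar_smul_right, hw₀z₀, Cfsg.Agent.Lib.Helper51.polar_self]
    simp only [smul_eq_mul]
    ring
  have hβ : polar ⇑Q w₀ y' ≠ 0 := by
    rw [hw₀y']
    exact neg_ne_zero.mpr (mul_ne_zero (mul_ne_zero h2 hQw₀) hz₀a)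
  -- the line of `z₀` lies in `Y`
  have hFz : ∀ c : F, c • z₀ ∈ Y := by
    intro c
    have hw' : (c * (polar ⇑Q w₀ y')⁻¹) • w₀ ∈ N := N.smul_mem _ hw₀N
    have hzw' : polar ⇑Q z₀ ((c * (polar ⇑Q w₀ y')⁻¹) • w₀) = 0 := by
      rw [polar_smul_right, hz₀w₀, smul_zero]
    have h1 := hdiff z₀ hz₀N _ hw' hQz₀ hzw' y' hy'Y
    rw [hz₀y', polar_smul_left] at h1
    have e : (c * (polar ⇑Q w₀ y')⁻¹) • polar ⇑Q w₀ y' = c := by
      rw [smul_eq_mul, mul_assoc, inv_mul_cancel₀ hβ, mul_one]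
    rw [e] at h1
    simpa using h1
  -- a partner of `z₀`
  obtain ⟨v, hvN, hQv, hz₀v⟩ := h.exists_partner hQ hz₀N hz₀0 hQz₀
  have hvz₀ : polar ⇑Q v z₀ = 1 := by rw [polar_comm]; exact hz₀v
  have hv0 : v ≠ 0 := by
    rintro rfl
    rw [polar_zero_right] at hz₀v
    exact zero_ne_one hz₀v
  obtain ⟨w₁, hw₁N, hvw₁, hQw₁⟩ := exists_nonsing_orth h hQ hdim hvN hv0 hQv
  have hstep : ∀ w ∈ N, polar ⇑Q v w = 0 → ∀ c : F,
      (c * polar ⇑Q w z₀) • v - c • w - (c * Q w) • v ∈ Y := by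
    intro w hw hvw c
    have h1 := hdiff v hvN w hw hQv hvw (c • z₀) (hFz c)
    rw [polar_smul_right, polar_smul_right, hvz₀] at h1
    have e : (c • polar ⇑Q w z₀) • v - (c • (1 : F)) • w - (Q w * c • (1 : F)) • v
        = (c * polar ⇑Q w z₀) • v - c • w - (c * Q w) • v := by
      simp only [smul_eq_mul, mul_one]
      rw [mul_comm (Q w) c]
    rwa [e] at h1
  have hFv : ∀ c : F, c • v ∈ Y := by
    intro c
    obtain ⟨d, hd⟩ : ∃ d : F, d = -(c * (2 * Q w₁)⁻¹) := ⟨_, rfl⟩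
    have h1 := hstep w₁ hw₁N hvw₁ d
    have h1' := hstep (-w₁) (N.neg_mem hw₁N) (by rw [polar_neg_right, hvw₁, neg_zero]) d
    have h3 := Y.add_mem h1 h1'
    have hQn : Q (-w₁) = Q w₁ := by
      have := QuadraticMap.map_smul Q (-1 : F) w₁
      rw [neg_one_smul] at this
      rw [this]; simp
    rw [hQn, polar_neg_left] at h3
    have e : (d * polar ⇑Q w₁ z₀) • v - d • w₁ - (d * Q w₁) • v
        + ((d * -polar ⇑Q w₁ z₀) • v - d • -w₁ - (d * Q w₁) • v) = c • v := by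
      have hc : -(2 * (d * Q w₁)) = c := by
        rw [hd]
        field_simp
      rw [← hc]
      module
    rwa [e] at h3
  have hperp : ∀ w ∈ N, polar ⇑Q v w = 0 → w ∈ Y := by
    intro w hw hvw
    have h1 := hstep w hw hvw 1
    have h3 := Y.sub_mem (Y.sub_mem (hFv (1 * polar ⇑Q w z₀)) h1) (hFv (1 * Q w))
    have e : (1 * polar ⇑Q w z₀) • v - ((1 * polar ⇑Q w z₀) • v - (1 : F) • w - (1 * Q w) • v)
        - (1 * Q w) • v = w := by module
    rwa [e] at h3
  intro x hx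
  have h1 : x - polar ⇑Q v x • z₀ ∈ Y := by
    apply hperp _ (N.sub_mem hx (N.smul_mem _ hz₀N))
    rw [polar_sub_right, polar_smul_right, hvz₀]
    simp
  have h3 := Y.add_mem h1 (hFz (polar ⇑Q v x))
  rwa [sub_add_cancel] at h3

/-- A binary orthogonal pair of non-singular vectors represents every element. -/
theorem exists_Q_pair (h2 : (2 : F) ≠ 0) {t₁ t₂ : ι → F} (h1 : Q t₁ ≠ 0) (h2' : Q t₂ ≠ 0)
    (h12 : polar ⇑Q t₁ t₂ = 0) (c : F) : ∃ x y : F, Q (x • t₁ + y • t₂) = c := by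
  have hf : (Polynomial.C (Q t₁) * Polynomial.X ^ 2 - Polynomial.C c : Polynomial F).degree
      = 2 := by
    rw [Polynomial.degree_sub_C (by rw [Polynomial.degree_C_mul_X_pow 2 h1]; norm_num),
      Polynomial.degree_C_mul_X_pow 2 h1]
    rfl
  have hg : (Polynomial.C (Q t₂) * Polynomial.X ^ 2 : Polynomial F).degree = 2 := by
    rw [Polynomial.degree_C_mul_X_pow 2 h2']
    rfl
  obtain ⟨x, y, hxy⟩ := FiniteField.exists_root_sum_quadratic hf hg (card_mod_two h2)
  simp only [Polynomial.eval_sub, Polynomial.eval_mul, Polynomial.eval_C, Polynomial.eval_pow,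
    Polynomial.eval_X] at hxy
  refine ⟨x, y, ?_⟩
  rw [Q_add', QuadraticMap.map_smul, QuadraticMap.map_smul, polar_smul_left, polar_smul_right,
    h12]
  simp only [smul_eq_mul]
  linear_combination hxy

/-- A vector of `N` with prescribed norm and prescribed (non-zero) product with a given
non-zero vector of `N`. -/
theorem exists_rep {N U : Submodule F (ι → F)} (h : OrthPair Q N U)
    (hQ : (polarBilin Q).Nondegenerate) (h2 : (2 : F) ≠ 0) (hdim : 3 ≤ finrank F N)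
    {y : ι → F} (hy : y ∈ N) (hy0 : y ≠ 0) (c0 β : F) (hβ : β ≠ 0) :
    ∃ c ∈ N, Q c = c0 ∧ polar ⇑Q c y = β := by
  by_cases hQy : Q y = 0
  · obtain ⟨v, hvN, hQv, hyv⟩ := h.exists_partner hQ hy hy0 hQy
    have hvy : polar ⇑Q v y = 1 := by rw [polar_comm]; exact hyv
    refine ⟨β • v + (c0 / β) • y, N.add_mem (N.smul_mem _ hvN) (N.smul_mem _ hy), ?_, ?_⟩
    · rw [Q_add_smul, QuadraticMap.map_smul, hQv, hQy, polar_smul_left, hvy]
      simp only [smul_eq_mul]
      field_simp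
      ring
    · rw [polar_add_left, polar_smul_left, polar_smul_left, hvy,
        Cfsg.Agent.Lib.Helper51.polar_self, hQy]
      simp
  · have h₁ := perp_orthPair h h2 hy hQy
    have hf₁ := finrank_perpIn_ge (Q := Q) N y
    have hN₁ : perpIn Q N y ≠ ⊥ := by
      intro hbot
      rw [hbot, finrank_bot] at hf₁
      omega
    obtain ⟨t₁, ht₁, hQt₁⟩ := exists_nonsing h₁ hQ hN₁
    have h₂ := perp_orthPair h₁ h2 ht₁ hQt₁
    have hf₂ := finrank_perpIn_ge (Q := Q) (perpIn Q N y) t₁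
    have hN₂ : perpIn Q (perpIn Q N y) t₁ ≠ ⊥ := by
      intro hbot
      rw [hbot, finrank_bot] at hf₂
      omega
    obtain ⟨t₂, ht₂, hQt₂⟩ := exists_nonsing h₂ hQ hN₂
    obtain ⟨ht₁N, hyt₁⟩ := mem_perpIn.mp ht₁
    obtain ⟨ht₂', ht₁t₂⟩ := mem_perpIn.mp ht₂
    obtain ⟨ht₂N, hyt₂⟩ := mem_perpIn.mp ht₂'
    have h4 : (4 : F) ≠ 0 := by
      have : (4 : F) = 2 * 2 := by norm_num
      rw [this]; exact mul_ne_zero h2 h2
    obtain ⟨x, x', hxx'⟩ := exists_Q_pair h2 hQt₁ hQt₂ ht₁t₂ (c0 - β ^ 2 / (4 * Q y))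
    refine ⟨(x • t₁ + x' • t₂) + (β / (2 * Q y)) • y,
      N.add_mem (N.add_mem (N.smul_mem _ ht₁N) (N.smul_mem _ ht₂N)) (N.smul_mem _ hy), ?_, ?_⟩
    · rw [Q_add_smul, hxx', polar_add_left, polar_smul_left, polar_smul_left,
        polar_comm ⇑Q t₁ y, hyt₁, polar_comm ⇑Q t₂ y, hyt₂]
      simp only [smul_eq_mul]
      field_simp
      ring
    · rw [polar_add_left, polar_add_left, polar_smul_left, polar_smul_left, polar_smul_left,
        polar_comm ⇑Q t₁ y, hyt₁, polar_comm ⇑Q t₂ y, hyt₂,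
        Cfsg.Agent.Lib.Helper51.polar_self]
      simp only [smul_eq_mul]
      field_simp
      ring

/-- Transport of a singular vector orthogonal to `w` to one orthogonal to a vector `y` of the
same norm, by a reflection of `N`. -/
theorem exists_sing_orth_of_norm (h2 : (2 : F) ≠ 0) {N : Submodule F (ι → F)}
    {u w y : ι → F} (hu : u ∈ N) (hw : w ∈ N) (hy : y ∈ N) (hu0 : u ≠ 0) (hQu : Q u = 0)
    (huw : polar ⇑Q u w = 0) (hQw : Q w ≠ 0) (hQy : Q y = Q w) :
    ∃ u' ∈ N, u' ≠ 0 ∧ Q u' = 0 ∧ polar ⇑Q u' y = 0 := by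
  have key : ∀ v ∈ N, Q v ≠ 0 → polar ⇑Q v u * polar ⇑Q v y = Q v * polar ⇑Q u y →
      ∃ u' ∈ N, u' ≠ 0 ∧ Q u' = 0 ∧ polar ⇑Q u' y = 0 := by
    intro v hv hQv hrel
    refine ⟨u - ((Q v)⁻¹ * polar ⇑Q v u) • v, N.sub_mem hu (N.smul_mem _ hv), ?_, ?_, ?_⟩
    · intro h0
      have hu' : u = ((Q v)⁻¹ * polar ⇑Q v u) • v := sub_eq_zero.mp h0
      have h1 : Q u = ((Q v)⁻¹ * polar ⇑Q v u) * ((Q v)⁻¹ * polar ⇑Q v u) * Q v := by
        conv_lhs => rw [hu']
        rw [QuadraticMap.map_smul]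
        simp
      rw [hQu] at h1
      have h3 : (Q v)⁻¹ * polar ⇑Q v u = 0 := by
        rcases mul_eq_zero.mp h1.symm with h4 | h4
        · rcases mul_eq_zero.mp h4 with h5 | h5 <;> exact h5
        · exact absurd h4 hQv
      apply hu0
      rw [hu', h3, zero_smul]
    · rw [Q_sub_smul', hQu]
      field_simp
      ring
    · rw [polar_sub_left, polar_smul_left, smul_eq_mul]
      field_simp
      linear_combination -hrel
  have hwu : polar ⇑Q w u = 0 := by rw [polar_comm]; exact huw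
  by_cases hv : Q (y - w) = 0
  · have hQs : Q (y - w) = Q y + Q w - polar ⇑Q w y := by
      have := Q_sub_smul' Q y w 1
      rw [one_smul] at this
      rw [this]; ring
    have hQp : Q (y + w) = Q y + Q w + polar ⇑Q y w := Q_add' y w
    apply key (y + w) (N.add_mem hy hw)
    · rw [hQp]
      rw [hQs, hQy] at hv
      rw [hQy, polar_comm ⇑Q y w]
      intro h0
      apply hQw
      have : (4 : F) * Q w = 0 := by linear_combination hv + h0
      have h4 : (4 : F) ≠ 0 := by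
        have : (4 : F) = 2 * 2 := by norm_num
        rw [this]; exact mul_ne_zero h2 h2
      exact (mul_eq_zero.mp this).resolve_left h4
    · rw [hQp, polar_add_left, polar_add_left, hwu, Cfsg.Agent.Lib.Helper51.polar_self, hQy,
        polar_comm ⇑Q y u, polar_comm ⇑Q w y]
      ring
  · have hQs : Q (y - w) = Q y + Q w - polar ⇑Q w y := by
      have := Q_sub_smul' Q y w 1
      rw [one_smul] at this
      rw [this]; ring
    apply key (y - w) (N.sub_mem hy hw) hv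
    rw [hQs, polar_sub_left, polar_sub_left, hwu, Cfsg.Agent.Lib.Helper51.polar_self, hQy,
      polar_comm ⇑Q y u]
    ring

/-- A vector of `N ∩ u'^⊥` not orthogonal to a given vector of `N ∩ u'^⊥` outside the line of
the singular vector `u'`. -/
theorem exists_orth_ne {N U : Submodule F (ι → F)} (h : OrthPair Q N U)
    (hQ : (polarBilin Q).Nondegenerate) {u' y : ι → F} (hu' : u' ∈ N) (hu'0 : u' ≠ 0)
    (hQu' : Q u' = 0) (hy : y ∈ N) (huy : polar ⇑Q u' y = 0)
    (hyn : y ∉ Submodule.span F ({u'} : Set (ι → F))) :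
    ∃ a' ∈ N, polar ⇑Q u' a' = 0 ∧ polar ⇑Q a' y ≠ 0 := by
  by_contra hcon
  push Not at hcon
  obtain ⟨v, hvN, hQv, hu'v⟩ := h.exists_partner hQ hu' hu'0 hQu'
  apply hyn
  have hzero : y - polar ⇑Q y v • u' = 0 := by
    by_contra hne
    obtain ⟨n, hn, hne'⟩ := h.nondeg hQ (N.sub_mem hy (N.smul_mem _ hu')) hne
    apply hne'
    have h1 : polar ⇑Q (n - polar ⇑Q u' n • v) y = 0 := by
      apply hcon _ (N.sub_mem hn (N.smul_mem _ hvN))
      rw [polar_sub_right, polar_smul_right, hu'v]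
      simp
    rw [polar_sub_left, polar_smul_left, smul_eq_mul] at h1
    rw [polar_sub_left, polar_smul_left, smul_eq_mul, polar_comm ⇑Q y n]
    rw [polar_comm ⇑Q v y] at h1
    linear_combination h1
  rw [Submodule.mem_span_singleton]
  exact ⟨polar ⇑Q y v, (sub_eq_zero.mp hzero).symm⟩

/-- For `dim N ≥ 5`: a singular vector of `N` orthogonal to a given non-zero `y ∈ N`, with
`y` outside its line. -/
theorem exists_nice_five {N U : Submodule F (ι → F)} (h : OrthPair Q N U)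
    (hQ : (polarBilin Q).Nondegenerate) (hdim : 5 ≤ finrank F N) {y : ι → F} (hy : y ∈ N)
    (hy0 : y ≠ 0) :
    ∃ u' ∈ N, u' ≠ 0 ∧ Q u' = 0 ∧ polar ⇑Q u' y = 0 ∧
      ∃ a' ∈ N, polar ⇑Q u' a' = 0 ∧ polar ⇑Q a' y ≠ 0 := by
  have hf := finrank_perpIn_ge (Q := Q) N y
  obtain ⟨u, hu, u', hu', hu0, hu'0, hQu, hQu', hn1, hn2⟩ :=
    exists_two_singular (Q := Q) (perpIn Q N y) (by omega)
  obtain ⟨huN, hyu⟩ := mem_perpIn.mp hu
  obtain ⟨hu'N, hyu'⟩ := mem_perpIn.mp hu'
  by_cases hyu1 : y ∈ Submodule.span F ({u} : Set (ι → F))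
  · have hyu2 : y ∉ Submodule.span F ({u'} : Set (ι → F)) := by
      intro hmem
      obtain ⟨c, hc⟩ := Submodule.mem_span_singleton.mp hyu1
      obtain ⟨c', hc'⟩ := Submodule.mem_span_singleton.mp hmem
      have hc0 : c ≠ 0 := by
        rintro rfl
        apply hy0
        rw [← hc, zero_smul]
      apply hn2
      rw [Submodule.mem_span_singleton]
      refine ⟨c⁻¹ * c', ?_⟩
      rw [mul_smul, hc', ← hc, smul_smul, inv_mul_cancel₀ hc0, one_smul]
    have huy' : polar ⇑Q u' y = 0 := by rw [polar_comm]; exact hyu'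
    obtain ⟨a', ha', h1, h3⟩ := exists_orth_ne h hQ hu'N hu'0 hQu' hy huy' hyu2
    exact ⟨u', hu'N, hu'0, hQu', huy', a', ha', h1, h3⟩
  · have huy' : polar ⇑Q u y = 0 := by rw [polar_comm]; exact hyu
    obtain ⟨a', ha', h1, h3⟩ := exists_orth_ne h hQ huN hu0 hQu hy huy' hyu1
    exact ⟨u, huN, hu0, hQu, huy', a', ha', h1, h3⟩

end Geom

end Cfsg.Agent.Lib.Helper18.OD
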