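import Mathlib
import Cfsg.Agent.Lib.Helper51.NegOne
import Cfsg.Agent.Lib.Helper52.NondegFull

/-!
The isometries `-r_c` (minus the reflection in a non-singular vector `c`) of a quadratic space
of odd dimension over a finite field of odd order: conjugation, and the spinor norm criterion
`-r_c ∈ Ω ↔ Δ · Q(c)` is a square, for a fixed `Δ ≠ 0`.
-/

set_option autoImplicit false
set_option linter.unusedSectionVars false

namespace Cfsg.Agent.Lib.Helper18.OD

open Module QuadraticMap Cfsg
open Cfsg.Agent.Lib.Helper51 Cfsg.Agent.Lib.Helper52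

section Rho

variable {ι : Type} [Fintype ι] [DecidableEq ι] {F : Type*} [Field F]
variable (Q : QuadraticForm F (ι → F))

local notation "mt(" g ")" => ((g : Matrix.GeneralLinearGroup ι F) : Matrix ι ι F)

/-- Minus the reflection in the non-singular vector `c`, as an isometry. -/
noncomputable def rho (c : ι → F) (hc : Q c ≠ 0) : isometryGroup F ⇑Q :=
  ⟨⟨-reflectionMatrix ⇑Q c, -reflectionMatrix ⇑Q c,
      by rw [neg_mul_neg, reflectionMatrix_mul_self Q c hc],
      by rw [neg_mul_neg, reflectionMatrix_mul_self Q c hc]⟩,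
    (mem_isometryGroup_iff Q _).mpr (fun x => by
      show Q ((-reflectionMatrix ⇑Q c).mulVec x) = Q x
      rw [Matrix.neg_mulVec, QuadraticMap.map_neg, Q_reflection Q c x hc])⟩

theorem coe_rho (c : ι → F) (hc : Q c ≠ 0) :
    mt(rho Q c hc) = -reflectionMatrix ⇑Q c := rfl

theorem rho_mulVec (c : ι → F) (hc : Q c ≠ 0) (x : ι → F) :
    mt(rho Q c hc).mulVec x = ((Q c)⁻¹ * polar ⇑Q c x) • c - x := by
  rw [coe_rho, Matrix.neg_mulVec, reflectionMatrix_mulVec, neg_sub]

theorem rho_congr {c c' : ι → F} (hc : Q c ≠ 0) (hc' : Q c' ≠ 0)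
    (h : reflectionMatrix ⇑Q c = reflectionMatrix ⇑Q c') : rho Q c hc = rho Q c' hc' := by
  apply isometry_ext
  rw [coe_rho, coe_rho, h]

theorem rho_smul (c : ι → F) (hc : Q c ≠ 0) (a : F) (ha : a ≠ 0) (hc' : Q (a • c) ≠ 0) :
    rho Q (a • c) hc' = rho Q c hc :=
  rho_congr Q hc' hc (reflectionMatrix_smul Q c a ha)

/-- Conjugating `-r_c` by an isometry `g` gives `-r_{g c}`. -/
theorem conj_rho (g : isometryGroup F ⇑Q) (c : ι → F) (hc : Q c ≠ 0) :
    g * rho Q c hc * g⁻¹ = rho Q (mt(g).mulVec c) (by rw [isometry_apply]; exact hc) := by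
  apply isometry_ext
  apply matrix_ext_mulVec
  intro x
  rw [coe_mul', coe_mul', ← Matrix.mulVec_mulVec, ← Matrix.mulVec_mulVec, rho_mulVec,
    rho_mulVec, Matrix.mulVec_sub, Matrix.mulVec_smul, coe_inv_mulVec, isometry_apply]
  congr 3
  rw [← isometry_polar Q g, coe_inv_mulVec]

/-- The spinor norm criterion for `-r_c` in odd dimension. -/
theorem exists_disc [Fintype F] (h2 : (2 : F) ≠ 0) (hQ : (polarBilin Q).Nondegenerate)
    (hodd : Odd (Fintype.card ι)) :
    ∃ Δ : F, Δ ≠ 0 ∧ ∀ (c : ι → F) (hc : Q c ≠ 0),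
      (rho Q c hc ∈ commutator (isometryGroup F ⇑Q) ↔ IsSquare (Δ * Q c)) := by
  classical
  have : Invertible (2 : F) := invertibleOfNonzero h2
  have hsymm : LinearMap.BilinForm.IsSymm (QuadraticMap.polarBilin Q) :=
    ⟨fun x y => by
      rw [QuadraticMap.polarBilin_apply_apply, QuadraticMap.polarBilin_apply_apply]
      exact polar_comm' Q x y⟩
  obtain ⟨v, hv⟩ := LinearMap.BilinForm.exists_orthogonal_basis
    (LinearMap.BilinForm.isSymm_iff.mp hsymm)
  have hfr : Module.finrank F (ι → F) = Fintype.card ι := Module.finrank_fintype_fun_eq_card F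
  have hortho : ∀ i j, i ≠ j → QuadraticMap.polar ⇑Q (v i) (v j) = 0 := by
    intro i j hij
    have := LinearMap.isOrthoᵢ_def.mp hv i j hij
    rwa [QuadraticMap.polarBilin_apply_apply] at this
  have hns : ∀ i, Q (v i) ≠ 0 := by
    intro i hi
    have := hv.not_isOrtho_basis_self_of_separatingLeft hQ.1 i
    apply this
    rw [QuadraticMap.polarBilin_apply_apply, Cfsg.Agent.Lib.Helper51.polar_self, hi, mul_zero]
  obtain ⟨vs, hvsdef⟩ : ∃ vs : List (ι → F),
      vs = List.ofFn (fun k : Fin (Module.finrank F (ι → F)) => v k) := ⟨_, rfl⟩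
  have hvs : ∀ w ∈ vs, Q w ≠ 0 := by
    intro w hw
    rw [hvsdef] at hw
    obtain ⟨k, rfl⟩ := List.mem_ofFn.mp hw
    exact hns k
  have hpair : vs.Pairwise (fun v w => QuadraticMap.polar ⇑Q v w = 0) := by
    rw [hvsdef, List.pairwise_ofFn]
    intro i j hij
    exact hortho i j (ne_of_lt hij)
  have hprod : (vs.map (fun v => reflectionMatrix ⇑Q v)).prod = -1 := by
    apply Matrix.toLin'.injective
    apply v.ext
    intro k
    rw [Matrix.toLin'_apply, prod_refl_neg Q vs hvs hpair (v k)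
      (by rw [hvsdef]; exact List.mem_ofFn.mpr ⟨k, rfl⟩)]
    simp [Matrix.toLin'_apply]
  have hlen : vs.length = Fintype.card ι := by
    rw [hvsdef, List.length_ofFn, hfr]
  obtain ⟨hΔ0, -⟩ := isSquare_prod_iff Q vs hvs
  refine ⟨(vs.map (fun v => Q v)).prod, hΔ0, ?_⟩
  intro c hc
  have hvs' : ∀ w ∈ vs ++ [c], Q w ≠ 0 := by
    intro w hw
    rcases List.mem_append.mp hw with h | h
    · exact hvs w h
    · rw [List.mem_singleton] at h
      rw [h]; exact hc
  have hg : mt(rho Q c hc) = ((vs ++ [c]).map (fun v => reflectionMatrix ⇑Q v)).prod := by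
    rw [List.map_append, List.prod_append, hprod, coe_rho]
    simp
  rw [mem_commutator_iff_of_eq_prod Q h2 _ (vs ++ [c]) hvs' hg]
  have hev : Even (vs ++ [c]).length := by
    rw [List.length_append, hlen, List.length_singleton]
    exact Odd.add_one hodd
  have hpr : ((vs ++ [c]).map (fun v => Q v)).prod = (vs.map (fun v => Q v)).prod * Q c := by
    rw [List.map_append, List.prod_append]
    simp
  rw [hpr]
  exact ⟨fun h => h.2, fun h => ⟨hev, h⟩⟩

end Rho

end Cfsg.Agent.Lib.Helper18.OD
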