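import Mathlib
import Cfsg.Agent.Lib.Helper52.NondegBridge
import Cfsg.Agent.Lib.Helper18.ODGeom
import Cfsg.Agent.Lib.Helper18.ODRho

/-!
Orthogonal decompositions `V = D 0 ⊥ … ⊥ D (t-1)` of a quadratic space into pairwise isometric
summands: the complement of a block, membership in the stabiliser of the decomposition,
Eichler transformations and the isometries `-r_c` of a block, isometries exchanging two blocks
and elements of `Ω` permuting three blocks cyclically.
-/

set_option autoImplicit false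
set_option linter.unusedSectionVars false

namespace Cfsg.Agent.Lib.Helper18.OD

open Module QuadraticMap Cfsg
open Cfsg.Agent.Lib.Helper51 Cfsg.Agent.Lib.Helper52

section Block

variable {ι : Type} [Fintype ι] [DecidableEq ι] {F : Type*} [Field F] [Fintype F]
variable {Q : QuadraticForm F (ι → F)}

local notation "mt(" g ")" => ((g : Matrix.GeneralLinearGroup ι F) : Matrix ι ι F)

/-- An orthogonal decomposition into pairwise isometric summands of dimension `k`. -/
structure ODec (Q : QuadraticForm F (ι → F)) {t : ℕ} (k : ℕ)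
    (D : Fin t → Submodule F (ι → F)) : Prop where
  finrank_eq : ∀ i, finrank F (D i) = k
  orth : ∀ i j, i ≠ j → ∀ x ∈ D i, ∀ y ∈ D j, polar ⇑Q x y = 0
  iSup_eq_top : iSup D = ⊤
  isom : ∀ i j, ∃ e : D i ≃ₗ[F] D j, ∀ w : D i, Q ((e w : D j) : ι → F) = Q (w : ι → F)

/-- The sum of the blocks other than `D i`. -/
def cmp {t : ℕ} (D : Fin t → Submodule F (ι → F)) (i : Fin t) : Submodule F (ι → F) :=
  ⨆ (j : Fin t) (_ : j ≠ i), D j

theorem le_cmp {t : ℕ} (D : Fin t → Submodule F (ι → F)) {i j : Fin t} (hji : j ≠ i) :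
    D j ≤ cmp D i := le_iSup₂_of_le j hji le_rfl

variable {t k : ℕ} {D : Fin t → Submodule F (ι → F)}

theorem ODec.orthPair (hD : ODec Q k D) (i : Fin t) : OrthPair Q (D i) (cmp D i) := by
  refine ⟨?_, ?_⟩
  · intro x hx y hy
    have hle : cmp D i ≤ LinearMap.ker (polarBilin Q x) := by
      apply iSup₂_le
      intro j hj z hz
      rw [LinearMap.mem_ker, polarBilin_apply_apply]
      exact hD.orth i j (Ne.symm hj) x hx z hz
    have := hle hy
    rwa [LinearMap.mem_ker, polarBilin_apply_apply] at this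
  · rw [eq_top_iff, ← hD.iSup_eq_top]
    apply iSup_le
    intro j
    by_cases hj : j = i
    · rw [hj]; exact le_sup_left
    · exact le_sup_of_le_right (le_cmp D hj)

theorem ODec.ne_bot (hD : ODec Q k D) (hk : 1 ≤ k) (i : Fin t) : D i ≠ ⊥ := by
  intro h
  have := hD.finrank_eq i
  rw [h, finrank_bot] at this
  omega

theorem ODec.index_inj (hD : ODec Q k D) (hQ : (polarBilin Q).Nondegenerate) (hk : 1 ≤ k)
    {i j : Fin t} (h : D i = D j) : i = j := by
  by_contra hij
  obtain ⟨x, hx, hx0⟩ := Submodule.exists_mem_ne_zero_of_ne_bot (hD.ne_bot hk i)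
  obtain ⟨y, hy, hne⟩ := (hD.orthPair i).nondeg hQ hx hx0
  apply hne
  exact hD.orth i j hij x hx y (h ▸ hy)

/-- A vector orthogonal to every block is zero. -/
theorem ODec.eq_zero_of_orth (hD : ODec Q k D) (hQ : (polarBilin Q).Nondegenerate)
    {a : ι → F} (h : ∀ l, ∀ n ∈ D l, polar ⇑Q a n = 0) : a = 0 := by
  by_contra hne
  obtain ⟨y, hy⟩ := exists_polar_ne_zero Q hQ a hne
  apply hy
  have hle : iSup D ≤ LinearMap.ker (polarBilin Q a) := by
    apply iSup_le
    intro l z hz
    rw [LinearMap.mem_ker, polarBilin_apply_apply]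
    exact h l z hz
  have hy' : y ∈ iSup D := by rw [hD.iSup_eq_top]; exact Submodule.mem_top
  have := hle hy'
  rwa [LinearMap.mem_ker, polarBilin_apply_apply] at this

/-- A non-zero vector of the complement of `D j` is not orthogonal to some other block. -/
theorem ODec.exists_block_of_cmp (hD : ODec Q k D) (hQ : (polarBilin Q).Nondegenerate)
    {j : Fin t} {a : ι → F} (ha : a ∈ cmp D j) (ha0 : a ≠ 0) :
    ∃ l, l ≠ j ∧ ∃ n ∈ D l, polar ⇑Q a n ≠ 0 := by
  by_contra hcon
  push Not at hcon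
  apply ha0
  apply hD.eq_zero_of_orth hQ
  intro l n hn
  by_cases hl : l = j
  · subst hl
    rw [polar_comm]
    exact (hD.orthPair l).orth n hn a ha
  · exact hcon l hl n hn

/-- An isometry mapping every block into a block stabilises the decomposition. -/
theorem ODec.mem_stab (hD : ODec Q k D) (hQ : (polarBilin Q).Nondegenerate) (hk : 1 ≤ k)
    (g : ↥(isometryGroup F ⇑Q)) (hg : ∀ i, ∃ j, ∀ x ∈ D i, mt(g).mulVec x ∈ D j) :
    (g : Matrix.GeneralLinearGroup ι F) ∈ Cfsg.Geo.decompositionStabilizer D := by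
  choose σ hσ using hg
  have hmap : ∀ i, (D i).map (Matrix.mulVecLin mt(g)) = D (σ i) := by
    intro i
    apply Submodule.eq_of_le_of_finrank_eq
    · rintro _ ⟨x, hx, rfl⟩
      rw [Matrix.mulVecLin_apply]
      exact hσ i x hx
    · rw [finrank_map_isometry Q g (D i), hD.finrank_eq, hD.finrank_eq]
  have hinj : Function.Injective σ := by
    intro i i' h
    apply hD.index_inj hQ hk
    have h1 := hmap i
    rw [h, ← hmap i'] at h1
    exact Submodule.map_injective_of_injective (mulVecLin_injective Q g) h1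
  have hbij : Function.Bijective σ := Finite.injective_iff_bijective.mp hinj
  refine ⟨Equiv.ofBijective σ hbij, fun i => ?_⟩
  rw [Matrix.toLin'_apply', Equiv.ofBijective_apply]
  exact hmap i

theorem exists_of_mem_stab (g : Matrix.GeneralLinearGroup ι F)
    (hg : g ∈ Cfsg.Geo.decompositionStabilizer D) (i : Fin t) :
    ∃ j, ∀ x ∈ D i, (g : Matrix ι ι F).mulVec x ∈ D j := by
  obtain ⟨σ, hσ⟩ := hg
  refine ⟨σ i, fun x hx => ?_⟩
  have : Matrix.toLin' (g : Matrix ι ι F) x ∈ (D i).map (Matrix.toLin' (g : Matrix ι ι F)) :=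
    ⟨x, hx, rfl⟩
  rw [hσ, Matrix.toLin'_apply] at this
  exact this

/-- An isometry mapping a block into a block maps it onto that block. -/
theorem ODec.exists_preimage (hD : ODec Q k D) (g : ↥(isometryGroup F ⇑Q)) {a b : Fin t}
    (hg : ∀ x ∈ D a, mt(g).mulVec x ∈ D b) {y : ι → F} (hy : y ∈ D b) :
    ∃ x ∈ D a, mt(g).mulVec x = y := by
  have hmap : (D a).map (Matrix.mulVecLin mt(g)) = D b := by
    apply Submodule.eq_of_le_of_finrank_eq
    · rintro _ ⟨x, hx, rfl⟩
      rw [Matrix.mulVecLin_apply]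
      exact hg x hx
    · rw [finrank_map_isometry Q g (D a), hD.finrank_eq, hD.finrank_eq]
  rw [← hmap] at hy
  obtain ⟨x, hx, rfl⟩ := hy
  exact ⟨x, hx, by rw [Matrix.mulVecLin_apply]⟩

/-- The Eichler transformations of a block stabilise the decomposition. -/
theorem ODec.eich_mem_stab (hD : ODec Q k D) (hQ : (polarBilin Q).Nondegenerate) (hk : 1 ≤ k)
    {i : Fin t} {u a : ι → F} (hu : u ∈ D i) (ha : a ∈ D i) (hQu : Q u = 0)
    (hua : polar ⇑Q u a = 0) :
    ((eich Q u a hQu hua : ↥(isometryGroup F ⇑Q)) : Matrix.GeneralLinearGroup ι F)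
      ∈ Cfsg.Geo.decompositionStabilizer D := by
  apply hD.mem_stab hQ hk
  intro j
  refine ⟨j, fun x hx => ?_⟩
  rw [coe_eich]
  by_cases hj : j = i
  · subst hj
    exact eichMat_mulVec_mem (D j) hu ha hx
  · rw [eichMat_mulVec_of_orth Q u a x (hD.orth i j (Ne.symm hj) a ha x hx)
      (hD.orth i j (Ne.symm hj) u hu x hx)]
    exact hx

/-- The isometry `-r_c` of a non-singular vector of a block stabilises the decomposition. -/
theorem ODec.rho_mem_stab (hD : ODec Q k D) (hQ : (polarBilin Q).Nondegenerate) (hk : 1 ≤ k)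
    {i : Fin t} {c : ι → F} (hc : c ∈ D i) (hQc : Q c ≠ 0) :
    ((rho Q c hQc : ↥(isometryGroup F ⇑Q)) : Matrix.GeneralLinearGroup ι F)
      ∈ Cfsg.Geo.decompositionStabilizer D := by
  apply hD.mem_stab hQ hk
  intro j
  refine ⟨j, fun x hx => ?_⟩
  rw [rho_mulVec]
  by_cases hj : j = i
  · subst hj
    exact (D j).sub_mem ((D j).smul_mem _ hc) hx
  · rw [hD.orth i j (Ne.symm hj) c hc x hx, mul_zero, zero_smul, zero_sub]
    exact (D j).neg_mem hx

end Block

section Swap

variable {ι : Type} [Fintype ι] [DecidableEq ι] {F : Type*} [Field F] [Fintype F]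
variable {Q : QuadraticForm F (ι → F)}
variable {t k : ℕ} {D : Fin t → Submodule F (ι → F)}

local notation "mt(" g ")" => ((g : Matrix.GeneralLinearGroup ι F) : Matrix ι ι F)

theorem ODec.isCompl (hD : ODec Q k D) (hQ : (polarBilin Q).Nondegenerate) (i : Fin t) :
    IsCompl (D i) (cmp D i) :=
  ⟨disjoint_iff.mpr ((hD.orthPair i).inf_eq_bot hQ), codisjoint_iff.mpr (hD.orthPair i).sup⟩

/-- The linear map exchanging the blocks `D i` and `D j` through an isometry `e`. -/
noncomputable def swapLin (hD : ODec Q k D) (hQ : (polarBilin Q).Nondegenerate) (i j : Fin t)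
    (e : D i ≃ₗ[F] D j) : (ι → F) →ₗ[F] (ι → F) :=
  LinearMap.id - (D i).subtype ∘ₗ (D i).projectionOnto (cmp D i) (hD.isCompl hQ i)
    - (D j).subtype ∘ₗ (D j).projectionOnto (cmp D j) (hD.isCompl hQ j)
    + (D j).subtype ∘ₗ e.toLinearMap ∘ₗ (D i).projectionOnto (cmp D i) (hD.isCompl hQ i)
    + (D i).subtype ∘ₗ e.symm.toLinearMap ∘ₗ (D j).projectionOnto (cmp D j) (hD.isCompl hQ j)

theorem swapLin_apply (hD : ODec Q k D) (hQ : (polarBilin Q).Nondegenerate) (i j : Fin t)
    (e : D i ≃ₗ[F] D j) (x : ι → F) :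
    swapLin hD hQ i j e x = x - ((D i).projectionOnto (cmp D i) (hD.isCompl hQ i) x : ι → F)
      - ((D j).projectionOnto (cmp D j) (hD.isCompl hQ j) x : ι → F)
      + (e ((D i).projectionOnto (cmp D i) (hD.isCompl hQ i) x) : ι → F)
      + (e.symm ((D j).projectionOnto (cmp D j) (hD.isCompl hQ j) x) : ι → F) := rfl

theorem swapLin_left (hD : ODec Q k D) (hQ : (polarBilin Q).Nondegenerate) {i j : Fin t}
    (hij : i ≠ j) (e : D i ≃ₗ[F] D j) {x : ι → F} (hx : x ∈ D i) :
    swapLin hD hQ i j e x = (e ⟨x, hx⟩ : ι → F) := by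
  rw [swapLin_apply, Submodule.projectionOnto_apply_of_mem_left (hD.isCompl hQ i) hx,
    Submodule.projectionOnto_apply_of_mem_right (hD.isCompl hQ j) (le_cmp D hij hx)]
  simp

theorem swapLin_right (hD : ODec Q k D) (hQ : (polarBilin Q).Nondegenerate) {i j : Fin t}
    (hij : i ≠ j) (e : D i ≃ₗ[F] D j) {x : ι → F} (hx : x ∈ D j) :
    swapLin hD hQ i j e x = (e.symm ⟨x, hx⟩ : ι → F) := by
  rw [swapLin_apply, Submodule.projectionOnto_apply_of_mem_left (hD.isCompl hQ j) hx,
    Submodule.projectionOnto_apply_of_mem_right (hD.isCompl hQ i) (le_cmp D (Ne.symm hij) hx)]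
  simp

theorem swapLin_other (hD : ODec Q k D) (hQ : (polarBilin Q).Nondegenerate) {i j l : Fin t}
    (hli : l ≠ i) (hlj : l ≠ j) (e : D i ≃ₗ[F] D j) {x : ι → F} (hx : x ∈ D l) :
    swapLin hD hQ i j e x = x := by
  rw [swapLin_apply, Submodule.projectionOnto_apply_of_mem_right (hD.isCompl hQ i)
      (le_cmp D hli hx),
    Submodule.projectionOnto_apply_of_mem_right (hD.isCompl hQ j) (le_cmp D hlj hx)]
  simp

theorem swapLin_swapLin (hD : ODec Q k D) (hQ : (polarBilin Q).Nondegenerate) {i j : Fin t}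
    (hij : i ≠ j) (e : D i ≃ₗ[F] D j) (x : ι → F) :
    swapLin hD hQ i j e (swapLin hD hQ i j e x) = x := by
  obtain ⟨a, ha⟩ : ∃ a : D i, a = (D i).projectionOnto (cmp D i) (hD.isCompl hQ i) x :=
    ⟨_, rfl⟩
  obtain ⟨b, hb⟩ : ∃ b : D j, b = (D j).projectionOnto (cmp D j) (hD.isCompl hQ j) x :=
    ⟨_, rfl⟩
  have hx : swapLin hD hQ i j e x
      = (x - (a : ι → F) - (b : ι → F)) + (e a : ι → F) + (e.symm b : ι → F) := by
    rw [swapLin_apply, ← ha, ← hb]
  have hri : x - (a : ι → F) - (b : ι → F) ∈ cmp D i := by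
    rw [← Submodule.projectionOnto_apply_eq_zero_iff (hD.isCompl hQ i), map_sub, map_sub,
      Submodule.projectionOnto_apply_left, ← ha,
      Submodule.projectionOnto_apply_of_mem_right (hD.isCompl hQ i)
        (le_cmp D (Ne.symm hij) b.2)]
    simp
  have hrj : x - (a : ι → F) - (b : ι → F) ∈ cmp D j := by
    rw [← Submodule.projectionOnto_apply_eq_zero_iff (hD.isCompl hQ j), map_sub, map_sub,
      Submodule.projectionOnto_apply_left, ← hb,
      Submodule.projectionOnto_apply_of_mem_right (hD.isCompl hQ j) (le_cmp D hij a.2)]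
    simp
  have hr : swapLin hD hQ i j e (x - (a : ι → F) - (b : ι → F))
      = x - (a : ι → F) - (b : ι → F) := by
    rw [swapLin_apply, Submodule.projectionOnto_apply_of_mem_right (hD.isCompl hQ i) hri,
      Submodule.projectionOnto_apply_of_mem_right (hD.isCompl hQ j) hrj]
    simp
  rw [hx, map_add, map_add, hr, swapLin_right hD hQ hij e (e a).2,
    swapLin_left hD hQ hij e (e.symm b).2]
  simp only [Subtype.coe_eta, LinearEquiv.symm_apply_apply, LinearEquiv.apply_symm_apply]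
  abel

theorem Q_add_three (x y z : ι → F) (hxy : polar ⇑Q x y = 0) (hxz : polar ⇑Q x z = 0)
    (hyz : polar ⇑Q y z = 0) : Q (x + y + z) = Q x + Q y + Q z := by
  rw [Q_add', Q_add', polar_add_left, hxy, hxz, hyz]
  ring

theorem Q_swapLin (hD : ODec Q k D) (hQ : (polarBilin Q).Nondegenerate) {i j : Fin t}
    (hij : i ≠ j) (e : D i ≃ₗ[F] D j)
    (he : ∀ w : D i, Q ((e w : D j) : ι → F) = Q (w : ι → F)) (x : ι → F) :
    Q (swapLin hD hQ i j e x) = Q x := by
  obtain ⟨a, ha⟩ : ∃ a : D i, a = (D i).projectionOnto (cmp D i) (hD.isCompl hQ i) x :=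
    ⟨_, rfl⟩
  obtain ⟨b, hb⟩ : ∃ b : D j, b = (D j).projectionOnto (cmp D j) (hD.isCompl hQ j) x :=
    ⟨_, rfl⟩
  have hx : swapLin hD hQ i j e x
      = (x - (a : ι → F) - (b : ι → F)) + (e a : ι → F) + (e.symm b : ι → F) := by
    rw [swapLin_apply, ← ha, ← hb]
  have hri : x - (a : ι → F) - (b : ι → F) ∈ cmp D i := by
    rw [← Submodule.projectionOnto_apply_eq_zero_iff (hD.isCompl hQ i), map_sub, map_sub,
      Submodule.projectionOnto_apply_left, ← ha,
      Submodule.projectionOnto_apply_of_mem_right (hD.isCompl hQ i)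
        (le_cmp D (Ne.symm hij) b.2)]
    simp
  have hrj : x - (a : ι → F) - (b : ι → F) ∈ cmp D j := by
    rw [← Submodule.projectionOnto_apply_eq_zero_iff (hD.isCompl hQ j), map_sub, map_sub,
      Submodule.projectionOnto_apply_left, ← hb,
      Submodule.projectionOnto_apply_of_mem_right (hD.isCompl hQ j) (le_cmp D hij a.2)]
    simp
  have hoi : ∀ y ∈ D i, polar ⇑Q (x - (a : ι → F) - (b : ι → F)) y = 0 := by
    intro y hy
    rw [polar_comm]
    exact (hD.orthPair i).orth y hy _ hri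
  have hoj : ∀ y ∈ D j, polar ⇑Q (x - (a : ι → F) - (b : ι → F)) y = 0 := by
    intro y hy
    rw [polar_comm]
    exact (hD.orthPair j).orth y hy _ hrj
  have hx' : x = (x - (a : ι → F) - (b : ι → F)) + (a : ι → F) + (b : ι → F) := by abel
  have h1 : Q x = Q (x - (a : ι → F) - (b : ι → F)) + Q (a : ι → F) + Q (b : ι → F) := by
    conv_lhs => rw [hx']
    exact Q_add_three _ _ _ (hoi a a.2) (hoj b b.2) (hD.orth i j hij a a.2 b b.2)
  have h2 : Q (swapLin hD hQ i j e x)
      = Q (x - (a : ι → F) - (b : ι → F)) + Q ((e a : D j) : ι → F)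
        + Q ((e.symm b : D i) : ι → F) := by
    rw [hx]
    exact Q_add_three _ _ _ (hoj _ (e a).2) (hoi _ (e.symm b).2)
      (by rw [polar_comm]; exact hD.orth i j hij _ (e.symm b).2 _ (e a).2)
  have h3 : Q ((e.symm b : D i) : ι → F) = Q (b : ι → F) := by
    rw [← he (e.symm b), LinearEquiv.apply_symm_apply]
  rw [h2, h1, he a, h3]

/-- The isometry exchanging the blocks `D i` and `D j`. -/
noncomputable def swapIso (hD : ODec Q k D) (hQ : (polarBilin Q).Nondegenerate) {i j : Fin t}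
    (hij : i ≠ j) : ↥(isometryGroup F ⇑Q) :=
  ⟨⟨LinearMap.toMatrix' (swapLin hD hQ i j (Classical.choose (hD.isom i j))),
      LinearMap.toMatrix' (swapLin hD hQ i j (Classical.choose (hD.isom i j))),
      by
        rw [← LinearMap.toMatrix'_comp, ← LinearMap.toMatrix'_id]
        congr 1
        exact LinearMap.ext (fun x => swapLin_swapLin hD hQ hij _ x),
      by
        rw [← LinearMap.toMatrix'_comp, ← LinearMap.toMatrix'_id]
        congr 1
        exact LinearMap.ext (fun x => swapLin_swapLin hD hQ hij _ x)⟩,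
    (mem_isometryGroup_iff Q _).mpr (fun x => by
      show Q ((LinearMap.toMatrix' (swapLin hD hQ i j (Classical.choose (hD.isom i j)))).mulVec x)
        = Q x
      rw [LinearMap.toMatrix'_mulVec]
      exact Q_swapLin hD hQ hij _ (Classical.choose_spec (hD.isom i j)) x)⟩

theorem swapIso_mulVec (hD : ODec Q k D) (hQ : (polarBilin Q).Nondegenerate) {i j : Fin t}
    (hij : i ≠ j) (x : ι → F) :
    mt(swapIso hD hQ hij).mulVec x
      = swapLin hD hQ i j (Classical.choose (hD.isom i j)) x := by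
  show (LinearMap.toMatrix' (swapLin hD hQ i j (Classical.choose (hD.isom i j)))).mulVec x = _
  rw [LinearMap.toMatrix'_mulVec]

theorem swapIso_maps (hD : ODec Q k D) (hQ : (polarBilin Q).Nondegenerate) {i j : Fin t}
    (hij : i ≠ j) (l : Fin t) {x : ι → F} (hx : x ∈ D l) :
    mt(swapIso hD hQ hij).mulVec x ∈ D (Equiv.swap i j l) := by
  rw [swapIso_mulVec]
  by_cases hli : l = i
  · subst hli
    rw [Equiv.swap_apply_left, swapLin_left hD hQ hij _ hx]
    exact Subtype.mem _
  by_cases hlj : l = j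
  · subst hlj
    rw [Equiv.swap_apply_right, swapLin_right hD hQ hij _ hx]
    exact Subtype.mem _
  rw [Equiv.swap_apply_of_ne_of_ne hli hlj, swapLin_other hD hQ hli hlj _ hx]
  exact hx

theorem swapIso_mul_self (hD : ODec Q k D) (hQ : (polarBilin Q).Nondegenerate) {i j : Fin t}
    (hij : i ≠ j) : swapIso hD hQ hij * swapIso hD hQ hij = 1 := by
  apply isometry_ext
  apply matrix_ext_mulVec
  intro x
  rw [coe_mul', ← Matrix.mulVec_mulVec, swapIso_mulVec, swapIso_mulVec, swapLin_swapLin hD hQ hij]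
  show x = (1 : Matrix ι ι F).mulVec x
  rw [Matrix.one_mulVec]

theorem swapIso_inv (hD : ODec Q k D) (hQ : (polarBilin Q).Nondegenerate) {i j : Fin t}
    (hij : i ≠ j) : (swapIso hD hQ hij)⁻¹ = swapIso hD hQ hij :=
  inv_eq_of_mul_eq_one_left (swapIso_mul_self hD hQ hij)

theorem swapIso_mem_stab (hD : ODec Q k D) (hQ : (polarBilin Q).Nondegenerate) (hk : 1 ≤ k)
    {i j : Fin t} (hij : i ≠ j) :
    ((swapIso hD hQ hij : ↥(isometryGroup F ⇑Q)) : Matrix.GeneralLinearGroup ι F)
      ∈ Cfsg.Geo.decompositionStabilizer D := by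
  apply hD.mem_stab hQ hk
  intro l
  exact ⟨Equiv.swap i j l, fun x hx => swapIso_maps hD hQ hij l hx⟩

/-- An element of `Ω` stabilising the decomposition and permuting three given blocks
cyclically. -/
theorem ODec.exists_three_cycle (hD : ODec Q k D) (hQ : (polarBilin Q).Nondegenerate)
    (hk : 1 ≤ k) {a b c : Fin t} (hab : a ≠ b) (hac : a ≠ c) (hbc : b ≠ c) :
    ∃ h : ↥(isometryGroup F ⇑Q), h ∈ commutator ↥(isometryGroup F ⇑Q) ∧
      (h : Matrix.GeneralLinearGroup ι F) ∈ Cfsg.Geo.decompositionStabilizer D ∧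
      (∀ x ∈ D a, mt(h).mulVec x ∈ D b) ∧ (∀ x ∈ D b, mt(h).mulVec x ∈ D c) := by
  obtain ⟨s₁, hs₁⟩ : ∃ s₁, s₁ = swapIso hD hQ hac := ⟨_, rfl⟩
  obtain ⟨s₂, hs₂⟩ : ∃ s₂, s₂ = swapIso hD hQ (Ne.symm hbc) := ⟨_, rfl⟩
  have hm₁ : ∀ l, ∀ x ∈ D l, mt(s₁).mulVec x ∈ D (Equiv.swap a c l) := by
    intro l x hx
    rw [hs₁]
    exact swapIso_maps hD hQ hac l hx
  have hm₂ : ∀ l, ∀ x ∈ D l, mt(s₂).mulVec x ∈ D (Equiv.swap c b l) := by
    intro l x hx
    rw [hs₂]
    exact swapIso_maps hD hQ (Ne.symm hbc) l hx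
  have hi₁ : s₁⁻¹ = s₁ := by rw [hs₁]; exact swapIso_inv hD hQ hac
  have hi₂ : s₂⁻¹ = s₂ := by rw [hs₂]; exact swapIso_inv hD hQ (Ne.symm hbc)
  have hst₁ : (s₁ : Matrix.GeneralLinearGroup ι F) ∈ Cfsg.Geo.decompositionStabilizer D := by
    rw [hs₁]; exact swapIso_mem_stab hD hQ hk hac
  have hst₂ : (s₂ : Matrix.GeneralLinearGroup ι F) ∈ Cfsg.Geo.decompositionStabilizer D := by
    rw [hs₂]; exact swapIso_mem_stab hD hQ hk (Ne.symm hbc)
  have hmul : ∀ x, mt((s₁ * s₂ * s₁ * s₂ : ↥(isometryGroup F ⇑Q))).mulVec x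
      = mt(s₁).mulVec (mt(s₂).mulVec (mt(s₁).mulVec (mt(s₂).mulVec x))) := by
    intro x
    rw [coe_mul', coe_mul', coe_mul', ← Matrix.mulVec_mulVec, ← Matrix.mulVec_mulVec,
      ← Matrix.mulVec_mulVec]
  refine ⟨s₁ * s₂ * s₁ * s₂, ?_, ?_, ?_, ?_⟩
  · have h1 := Subgroup.commutator_mem_commutator (Subgroup.mem_top s₁) (Subgroup.mem_top s₂)
    rw [commutatorElement_def, hi₁, hi₂] at h1
    exact h1
  · exact mul_mem (mul_mem (mul_mem hst₁ hst₂) hst₁) hst₂
  · intro x hx
    rw [hmul]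
    have h1 := hm₂ a x hx
    rw [Equiv.swap_apply_of_ne_of_ne hac hab] at h1
    have h2 := hm₁ a _ h1
    rw [Equiv.swap_apply_left] at h2
    have h3 := hm₂ c _ h2
    rw [Equiv.swap_apply_left] at h3
    have h4 := hm₁ b _ h3
    rw [Equiv.swap_apply_of_ne_of_ne (Ne.symm hab) hbc] at h4
    exact h4
  · intro x hx
    rw [hmul]
    have h1 := hm₂ b x hx
    rw [Equiv.swap_apply_right] at h1
    have h2 := hm₁ c _ h1
    rw [Equiv.swap_apply_right] at h2
    have h3 := hm₂ a _ h2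
    rw [Equiv.swap_apply_of_ne_of_ne hac hab] at h3
    have h4 := hm₁ a _ h3
    rw [Equiv.swap_apply_left] at h4
    exact h4

end Swap

end Cfsg.Agent.Lib.Helper18.OD
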