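import Mathlib
import Cfsg.Agent.Lib.Helper18.ODBlock

/-!
Overgroups `M` of the stabiliser in `Ω` of an orthogonal decomposition into isometric blocks
of dimension at least 3. The relation `Rel i j` says that all Eichler transformations
`ρ_{x,b}` with `x` a singular vector of `D i` and `b ∈ D j` lie in `M`. It is symmetric,
transitive and invariant under the elements of `M` permuting the blocks; one instance of it
makes every singular vector of every block a full point of `M`, hence `Ω ≤ M`. A single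
"mixed" Eichler transformation in `M` gives an instance.
-/

set_option autoImplicit false
set_option linter.unusedSectionVars false

namespace Cfsg.Agent.Lib.Helper18.OD

open Module QuadraticMap Cfsg
open Cfsg.Agent.Lib.Helper51 Cfsg.Agent.Lib.Helper52

section Rel

variable {ι : Type} [Fintype ι] [DecidableEq ι] {F : Type*} [Field F] [Fintype F]
variable {Q : QuadraticForm F (ι → F)}
variable {t k : ℕ} {D : Fin t → Submodule F (ι → F)}

local notation "mt(" g ")" => ((g : Matrix.GeneralLinearGroup ι F) : Matrix ι ι F)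

/-- `M` contains the stabiliser of the decomposition `D` in `Ω`. -/
def ContainsOD (Q : QuadraticForm F (ι → F)) (M : Subgroup ↥(isometryGroup F ⇑Q))
    (D : Fin t → Submodule F (ι → F)) : Prop :=
  ∀ g ∈ commutator ↥(isometryGroup F ⇑Q),
    (g : Matrix.GeneralLinearGroup ι F) ∈ Cfsg.Geo.decompositionStabilizer D → g ∈ M

theorem mixedIn_neg {M : Subgroup ↥(isometryGroup F ⇑Q)} {u a : ι → F}
    (h : MixedIn Q M u a) : MixedIn Q M u (-a) := by
  obtain ⟨hu, hua, hmem⟩ := h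
  refine ⟨hu, by rw [polar_neg_right, hua, neg_zero], ?_⟩
  have := M.inv_mem hmem
  rwa [eich_inv] at this

theorem mixedIn_sub {M : Subgroup ↥(isometryGroup F ⇑Q)} {u a a' : ι → F}
    (h : MixedIn Q M u a) (h' : MixedIn Q M u a') : MixedIn Q M u (a - a') := by
  rw [sub_eq_add_neg]
  exact mixedIn_add h (mixedIn_neg h')

/-- The Eichler transformations of a block lie in `M`. -/
theorem ODec.mixedIn_block (hD : ODec Q k D) (hQ : (polarBilin Q).Nondegenerate)
    (hn : 5 ≤ Fintype.card ι) (hk : 1 ≤ k) {M : Subgroup ↥(isometryGroup F ⇑Q)}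
    (hM : ContainsOD Q M D) {i : Fin t} {u a : ι → F} (hu : u ∈ D i) (ha : a ∈ D i)
    (hQu : Q u = 0) (hua : polar ⇑Q u a = 0) : MixedIn Q M u a :=
  ⟨hQu, hua, hM _ (eich_mem_commutator Q hQ hn u a hQu hua)
    (hD.eich_mem_stab hQ hk hu ha hQu hua)⟩

/-- The additive group of the `a` with `ρ_{u,a} ∈ M`. -/
def mixedSub (Q : QuadraticForm F (ι → F)) (M : Subgroup ↥(isometryGroup F ⇑Q)) (u : ι → F)
    (hu : Q u = 0) : AddSubgroup (ι → F) where
  carrier := {a | MixedIn Q M u a}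
  add_mem' := fun h h' => mixedIn_add h h'
  zero_mem' := mixedIn_zero M hu
  neg_mem' := fun h => mixedIn_neg h

theorem mem_mixedSub {M : Subgroup ↥(isometryGroup F ⇑Q)} {u a : ι → F} (hu : Q u = 0) :
    a ∈ mixedSub Q M u hu ↔ MixedIn Q M u a := Iff.rfl

/-- `Rel i j`: the Eichler transformations `ρ_{x,b}`, `x ∈ D i` singular, `b ∈ D j`, lie in
`M`. -/
def Rel (Q : QuadraticForm F (ι → F)) (M : Subgroup ↥(isometryGroup F ⇑Q))
    (D : Fin t → Submodule F (ι → F)) (i j : Fin t) : Prop :=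
  ∀ x ∈ D i, x ≠ 0 → Q x = 0 → ∀ b ∈ D j, MixedIn Q M x b

/-- A mixed Eichler transformation `ρ_{u,a}` with `a` not orthogonal to the block `D l` gives
all `ρ_{u,b}`, `b ∈ D l`. -/
theorem ODec.block_of_mixed (hD : ODec Q k D) (hQ : (polarBilin Q).Nondegenerate)
    (h2 : (2 : F) ≠ 0) (hn : 5 ≤ Fintype.card ι) (hk : 3 ≤ k)
    {M : Subgroup ↥(isometryGroup F ⇑Q)} (hM : ContainsOD Q M D) {j l : Fin t} (hlj : l ≠ j)
    {u : ι → F} (hu : u ∈ D j) {a : ι → F} (hm : MixedIn Q M u a) {n : ι → F} (hnl : n ∈ D l)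
    (han : polar ⇑Q a n ≠ 0) : ∀ b ∈ D l, MixedIn Q M u b := by
  have hQu := hm.1
  intro b hb
  have key := le_of_eich_inv (hD.orthPair l) hQ h2 (by rw [hD.finrank_eq]; exact hk)
    (mixedSub Q M u hQu) ?_ (a := a) hm hnl han b hb
  · exact key
  · intro z hz w hw hQz hzw x hx
    obtain ⟨_, _, hk'⟩ := hD.mixedIn_block hQ hn (by omega) hM hz hw hQz hzw
    have hfix : mt(eich Q z w hQz hzw).mulVec u = (1 : F) • u := by
      rw [coe_eich, one_smul]
      exact eichMat_mulVec_of_orth Q z w u (hD.orth l j hlj w hw u hu)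
        (hD.orth l j hlj z hz u hu)
    have h3 := mixedIn_conj (Q := Q) hx _ hk' 1 hfix
    rw [one_smul, coe_eich] at h3
    exact h3

theorem eichMat_swap (u x : ι → F) (hu : Q u = 0) (hx : Q x = 0) :
    eichMat Q u x = eichMat Q x (-u) := by
  apply matrix_ext_mulVec
  intro v
  have hQn : Q (-u) = 0 := by rw [QuadraticMap.map_neg, hu]
  rw [eichMat_mulVec, eichMat_mulVec, hx, hQn, polar_neg_left]
  module

theorem ODec.rel_of_exists (hD : ODec Q k D) (hQ : (polarBilin Q).Nondegenerate)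
    (h2 : (2 : F) ≠ 0) (hn : 5 ≤ Fintype.card ι) (hk : 3 ≤ k)
    {M : Subgroup ↥(isometryGroup F ⇑Q)} (hM : ContainsOD Q M D) {j l : Fin t} (hlj : l ≠ j)
    {u : ι → F} (hu : u ∈ D j) (hu0 : u ≠ 0) (hall : ∀ b ∈ D l, MixedIn Q M u b) :
    Rel Q M D l j := by
  intro x hx hx0 hQx b hb
  obtain ⟨hQu, hux, hmem⟩ := hall x hx
  have hxu : polar ⇑Q x (-u) = 0 := by rw [polar_neg_right, polar_comm, hux, neg_zero]
  have e : eich Q u x hQu hux = eich Q x (-u) hQx hxu :=
    eich_congr Q hQu hux hQx hxu (eichMat_swap u x hQu hQx)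
  rw [e] at hmem
  have hm1 : MixedIn Q M x u := by
    have := mixedIn_neg (Q := Q) (M := M) ⟨hQx, hxu, hmem⟩
    rwa [neg_neg] at this
  obtain ⟨n, hnj, hne⟩ := (hD.orthPair j).nondeg hQ hu hu0
  exact hD.block_of_mixed hQ h2 hn hk hM (Ne.symm hlj) hx hm1 hnj hne b hb

theorem ODec.rel_symm (hD : ODec Q k D) (hQ : (polarBilin Q).Nondegenerate)
    (h2 : (2 : F) ≠ 0) (hn : 5 ≤ Fintype.card ι) (hk : 3 ≤ k)
    {M : Subgroup ↥(isometryGroup F ⇑Q)} (hM : ContainsOD Q M D) {j l : Fin t} (hjl : j ≠ l)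
    (hR : Rel Q M D j l) : Rel Q M D l j := by
  obtain ⟨u, hu, hu0, hQu⟩ := exists_singular_of_finrank Q (D j)
    (by rw [hD.finrank_eq]; exact hk)
  exact hD.rel_of_exists hQ h2 hn hk hM (Ne.symm hjl) hu hu0 (fun b hb => hR u hu hu0 hQu b hb)

theorem ODec.rel_trans (hD : ODec Q k D) (hQ : (polarBilin Q).Nondegenerate)
    (hk : 3 ≤ k) {M : Subgroup ↥(isometryGroup F ⇑Q)} {j l c : Fin t} (hjl : j ≠ l)
    (hlc : l ≠ c) (hjc : j ≠ c) (h1 : Rel Q M D j l) (h3 : Rel Q M D l c) :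
    Rel Q M D j c := by
  intro u hu hu0 hQu y hy
  obtain ⟨x, hx, hx0, hQx⟩ := exists_singular_of_finrank Q (D l)
    (by rw [hD.finrank_eq]; exact hk)
  obtain ⟨x', hx', hQx', hxx'⟩ := (hD.orthPair l).exists_partner hQ hx hx0 hQx
  have hx'0 : x' ≠ 0 := by
    rintro rfl
    rw [polar_zero_right] at hxx'
    exact zero_ne_one hxx'
  have hm1 : MixedIn Q M u x := h1 u hu hu0 hQu x hx
  obtain ⟨_, hx'y, hmem⟩ := h3 x' hx' hx'0 hQx' y hy
  have hfix : mt(eich Q x' y hQx' hx'y).mulVec u = (1 : F) • u := by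
    rw [coe_eich, one_smul]
    exact eichMat_mulVec_of_orth Q x' y u (hD.orth c j (Ne.symm hjc) y hy u hu)
      (hD.orth l j (Ne.symm hjl) x' hx' u hu)
  have h4 := mixedIn_conj (Q := Q) hm1 _ hmem 1 hfix
  rw [one_smul, coe_eich, eichMat_mulVec, hD.orth c l (Ne.symm hlc) y hy x hx,
    polar_comm ⇑Q x' x, hxx'] at h4
  have hm5 : MixedIn Q M u (Q y • x') := h1 u hu hu0 hQu _ ((D l).smul_mem _ hx')
  have h6 := mixedIn_sub (mixedIn_sub hm1 h4) hm5
  have e : x - (x + (0 : F) • x' - (1 : F) • y - (Q y * 1) • x') - Q y • x' = y := by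
    module
  rwa [e] at h6

theorem ODec.rel_map (hD : ODec Q k D) {M : Subgroup ↥(isometryGroup F ⇑Q)}
    {a b a' b' : Fin t} (h : ↥(isometryGroup F ⇑Q)) (hh : h ∈ M)
    (ha : ∀ x ∈ D a, mt(h).mulVec x ∈ D a') (hb : ∀ x ∈ D b, mt(h).mulVec x ∈ D b')
    (hR : Rel Q M D a b) : Rel Q M D a' b' := by
  intro x' hx' hx'0 hQx' y' hy'
  obtain ⟨x, hx, rfl⟩ := hD.exists_preimage h ha hx'
  obtain ⟨y, hy, rfl⟩ := hD.exists_preimage h hb hy'
  have hx0 : x ≠ 0 := by
    rintro rfl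
    apply hx'0
    rw [Matrix.mulVec_zero]
  have hQx : Q x = 0 := by rw [← isometry_apply Q h x]; exact hQx'
  obtain ⟨_, hxy, hmem⟩ := hR x hx hx0 hQx y hy
  have h3 : h * eich Q x y hQx hxy * h⁻¹ ∈ M := M.mul_mem (M.mul_mem hh hmem) (M.inv_mem hh)
  rw [conj_eich] at h3
  exact ⟨_, _, h3⟩

/-- One instance of the relation gives all of them. -/
theorem ODec.rel_total (hD : ODec Q k D) (hQ : (polarBilin Q).Nondegenerate)
    (h2 : (2 : F) ≠ 0) (hn : 5 ≤ Fintype.card ι) (hk : 3 ≤ k)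
    {M : Subgroup ↥(isometryGroup F ⇑Q)} (hM : ContainsOD Q M D) {j l : Fin t} (hjl : j ≠ l)
    (hR : Rel Q M D j l) : ∀ a b : Fin t, a ≠ b → Rel Q M D a b := by
  have h1 : ∀ c, c ≠ j → Rel Q M D j c := by
    intro c hc
    by_cases hcl : c = l
    · rw [hcl]; exact hR
    obtain ⟨h, hcomm, hstab, hmj, hml⟩ := hD.exists_three_cycle hQ (by omega) hjl
      (Ne.symm hc) (Ne.symm hcl)
    have hlc : Rel Q M D l c := hD.rel_map h (hM h hcomm hstab) hmj hml hR
    exact hD.rel_trans hQ hk hjl (Ne.symm hcl) (Ne.symm hc) hR hlc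
  have h3 : ∀ c, c ≠ j → Rel Q M D c j := fun c hc =>
    hD.rel_symm hQ h2 hn hk hM (Ne.symm hc) (h1 c hc)
  intro a b hab
  by_cases haj : a = j
  · rw [haj]
    exact h1 b (by rw [← haj]; exact Ne.symm hab)
  by_cases hbj : b = j
  · rw [hbj]
    exact h3 a haj
  exact hD.rel_trans hQ hk haj (Ne.symm hbj) hab (h3 a haj) (h1 b hbj)

/-- One instance of the relation forces `Ω ≤ M`. -/
theorem ODec.le_of_rel (hD : ODec Q k D) (hQ : (polarBilin Q).Nondegenerate)
    (h2 : (2 : F) ≠ 0) (hn : 5 ≤ Fintype.card ι) (hk : 3 ≤ k)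
    {M : Subgroup ↥(isometryGroup F ⇑Q)} (hM : ContainsOD Q M D) {j l : Fin t} (hjl : j ≠ l)
    (hR : Rel Q M D j l) : commutator ↥(isometryGroup F ⇑Q) ≤ M := by
  have hall := hD.rel_total hQ h2 hn hk hM hjl hR
  have hfull : ∀ u ∈ D j, u ≠ 0 → Q u = 0 → IsFullPt Q M u := by
    intro u hu hu0 hQu
    refine ⟨hQu, ?_⟩
    intro w huw
    obtain ⟨b, hb, a', ha', hba⟩ := (hD.orthPair j).exists_decomp w
    have hua' : polar ⇑Q u a' = 0 := (hD.orthPair j).orth u hu a' ha'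
    have hub : polar ⇑Q u b = 0 := by
      have := huw
      rw [← hba, polar_add_right, hua', add_zero] at this
      exact this
    have e : eich Q u w hQu huw = eich Q u b hQu hub * eich Q u a' hQu hua' := by
      rw [eich_mul]
      apply eich_congr
      rw [hba]
    rw [e]
    obtain ⟨_, _, hm1⟩ := hD.mixedIn_block hQ hn (by omega) hM hu hb hQu hub
    have hm2 : MixedIn Q M u a' := by
      refine Submodule.iSup_induction (fun i => ⨆ (_ : i ≠ j), D i)
        (motive := fun a => MixedIn Q M u a) ha' ?_ (mixedIn_zero M hQu)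
        (fun x y hx hy => mixedIn_add hx hy)
      intro i x hx
      by_cases hi : i ≠ j
      · rw [iSup_pos hi] at hx
        exact hall j i (Ne.symm hi) u hu hu0 hQu x hx
      · rw [iSup_neg hi, Submodule.mem_bot] at hx
        rw [hx]
        exact mixedIn_zero M hQu
    obtain ⟨_, _, hm2'⟩ := hm2
    exact M.mul_mem hm1 hm2'
  obtain ⟨u, hu, hu0, hQu⟩ := exists_singular_of_finrank Q (D j)
    (by rw [hD.finrank_eq]; exact hk)
  obtain ⟨v, hv, hQv, huv⟩ := (hD.orthPair j).exists_partner hQ hu hu0 hQu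
  have hv0 : v ≠ 0 := by
    rintro rfl
    rw [polar_zero_right] at huv
    exact zero_ne_one huv
  apply commutator_le_of_fullPair Q hQ hn (hfull u hu hu0 hQu) (hfull v hv hv0 hQv)
  rw [huv]
  exact one_ne_zero

/-- A mixed Eichler transformation in `M` forces `Ω ≤ M`. -/
theorem ODec.le_of_mixed (hD : ODec Q k D) (hQ : (polarBilin Q).Nondegenerate)
    (h2 : (2 : F) ≠ 0) (hn : 5 ≤ Fintype.card ι) (hk : 3 ≤ k)
    {M : Subgroup ↥(isometryGroup F ⇑Q)} (hM : ContainsOD Q M D) {j : Fin t} {u a : ι → F}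
    (hu : u ∈ D j) (hu0 : u ≠ 0) (ha : a ∈ cmp D j) (ha0 : a ≠ 0) (hm : MixedIn Q M u a) :
    commutator ↥(isometryGroup F ⇑Q) ≤ M := by
  obtain ⟨l, hlj, n, hnl, hne⟩ := hD.exists_block_of_cmp hQ ha ha0
  have hall := hD.block_of_mixed hQ h2 hn hk hM hlj hu hm hnl hne
  exact hD.le_of_rel hQ h2 hn hk hM hlj (hD.rel_of_exists hQ h2 hn hk hM hlj hu hu0 hall)

end Rel

end Cfsg.Agent.Lib.Helper18.OD
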