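import Mathlib
import Cfsg.Agent.Lib.Helper18.ODRel

/-!
Overgroups `M ≤ Ω` of the stabiliser of an orthogonal decomposition into isometric blocks:
the involutions `-r_c` in `M`. The vectors `c` of a block with `-r_c ∈ Ω` ("good" vectors)
generate the block additively, any two of them are joined by a chain of pairwise
non-orthogonal good vectors, and so an element of `M` outside the stabiliser produces a
vector `d` lying in no block with `-r_d ∈ M`.
-/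

set_option autoImplicit false
set_option linter.unusedSectionVars false

namespace Cfsg.Agent.Lib.Helper18.OD

open Module QuadraticMap Cfsg
open Cfsg.Agent.Lib.Helper51 Cfsg.Agent.Lib.Helper52

section Nice

variable {ι : Type} [Fintype ι] [DecidableEq ι] {F : Type*} [Field F] [Fintype F]
variable {Q : QuadraticForm F (ι → F)}
variable {t k : ℕ} {D : Fin t → Submodule F (ι → F)}

local notation "mt(" g ")" => ((g : Matrix.GeneralLinearGroup ι F) : Matrix ι ι F)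

/-- `-r_d ∈ M`. -/
def InvC (Q : QuadraticForm F (ι → F)) (M : Subgroup ↥(isometryGroup F ⇑Q)) (d : ι → F) :
    Prop :=
  ∃ hd : Q d ≠ 0, rho Q d hd ∈ M

theorem invC_map {M : Subgroup ↥(isometryGroup F ⇑Q)} {d : ι → F} (h : InvC Q M d)
    (g : ↥(isometryGroup F ⇑Q)) (hg : g ∈ M) : InvC Q M (mt(g).mulVec d) := by
  obtain ⟨hd, hmem⟩ := h
  have h3 : g * rho Q d hd * g⁻¹ ∈ M := M.mul_mem (M.mul_mem hg hmem) (M.inv_mem hg)
  rw [conj_rho] at h3
  exact ⟨_, h3⟩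

theorem invC_smul {M : Subgroup ↥(isometryGroup F ⇑Q)} {d : ι → F} (h : InvC Q M d)
    (a : F) (ha : a ≠ 0) : InvC Q M (a • d) := by
  obtain ⟨hd, hmem⟩ := h
  have hd' : Q (a • d) ≠ 0 := by
    rw [QuadraticMap.map_smul]
    exact mul_ne_zero (mul_ne_zero ha ha) hd
  refine ⟨hd', ?_⟩
  rw [rho_smul Q d hd a ha hd']
  exact hmem

/-- Reflecting `c` in `d`. -/
theorem invC_refl {M : Subgroup ↥(isometryGroup F ⇑Q)} {c d : ι → F} (hd : InvC Q M d)
    (hc : InvC Q M c) : InvC Q M (c - ((Q d)⁻¹ * polar ⇑Q d c) • d) := by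
  obtain ⟨hd0, hmem⟩ := hd
  have h1 := invC_map hc _ hmem
  rw [rho_mulVec] at h1
  have h3 := invC_smul h1 (-1) (by simp)
  have e : (-1 : F) • (((Q d)⁻¹ * polar ⇑Q d c) • d - c) = c - ((Q d)⁻¹ * polar ⇑Q d c) • d := by
    module
  rwa [e] at h3

theorem isSquare_of_invC {M : Subgroup ↥(isometryGroup F ⇑Q)}
    (hMle : M ≤ commutator ↥(isometryGroup F ⇑Q)) {Δ : F}
    (hΔ : ∀ (c : ι → F) (hc : Q c ≠ 0),
      (rho Q c hc ∈ commutator ↥(isometryGroup F ⇑Q) ↔ IsSquare (Δ * Q c)))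
    {d : ι → F} (h : InvC Q M d) : IsSquare (Δ * Q d) := by
  obtain ⟨hd, hmem⟩ := h
  exact (hΔ d hd).mp (hMle hmem)

/-- The good vectors of a block give involutions of `M`. -/
theorem ODec.invC_block (hD : ODec Q k D) (hQ : (polarBilin Q).Nondegenerate) (hk : 1 ≤ k)
    {M : Subgroup ↥(isometryGroup F ⇑Q)} (hM : ContainsOD Q M D) {Δ : F}
    (hΔ : ∀ (c : ι → F) (hc : Q c ≠ 0),
      (rho Q c hc ∈ commutator ↥(isometryGroup F ⇑Q) ↔ IsSquare (Δ * Q c)))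
    {i : Fin t} {c : ι → F} (hc : c ∈ D i) (hQc : Q c ≠ 0) (hsq : IsSquare (Δ * Q c)) :
    InvC Q M c :=
  ⟨hQc, hM _ ((hΔ c hQc).mpr hsq) (hD.rho_mem_stab hQ hk hc hQc)⟩

/-- A summand of dimension at least 3 contains vectors of every norm. -/
theorem exists_norm {N U : Submodule F (ι → F)} (h : OrthPair Q N U)
    (hQ : (polarBilin Q).Nondegenerate) (hdim : 3 ≤ finrank F N) (c0 : F) :
    ∃ c ∈ N, Q c = c0 := by
  obtain ⟨u, hu, hu0, hQu⟩ := exists_singular_of_finrank Q N hdim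
  obtain ⟨v, hv, hQv, huv⟩ := h.exists_partner hQ hu hu0 hQu
  refine ⟨u + c0 • v, N.add_mem hu (N.smul_mem _ hv), ?_⟩
  rw [Q_add_smul, hQu, hQv, huv]
  ring

/-- The set of good vectors of the block `D i`. -/
def goodSet (Q : QuadraticForm F (ι → F)) (D : Fin t → Submodule F (ι → F)) (Δ : F)
    (i : Fin t) : Set (ι → F) :=
  {c | c ∈ D i ∧ Q c ≠ 0 ∧ IsSquare (Δ * Q c)}

/-- The good vectors of a block generate it additively. -/
theorem ODec.good_span (hD : ODec Q k D) (hQ : (polarBilin Q).Nondegenerate)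
    (h2 : (2 : F) ≠ 0) (hk : 3 ≤ k) {Δ : F} (hΔ0 : Δ ≠ 0) (i : Fin t) :
    ∀ x ∈ D i, x ∈ AddSubgroup.closure (goodSet Q D Δ i) := by
  have hdim : 3 ≤ finrank F (D i) := by rw [hD.finrank_eq]; exact hk
  obtain ⟨c, hc, hQc⟩ := exists_norm (hD.orthPair i) hQ hdim Δ⁻¹
  have hQc0 : Q c ≠ 0 := by rw [hQc]; exact inv_ne_zero hΔ0
  have hgood : c ∈ goodSet Q D Δ i :=
    ⟨hc, hQc0, by rw [hQc, mul_inv_cancel₀ hΔ0]; exact ⟨1, by simp⟩⟩
  apply le_of_eich_inv (hD.orthPair i) hQ h2 hdim (AddSubgroup.closure (goodSet Q D Δ i)) ?_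
    (AddSubgroup.subset_closure hgood) hc
  · rw [Cfsg.Agent.Lib.Helper51.polar_self]
    exact mul_ne_zero h2 hQc0
  · intro z hz w hw hQz hzw x hx
    refine AddSubgroup.closure_induction (p := fun x _ => (eichMat Q z w).mulVec x ∈
      AddSubgroup.closure (goodSet Q D Δ i)) ?_ ?_ ?_ ?_ hx
    · intro y hy
      obtain ⟨hyD, hQy, hsq⟩ := hy
      apply AddSubgroup.subset_closure
      refine ⟨eichMat_mulVec_mem (D i) hz hw hyD, ?_, ?_⟩
      · rw [Q_eichMat Q z w hQz hzw]; exact hQy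
      · rw [Q_eichMat Q z w hQz hzw]; exact hsq
    · rw [Matrix.mulVec_zero]; exact AddSubgroup.zero_mem _
    · intro a b _ _ ha hb
      rw [Matrix.mulVec_add]; exact AddSubgroup.add_mem _ ha hb
    · intro a _ ha
      rw [Matrix.mulVec_neg]; exact AddSubgroup.neg_mem _ ha

/-- Two orthogonal good vectors of a block are both non-orthogonal to a third good vector. -/
theorem ODec.exists_conn (hD : ODec Q k D) (hQ : (polarBilin Q).Nondegenerate)
    (h2 : (2 : F) ≠ 0) (hk : 3 ≤ k) (hex : 5 ≤ k ∨ 5 ≤ Fintype.card F) {Δ : F} (hΔ0 : Δ ≠ 0)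
    {i : Fin t} {c c' : ι → F} (hc : c ∈ goodSet Q D Δ i) (hc' : c' ∈ goodSet Q D Δ i)
    (hcc' : polar ⇑Q c c' = 0) :
    ∃ c'' ∈ goodSet Q D Δ i, polar ⇑Q c c'' ≠ 0 ∧ polar ⇑Q c' c'' ≠ 0 := by
  obtain ⟨hcD, hQc, hsq⟩ := hc
  obtain ⟨hc'D, hQc', hsq'⟩ := hc'
  have h₁ := perp_orthPair (hD.orthPair i) h2 hcD hQc
  have hc'N₁ : c' ∈ perpIn Q (D i) c := mem_perpIn.mpr ⟨hc'D, hcc'⟩
  have h₂ := perp_orthPair h₁ h2 hc'N₁ hQc'
  have hf₁ := finrank_perpIn_ge (Q := Q) (D i) c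
  have hf₂ := finrank_perpIn_ge (Q := Q) (perpIn Q (D i) c) c'
  have hfD := hD.finrank_eq i
  have hmemN₂ : ∀ w ∈ perpIn Q (perpIn Q (D i) c) c',
      w ∈ D i ∧ polar ⇑Q c w = 0 ∧ polar ⇑Q c' w = 0 := by
    intro w hw
    obtain ⟨hw1, hw2⟩ := mem_perpIn.mp hw
    obtain ⟨hw3, hw4⟩ := mem_perpIn.mp hw1
    exact ⟨hw3, hw4, hw2⟩
  have hc'c : polar ⇑Q c' c = 0 := by rw [polar_comm]; exact hcc'
  rcases hex with h5 | h5
  · obtain ⟨u₂, hu₂, hu₂0, hQu₂⟩ := exists_singular_of_finrank Q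
      (perpIn Q (perpIn Q (D i) c) c') (by omega)
    obtain ⟨v₂, hv₂, hQv₂, huv⟩ := h₂.exists_partner hQ hu₂ hu₂0 hQu₂
    obtain ⟨w, hw⟩ : ∃ w, w = u₂ + (-(Q c')) • v₂ := ⟨_, rfl⟩
    have hwN : w ∈ perpIn Q (perpIn Q (D i) c) c' := by
      rw [hw]; exact Submodule.add_mem _ hu₂ (Submodule.smul_mem _ _ hv₂)
    have hQw : Q w = -(Q c') := by
      rw [hw, Q_add_smul, hQu₂, hQv₂, huv]; ring
    obtain ⟨hwD, hcw, hc'w⟩ := hmemN₂ w hwN
    have hQs : Q (c + c' + w) = Q c := by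
      rw [Q_add_three c c' w hcc' hcw hc'w, hQw]; ring
    refine ⟨c + c' + w, ⟨(D i).add_mem ((D i).add_mem hcD hc'D) hwD, ?_, ?_⟩, ?_, ?_⟩
    · rw [hQs]; exact hQc
    · rw [hQs]; exact hsq
    · rw [polar_add_right, polar_add_right, hcc', hcw, Cfsg.Agent.Lib.Helper51.polar_self,
        add_zero, add_zero]
      exact mul_ne_zero h2 hQc
    · rw [polar_add_right, polar_add_right, hc'c, hc'w, Cfsg.Agent.Lib.Helper51.polar_self,
        add_zero, zero_add]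
      exact mul_ne_zero h2 hQc'
  · have hN₂ : perpIn Q (perpIn Q (D i) c) c' ≠ ⊥ := by
      intro hbot
      rw [hbot, finrank_bot] at hf₂
      omega
    obtain ⟨w₀, hw₀N, hQw₀⟩ := exists_nonsing h₂ hQ hN₂
    obtain ⟨hw₀D, hcw₀, hc'w₀⟩ := hmemN₂ w₀ hw₀N
    obtain ⟨r, hr⟩ := hsq
    obtain ⟨r', hr'⟩ := hsq'
    have hr0 : r ≠ 0 := by
      rintro rfl
      rw [mul_zero] at hr
      exact (mul_ne_zero hΔ0 hQc) hr
    have hr'0 : r' ≠ 0 := by
      rintro rfl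
      rw [mul_zero] at hr'
      exact (mul_ne_zero hΔ0 hQc') hr'
    obtain ⟨b, hb0, hbns⟩ := exists_one_sub_nonsq h2 h5 (θ := -(Q w₀ / Q c))
      (neg_ne_zero.mpr (div_ne_zero hQw₀ hQc))
    obtain ⟨μ, hμ⟩ : ∃ μ, μ = 1 - -(Q w₀ / Q c) * b ^ 2 := ⟨_, rfl⟩
    rw [← hμ] at hbns
    have hμ0 : μ ≠ 0 := by
      rintro rfl
      exact hbns ⟨0, by simp⟩
    obtain ⟨s₀, hs₀0, hs₀⟩ : ∃ s₀ : F, s₀ ≠ 0 ∧ s₀ ^ 2 ≠ -μ := by
      by_cases hsqm : IsSquare (-μ)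
      · obtain ⟨r₀, hr₀⟩ := hsqm
        obtain ⟨x, hx0, hx1, hx2⟩ := exists_avoid_three h5 (0 : F) r₀ (-r₀)
        refine ⟨x, hx0, ?_⟩
        intro h
        have : (x - r₀) * (x + r₀) = 0 := by linear_combination h + hr₀
        rcases mul_eq_zero.mp this with h1 | h1
        · exact hx1 (sub_eq_zero.mp h1)
        · exact hx2 (eq_neg_of_add_eq_zero_left h1)
      · refine ⟨1, one_ne_zero, ?_⟩
        intro h
        exact hsqm ⟨1, by rw [← h]; ring⟩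
    have hα : μ ≠ s₀ ^ 2 := by
      intro h
      exact hbns ⟨s₀, by rw [h]; ring⟩
    obtain ⟨σ, hσ⟩ : ∃ σ, σ = (s₀ + μ / s₀) / 2 := ⟨_, rfl⟩
    obtain ⟨α, hαd⟩ : ∃ α, α = (μ / s₀ - s₀) / 2 := ⟨_, rfl⟩
    have hσ0 : σ ≠ 0 := by
      rw [hσ]
      intro h
      apply hs₀
      field_simp at h
      linear_combination h
    have hα0 : α ≠ 0 := by
      rw [hαd]
      intro h
      apply hα
      field_simp at h
      linear_combination h
    have hrel : α ^ 2 + μ = σ ^ 2 := by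
      rw [hσ, hαd]
      field_simp
      ring
    have e : r / r' * (r / r') * Q c' = Q c := by
      have h3 : Δ * (r * r * Q c') = Δ * (Q c * (r' * r')) := by
        rw [← hr, ← hr']; ring
      have h4 := mul_left_cancel₀ hΔ0 h3
      field_simp
      linear_combination h4
    obtain ⟨c'', hc''⟩ : ∃ c'', c'' = α • c + (r / r') • c' + b • w₀ := ⟨_, rfl⟩
    have hQc'' : Q c'' = Q c * σ ^ 2 := by
      rw [hc'', Q_add_three _ _ _ (by rw [polar_smul_left, polar_smul_right, hcc']; simp)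
        (by rw [polar_smul_left, polar_smul_right, hcw₀]; simp)
        (by rw [polar_smul_left, polar_smul_right, hc'w₀]; simp), QuadraticMap.map_smul,
        QuadraticMap.map_smul, QuadraticMap.map_smul, ← hrel, hμ]
      simp only [smul_eq_mul]
      rw [e]
      field_simp
      ring
    refine ⟨c'', ⟨?_, ?_, ?_⟩, ?_, ?_⟩
    · rw [hc'']
      exact (D i).add_mem ((D i).add_mem ((D i).smul_mem _ hcD) ((D i).smul_mem _ hc'D))
        ((D i).smul_mem _ hw₀D)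
    · rw [hQc'']
      exact mul_ne_zero hQc (pow_ne_zero 2 hσ0)
    · rw [hQc'']
      exact ⟨r * σ, by rw [← mul_assoc, hr]; ring⟩
    · rw [hc'', polar_add_right, polar_add_right, polar_smul_right, polar_smul_right,
        polar_smul_right, hcc', hcw₀, Cfsg.Agent.Lib.Helper51.polar_self]
      simp only [smul_eq_mul, mul_zero, add_zero]
      exact mul_ne_zero hα0 (mul_ne_zero h2 hQc)
    · rw [hc'', polar_add_right, polar_add_right, polar_smul_right, polar_smul_right,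
        polar_smul_right, hc'c, hc'w₀, Cfsg.Agent.Lib.Helper51.polar_self]
      simp only [smul_eq_mul, mul_zero, add_zero, zero_add]
      exact mul_ne_zero (div_ne_zero hr0 hr'0) (mul_ne_zero h2 hQc')

/-- An element of `M` outside the stabiliser gives a vector `d` in no block with `-r_d ∈ M`. -/
theorem ODec.exists_invC_off (hD : ODec Q k D) (hQ : (polarBilin Q).Nondegenerate)
    (h2 : (2 : F) ≠ 0) (hk : 3 ≤ k) (hex : 5 ≤ k ∨ 5 ≤ Fintype.card F)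
    {M : Subgroup ↥(isometryGroup F ⇑Q)} (hM : ContainsOD Q M D) {Δ : F} (hΔ0 : Δ ≠ 0)
    (hΔ : ∀ (c : ι → F) (hc : Q c ≠ 0),
      (rho Q c hc ∈ commutator ↥(isometryGroup F ⇑Q) ↔ IsSquare (Δ * Q c)))
    (g : ↥(isometryGroup F ⇑Q)) (hg : g ∈ M)
    (hgs : (g : Matrix.GeneralLinearGroup ι F) ∉ Cfsg.Geo.decompositionStabilizer D) :
    ∃ d, InvC Q M d ∧ ∀ l, d ∉ D l := by
  by_contra hcon
  push Not at hcon
  apply hgs
  apply hD.mem_stab hQ (by omega)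
  intro i
  have hdim : 3 ≤ finrank F (D i) := by rw [hD.finrank_eq]; exact hk
  have hblock : ∀ c ∈ goodSet Q D Δ i, ∃ l, mt(g).mulVec c ∈ D l := by
    intro c hc
    exact hcon _ (invC_map (hD.invC_block hQ (by omega) hM hΔ hc.1 hc.2.1 hc.2.2) g hg)
  obtain ⟨c₀, hc₀, hQc₀⟩ := exists_norm (hD.orthPair i) hQ hdim Δ⁻¹
  have hgood₀ : c₀ ∈ goodSet Q D Δ i :=
    ⟨hc₀, by rw [hQc₀]; exact inv_ne_zero hΔ0,
      by rw [hQc₀, mul_inv_cancel₀ hΔ0]; exact ⟨1, by simp⟩⟩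
  obtain ⟨j₀, hj₀⟩ := hblock c₀ hgood₀
  refine ⟨j₀, ?_⟩
  have hstep : ∀ c ∈ goodSet Q D Δ i, ∀ c' ∈ goodSet Q D Δ i, polar ⇑Q c c' ≠ 0 →
      ∀ l, mt(g).mulVec c ∈ D l → mt(g).mulVec c' ∈ D l := by
    intro c hc c' hc' hne l hl
    obtain ⟨l', hl'⟩ := hblock c' hc'
    by_cases hll : l = l'
    · rw [hll]; exact hl'
    · exfalso
      apply hne
      rw [← isometry_polar Q g]
      exact hD.orth l l' hll _ hl _ hl'
  have hall : ∀ c ∈ goodSet Q D Δ i, mt(g).mulVec c ∈ D j₀ := by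
    intro c hc
    by_cases hne : polar ⇑Q c₀ c = 0
    · obtain ⟨c'', hc'', h1, h3⟩ := hD.exists_conn hQ h2 hk hex hΔ0 hgood₀ hc hne
      have h4 := hstep c₀ hgood₀ c'' hc'' h1 j₀ hj₀
      exact hstep c'' hc'' c hc (by rw [polar_comm]; exact h3) j₀ h4
    · exact hstep c₀ hgood₀ c hc hne j₀ hj₀
  have hle : AddSubgroup.closure (goodSet Q D Δ i)
      ≤ ((D j₀).comap (Matrix.mulVecLin mt(g))).toAddSubgroup := by
    rw [AddSubgroup.closure_le]
    intro c hc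
    show Matrix.mulVecLin mt(g) c ∈ D j₀
    rw [Matrix.mulVecLin_apply]
    exact hall c hc
  intro x hx
  have h1 := hle (hD.good_span hQ h2 hk hΔ0 i x hx)
  have h3 : Matrix.mulVecLin mt(g) x ∈ D j₀ := h1
  rwa [Matrix.mulVecLin_apply] at h3

/-- A vector `d = y + z` with `-r_d ∈ M`, `y ∈ D j`, `0 ≠ z ∈ cmp D j`, a singular vector
`u ∈ D j` orthogonal to `y` and a vector `a ∈ D j` orthogonal to `u` but not to `y` force
`Ω ≤ M`. -/
theorem ODec.le_of_nice (hD : ODec Q k D) (hQ : (polarBilin Q).Nondegenerate)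
    (h2 : (2 : F) ≠ 0) (hn : 5 ≤ Fintype.card ι) (hk : 3 ≤ k)
    {M : Subgroup ↥(isometryGroup F ⇑Q)} (hM : ContainsOD Q M D) {j : Fin t}
    {y z u a : ι → F} (hy : y ∈ D j) (hz : z ∈ cmp D j) (hz0 : z ≠ 0)
    (hd : InvC Q M (y + z)) (hu : u ∈ D j) (hu0 : u ≠ 0) (hQu : Q u = 0)
    (huy : polar ⇑Q u y = 0) (ha : a ∈ D j) (hua : polar ⇑Q u a = 0)
    (hay : polar ⇑Q a y ≠ 0) : commutator ↥(isometryGroup F ⇑Q) ≤ M := by
  obtain ⟨hQd, hmem⟩ := hd
  have hm0 : MixedIn Q M u a := hD.mixedIn_block hQ hn (by omega) hM hu ha hQu hua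
  have huz : polar ⇑Q u z = 0 := (hD.orthPair j).orth u hu z hz
  have haz : polar ⇑Q a z = 0 := (hD.orthPair j).orth a ha z hz
  have hfix : mt(rho Q (y + z) hQd).mulVec u = (-1 : F) • u := by
    rw [rho_mulVec, polar_add_left, polar_comm ⇑Q y u, huy, polar_comm ⇑Q z u, huz]
    simp
  have h1 := mixedIn_conj (Q := Q) hm0 _ hmem (-1) hfix
  rw [rho_mulVec] at h1
  obtain ⟨lam, hlam⟩ : ∃ lam, lam = (Q (y + z))⁻¹ * polar ⇑Q (y + z) a := ⟨_, rfl⟩
  rw [← hlam] at h1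
  have hlam0 : lam ≠ 0 := by
    rw [hlam, polar_add_left, polar_comm ⇑Q z a, haz, add_zero, polar_comm ⇑Q y a]
    exact mul_ne_zero (inv_ne_zero hQd) hay
  have hm2 : MixedIn Q M u (a - lam • y) :=
    hD.mixedIn_block hQ hn (by omega) hM hu ((D j).sub_mem ha ((D j).smul_mem _ hy)) hQu
      (by rw [polar_sub_right, polar_smul_right, hua, huy]; simp)
  have h3 := mixedIn_sub h1 hm2
  have e : (-1 : F) • (lam • (y + z) - a) - (a - lam • y) = (-lam) • z := by module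
  rw [e] at h3
  exact hD.le_of_mixed hQ h2 hn hk hM hu hu0 ((cmp D j).smul_mem _ hz)
    (smul_ne_zero (neg_ne_zero.mpr hlam0) hz0) h3

/-- A norm class `ω` such that every vector of a block with norm in `ω (F^×)²` is orthogonal
to a non-zero singular vector of its block. -/
theorem ODec.exists_iso_class (hD : ODec Q k D) (hQ : (polarBilin Q).Nondegenerate)
    (h2 : (2 : F) ≠ 0) (hk : 3 ≤ k) (i₀ : Fin t) :
    ∃ ω : F, ω ≠ 0 ∧ ∀ j, ∀ y ∈ D j, Q y ≠ 0 → IsSquare (Q y * ω) →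
      ∃ u' ∈ D j, u' ≠ 0 ∧ Q u' = 0 ∧ polar ⇑Q u' y = 0 := by
  have hdim : 3 ≤ finrank F (D i₀) := by rw [hD.finrank_eq]; exact hk
  obtain ⟨u₀, hu₀, hu₀0, hQu₀⟩ := exists_singular_of_finrank Q (D i₀) hdim
  obtain ⟨w₀, hw₀, hu₀w₀, hQw₀⟩ := exists_nonsing_orth (hD.orthPair i₀) hQ hdim hu₀ hu₀0 hQu₀
  refine ⟨Q w₀, hQw₀, ?_⟩
  intro j y hy hQy hsq
  obtain ⟨e, he⟩ := hD.isom i₀ j
  obtain ⟨r, hr⟩ := hsq
  have hr0 : r ≠ 0 := by
    rintro rfl
    rw [mul_zero] at hr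
    exact mul_ne_zero hQy hQw₀ hr
  have hpol : ∀ a b : D i₀, polar ⇑Q ((e a : D j) : ι → F) ((e b : D j) : ι → F)
      = polar ⇑Q (a : ι → F) (b : ι → F) := by
    intro a b
    have h1 := he (a + b)
    rw [map_add] at h1
    simp only [Submodule.coe_add] at h1
    unfold QuadraticMap.polar
    rw [h1, he a, he b]
  have hu₁0 : ((e ⟨u₀, hu₀⟩ : D j) : ι → F) ≠ 0 := by
    intro h
    apply hu₀0
    have h1 : e ⟨u₀, hu₀⟩ = 0 := Subtype.ext h
    have h3 := (LinearEquiv.map_eq_zero_iff e).mp h1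
    exact congrArg Subtype.val h3
  obtain ⟨u', hu', hu'0, hQu', hu'y⟩ := exists_sing_orth_of_norm h2 (N := D j)
    (u := (e ⟨u₀, hu₀⟩ : D j)) (w := (e ⟨w₀, hw₀⟩ : D j)) (y := (Q w₀ / r) • y)
    (e ⟨u₀, hu₀⟩).2 (e ⟨w₀, hw₀⟩).2 ((D j).smul_mem _ hy) hu₁0 (by rw [he]; exact hQu₀)
    (by rw [hpol]; exact hu₀w₀) (by rw [he]; exact hQw₀)
    (by
      rw [he, QuadraticMap.map_smul]
      simp only [smul_eq_mul]
      field_simp
      linear_combination hr)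
  refine ⟨u', hu', hu'0, hQu', ?_⟩
  rw [polar_smul_right] at hu'y
  rcases smul_eq_zero.mp hu'y with h | h
  · exact absurd h (div_ne_zero hQw₀ hr0)
  · exact h

/-- A vector `d = y + z` with `-r_d ∈ M`, `y ∈ D j` of norm in the class `ω` and
`0 ≠ z ∈ cmp D j` forces `Ω ≤ M`. -/
theorem ODec.le_of_norm (hD : ODec Q k D) (hQ : (polarBilin Q).Nondegenerate)
    (h2 : (2 : F) ≠ 0) (hn : 5 ≤ Fintype.card ι) (hk : 3 ≤ k)
    {M : Subgroup ↥(isometryGroup F ⇑Q)} (hM : ContainsOD Q M D) {ω : F}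
    (hω : ∀ j, ∀ y ∈ D j, Q y ≠ 0 → IsSquare (Q y * ω) →
      ∃ u' ∈ D j, u' ≠ 0 ∧ Q u' = 0 ∧ polar ⇑Q u' y = 0)
    {j : Fin t} {y z : ι → F} (hy : y ∈ D j) (hz : z ∈ cmp D j) (hz0 : z ≠ 0)
    (hd : InvC Q M (y + z)) (hQy : Q y ≠ 0) (hsq : IsSquare (Q y * ω)) :
    commutator ↥(isometryGroup F ⇑Q) ≤ M := by
  obtain ⟨u', hu', hu'0, hQu', hu'y⟩ := hω j y hy hQy hsq
  have hyn : y ∉ Submodule.span F ({u'} : Set (ι → F)) := by
    intro hmem
    obtain ⟨c, rfl⟩ := Submodule.mem_span_singleton.mp hmem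
    apply hQy
    rw [QuadraticMap.map_smul, hQu', smul_zero]
  obtain ⟨a', ha', h1, h3⟩ := exists_orth_ne (hD.orthPair j) hQ hu' hu'0 hQu' hy hu'y hyn
  exact hD.le_of_nice hQ h2 hn hk hM hy hz hz0 hd hu' hu'0 hQu' hu'y ha' h1 h3

end Nice

end Cfsg.Agent.Lib.Helper18.OD
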