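import Mathlib
import Cfsg.Agent.Lib.Helper18.ODNice

/-!
Overgroups `M ≤ Ω` of the stabiliser of an orthogonal decomposition into isometric blocks,
over a field with at least 5 elements: starting from a vector `d = y + z` (`0 ≠ y ∈ D j`,
`0 ≠ z ∈ cmp D j`) with `-r_d ∈ M`, reflections of good block vectors in `d` change the norm
of the block component `y` until it lies in the norm class for which `y` is orthogonal to a
singular vector of its block. The final statement: an overgroup `M ≤ Ω` of the stabiliser in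
`Ω` not contained in the stabiliser is `Ω`.
-/

set_option autoImplicit false
set_option linter.unusedSectionVars false

namespace Cfsg.Agent.Lib.Helper18.OD

open Module QuadraticMap Cfsg
open Cfsg.Agent.Lib.Helper51 Cfsg.Agent.Lib.Helper52

section Move

variable {ι : Type} [Fintype ι] [DecidableEq ι] {F : Type*} [Field F] [Fintype F]
variable {Q : QuadraticForm F (ι → F)}
variable {t k : ℕ} {D : Fin t → Submodule F (ι → F)}

local notation "mt(" g ")" => ((g : Matrix.GeneralLinearGroup ι F) : Matrix ι ι F)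

/-- The state of the search: `d = y + z` with `-r_d ∈ M`, `0 ≠ y ∈ D j`, `0 ≠ z ∈ cmp D j` and
`Q d = N`. -/
structure St (Q : QuadraticForm F (ι → F)) (M : Subgroup ↥(isometryGroup F ⇑Q))
    (D : Fin t → Submodule F (ι → F)) (j : Fin t) (N : F) (y z : ι → F) : Prop where
  hy : y ∈ D j
  hz : z ∈ cmp D j
  hy0 : y ≠ 0
  hz0 : z ≠ 0
  inv : InvC Q M (y + z)
  norm : Q (y + z) = N

theorem St.norm_ne {M : Subgroup ↥(isometryGroup F ⇑Q)} {j : Fin t} {N : F} {y z : ι → F}
    (hs : St Q M D j N y z) : N ≠ 0 := by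
  obtain ⟨hd, -⟩ := hs.inv
  rw [← hs.norm]
  exact hd

theorem ODec.st_sum (hD : ODec Q k D) {M : Subgroup ↥(isometryGroup F ⇑Q)} {j : Fin t} {N : F}
    {y z : ι → F} (hs : St Q M D j N y z) : Q y + Q z = N := by
  rw [← hs.norm, Q_add', (hD.orthPair j).orth y hs.hy z hs.hz, add_zero]

/-- Move A: reflect a good vector `c ∈ D j` of norm `N` with `(c, y) = b N` in `d`. -/
theorem ODec.moveA (hD : ODec Q k D) (hQ : (polarBilin Q).Nondegenerate) (h2 : (2 : F) ≠ 0)
    (hk : 3 ≤ k) {M : Subgroup ↥(isometryGroup F ⇑Q)} (hM : ContainsOD Q M D)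
    (hMle : M ≤ commutator ↥(isometryGroup F ⇑Q)) {Δ : F}
    (hΔ : ∀ (c : ι → F) (hc : Q c ≠ 0),
      (rho Q c hc ∈ commutator ↥(isometryGroup F ⇑Q) ↔ IsSquare (Δ * Q c)))
    {j : Fin t} {N : F} {y z : ι → F} (hs : St Q M D j N y z) (b : F) (hb : b ≠ 0)
    (hne : N - b ^ 2 * (N - Q y) ≠ 0) :
    ∃ y' z', St Q M D j N y' z' ∧ Q y' = N - b ^ 2 * (N - Q y) := by
  have hN0 := hs.norm_ne
  have hsqN : IsSquare (Δ * N) := by
    rw [← hs.norm]; exact isSquare_of_invC hMle hΔ hs.inv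
  have hdim : 3 ≤ finrank F (D j) := by rw [hD.finrank_eq]; exact hk
  obtain ⟨c, hc, hQc, hcy⟩ := exists_rep (hD.orthPair j) hQ h2 hdim hs.hy hs.hy0 N (b * N)
    (mul_ne_zero hb hN0)
  have hinvc : InvC Q M c := hD.invC_block hQ (by omega) hM hΔ hc (by rw [hQc]; exact hN0)
    (by rw [hQc]; exact hsqN)
  have h1 := invC_refl hs.inv hinvc
  have hpol : polar ⇑Q (y + z) c = b * N := by
    rw [polar_add_left, polar_comm ⇑Q y c, hcy, polar_comm ⇑Q z c,
      (hD.orthPair j).orth c hc z hs.hz, add_zero]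
  have hcoef : (Q (y + z))⁻¹ * polar ⇑Q (y + z) c = b := by
    rw [hpol, hs.norm]; field_simp
  rw [hcoef] at h1
  have e : c - b • (y + z) = (c - b • y) + (-b) • z := by module
  have hQy' : Q (c - b • y) = N - b ^ 2 * (N - Q y) := by
    rw [Q_sub_smul', hQc, polar_comm ⇑Q y c, hcy]; ring
  refine ⟨c - b • y, (-b) • z, ⟨(D j).sub_mem hc ((D j).smul_mem _ hs.hy),
    (cmp D j).smul_mem _ hs.hz, ?_, smul_ne_zero (neg_ne_zero.mpr hb) hs.hz0, ?_, ?_⟩, hQy'⟩
  · intro h0
    apply hne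
    rw [← hQy', h0, map_zero]
  · rw [← e]; exact h1
  · rw [← e, Q_sub_smul', hQc, hs.norm, hpol]; ring

/-- Move B: reflect a good vector `c` of another block, of norm `N` with `(c, z) = b N`,
in `d`. -/
theorem ODec.moveB (hD : ODec Q k D) (hQ : (polarBilin Q).Nondegenerate) (h2 : (2 : F) ≠ 0)
    (hk : 3 ≤ k) {M : Subgroup ↥(isometryGroup F ⇑Q)} (hM : ContainsOD Q M D)
    (hMle : M ≤ commutator ↥(isometryGroup F ⇑Q)) {Δ : F}
    (hΔ : ∀ (c : ι → F) (hc : Q c ≠ 0),
      (rho Q c hc ∈ commutator ↥(isometryGroup F ⇑Q) ↔ IsSquare (Δ * Q c)))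
    {j : Fin t} {N : F} {y z : ι → F} (hs : St Q M D j N y z) (b : F) (hb : b ≠ 0)
    (hne : N - b ^ 2 * Q y ≠ 0) :
    ∃ y' z', St Q M D j N y' z' ∧ Q y' = b ^ 2 * Q y := by
  have hN0 := hs.norm_ne
  have hsqN : IsSquare (Δ * N) := by
    rw [← hs.norm]; exact isSquare_of_invC hMle hΔ hs.inv
  obtain ⟨l, hlj, n, hnl, hzn⟩ := hD.exists_block_of_cmp hQ hs.hz hs.hz0
  have hdim : 3 ≤ finrank F (D l) := by rw [hD.finrank_eq]; exact hk
  obtain ⟨zl, hzl, zr, hzr, hzz⟩ := (hD.orthPair l).exists_decomp z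
  have hzl0 : zl ≠ 0 := by
    rintro rfl
    apply hzn
    rw [← hzz, zero_add, polar_comm]
    exact (hD.orthPair l).orth n hnl zr hzr
  obtain ⟨c, hc, hQc, hczl⟩ := exists_rep (hD.orthPair l) hQ h2 hdim hzl hzl0 N (b * N)
    (mul_ne_zero hb hN0)
  have hcz : polar ⇑Q c z = b * N := by
    rw [← hzz, polar_add_right, hczl, (hD.orthPair l).orth c hc zr hzr, add_zero]
  have hcy : polar ⇑Q c y = 0 := hD.orth l j hlj c hc y hs.hy
  have hinvc : InvC Q M c := hD.invC_block hQ (by omega) hM hΔ hc (by rw [hQc]; exact hN0)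
    (by rw [hQc]; exact hsqN)
  have h1 := invC_refl hs.inv hinvc
  have hpol : polar ⇑Q (y + z) c = b * N := by
    rw [polar_add_left, polar_comm ⇑Q y c, hcy, polar_comm ⇑Q z c, hcz, zero_add]
  have hcoef : (Q (y + z))⁻¹ * polar ⇑Q (y + z) c = b := by
    rw [hpol, hs.norm]; field_simp
  rw [hcoef] at h1
  have e : c - b • (y + z) = (-b) • y + (c - b • z) := by module
  have hNsum := hD.st_sum hs
  have hQz' : Q (c - b • z) = N - b ^ 2 * Q y := by
    rw [Q_sub_smul', hQc, polar_comm ⇑Q z c, hcz]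
    linear_combination b ^ 2 * hNsum
  refine ⟨(-b) • y, c - b • z, ⟨(D j).smul_mem _ hs.hy,
    (cmp D j).sub_mem (le_cmp D hlj hc) ((cmp D j).smul_mem _ hs.hz),
    smul_ne_zero (neg_ne_zero.mpr hb) hs.hy0, ?_, ?_, ?_⟩, ?_⟩
  · intro h0
    apply hne
    rw [← hQz', h0, map_zero]
  · rw [← e]; exact h1
  · rw [← e, Q_sub_smul', hQc, hs.norm, hpol]; ring
  · rw [QuadraticMap.map_smul]
    simp only [smul_eq_mul]
    ring

/-- Over a field with at least 5 elements, a state forces `Ω ≤ M`. -/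
theorem ODec.le_of_state (hD : ODec Q k D) (hQ : (polarBilin Q).Nondegenerate)
    (h2 : (2 : F) ≠ 0) (hn : 5 ≤ Fintype.card ι) (hk : 3 ≤ k) (h5 : 5 ≤ Fintype.card F)
    {M : Subgroup ↥(isometryGroup F ⇑Q)} (hM : ContainsOD Q M D)
    (hMle : M ≤ commutator ↥(isometryGroup F ⇑Q)) {Δ : F}
    (hΔ : ∀ (c : ι → F) (hc : Q c ≠ 0),
      (rho Q c hc ∈ commutator ↥(isometryGroup F ⇑Q) ↔ IsSquare (Δ * Q c)))
    {ω : F} (hω0 : ω ≠ 0)
    (hω : ∀ j, ∀ y ∈ D j, Q y ≠ 0 → IsSquare (Q y * ω) →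
      ∃ u' ∈ D j, u' ≠ 0 ∧ Q u' = 0 ∧ polar ⇑Q u' y = 0)
    {j : Fin t} {N : F} {y z : ι → F} (hs : St Q M D j N y z) :
    commutator ↥(isometryGroup F ⇑Q) ≤ M := by
  have hN0 := hs.norm_ne
  have fin : ∀ y z, St Q M D j N y z → Q y ≠ 0 → IsSquare (Q y * ω) →
      commutator ↥(isometryGroup F ⇑Q) ≤ M :=
    fun y z hs hQy hsq => hD.le_of_norm hQ h2 hn hk hM hω hs.hy hs.hz hs.hz0 hs.inv hQy hsq
  by_cases hNω : IsSquare (N * ω)
  · have key1 : ∀ y z, St Q M D j N y z → Q y ≠ 0 → IsSquare (Q y / N) →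
        commutator ↥(isometryGroup F ⇑Q) ≤ M := by
      intro y z hs hQy hsq
      apply fin y z hs hQy
      have e : Q y * ω = (Q y / N) * (N * ω) := by field_simp
      rw [e]
      exact hsq.mul hNω
    have key2 : ∀ y z, St Q M D j N y z → ¬ IsSquare ((N - Q y) / N) →
        commutator ↥(isometryGroup F ⇑Q) ≤ M := by
      intro y z hs hns
      obtain ⟨b, hb0, hbsq, hbne⟩ := exists_one_sub_sq h2 h5 hns
      have e : N - b ^ 2 * (N - Q y) = N * (1 - (N - Q y) / N * b ^ 2) := by field_simp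
      obtain ⟨y', z', hs', hQy'⟩ := hD.moveA hQ h2 hk hM hMle hΔ hs b hb0
        (by rw [e]; exact mul_ne_zero hN0 hbne)
      apply key1 y' z' hs'
      · rw [hQy', e]; exact mul_ne_zero hN0 hbne
      · have e' : Q y' / N = 1 - (N - Q y) / N * b ^ 2 := by rw [hQy']; field_simp
        rw [e']; exact hbsq
    have key3 : ∀ y z, St Q M D j N y z → Q y ≠ 0 →
        commutator ↥(isometryGroup F ⇑Q) ≤ M := by
      intro y z hs hQy
      by_cases hsq : IsSquare (Q y / N)
      · exact key1 y z hs hQy hsq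
      · obtain ⟨b, hb0, hbns⟩ := exists_one_sub_nonsq h2 h5 (θ := Q y / N)
          (div_ne_zero hQy hN0)
        have hbne : 1 - Q y / N * b ^ 2 ≠ 0 := by
          intro h0
          apply hbns
          rw [h0]
          exact ⟨0, by simp⟩
        have e : N - b ^ 2 * Q y = N * (1 - Q y / N * b ^ 2) := by field_simp
        obtain ⟨y', z', hs', hQy'⟩ := hD.moveB hQ h2 hk hM hMle hΔ hs b hb0
          (by rw [e]; exact mul_ne_zero hN0 hbne)
        apply key2 y' z' hs'
        have e' : (N - Q y') / N = 1 - Q y / N * b ^ 2 := by rw [hQy']; field_simp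
        rw [e']; exact hbns
    by_cases hQy : Q y = 0
    · obtain ⟨b, hb0, hb1⟩ := exists_sq_ne_one (F := F) h5
      have hne : N - b ^ 2 * (N - Q y) ≠ 0 := by
        rw [hQy, sub_zero]
        intro h0
        have : N * (1 - b ^ 2) = 0 := by linear_combination h0
        rcases mul_eq_zero.mp this with h | h
        · exact hN0 h
        · apply hb1; linear_combination -h
      obtain ⟨y', z', hs', hQy'⟩ := hD.moveA hQ h2 hk hM hMle hΔ hs b hb0 hne
      exact key3 y' z' hs' (by rw [hQy']; exact hne)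
    · exact key3 y z hs hQy
  · have hNω0 : N * ω ≠ 0 := mul_ne_zero hN0 hω0
    have key1 : ∀ y z, St Q M D j N y z → ¬ IsSquare (Q y / N) →
        commutator ↥(isometryGroup F ⇑Q) ≤ M := by
      intro y z hs hns
      have hQy : Q y ≠ 0 := by
        intro h0
        apply hns
        rw [h0, zero_div]
        exact ⟨0, by simp⟩
      apply fin y z hs hQy
      have e : Q y * ω = (Q y / N) * (N * ω) := by field_simp
      rw [e, isSquare_mul_iff (div_ne_zero hQy hN0) hNω0]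
      exact ⟨fun h => absurd h hns, fun h => absurd h hNω⟩
    have key2 : ∀ y z, St Q M D j N y z → Q y ≠ N →
        commutator ↥(isometryGroup F ⇑Q) ≤ M := by
      intro y z hs hQy
      have hθ0 : (N - Q y) / N ≠ 0 := div_ne_zero (sub_ne_zero.mpr (Ne.symm hQy)) hN0
      obtain ⟨b, hb0, hbns⟩ := exists_one_sub_nonsq h2 h5 hθ0
      have hbne : 1 - (N - Q y) / N * b ^ 2 ≠ 0 := by
        intro h0
        apply hbns
        rw [h0]
        exact ⟨0, by simp⟩
      have e : N - b ^ 2 * (N - Q y) = N * (1 - (N - Q y) / N * b ^ 2) := by field_simp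
      obtain ⟨y', z', hs', hQy'⟩ := hD.moveA hQ h2 hk hM hMle hΔ hs b hb0
        (by rw [e]; exact mul_ne_zero hN0 hbne)
      apply key1 y' z' hs'
      have e' : Q y' / N = 1 - (N - Q y) / N * b ^ 2 := by rw [hQy']; field_simp
      rw [e']; exact hbns
    by_cases hQy : Q y = N
    · obtain ⟨b, hb0, hb1⟩ := exists_sq_ne_one (F := F) h5
      have hne : N - b ^ 2 * Q y ≠ 0 := by
        rw [hQy]
        intro h0
        have : N * (1 - b ^ 2) = 0 := by linear_combination h0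
        rcases mul_eq_zero.mp this with h | h
        · exact hN0 h
        · apply hb1; linear_combination -h
      obtain ⟨y', z', hs', hQy'⟩ := hD.moveB hQ h2 hk hM hMle hΔ hs b hb0 hne
      apply key2 y' z' hs'
      rw [hQy', hQy]
      intro h0
      apply hb1
      have : N * (b ^ 2 - 1) = 0 := by linear_combination h0
      rcases mul_eq_zero.mp this with h | h
      · exact absurd h hN0
      · linear_combination h
    · exact key2 y z hs hQy

/-- An overgroup `M ≤ Ω` of the stabiliser in `Ω` of an orthogonal decomposition into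
isometric blocks, not contained in the stabiliser, is `Ω` (odd dimension, blocks of dimension
`k ≥ 3`, and `k ≥ 5` or `|F| ≥ 5`). -/
theorem ODec.le_of_not_stab (hD : ODec Q k D) (hQ : (polarBilin Q).Nondegenerate)
    (h2 : (2 : F) ≠ 0) (hodd : Odd (Fintype.card ι)) (hn : 5 ≤ Fintype.card ι) (hk : 3 ≤ k)
    (hex : 5 ≤ k ∨ 5 ≤ Fintype.card F) {M : Subgroup ↥(isometryGroup F ⇑Q)}
    (hMle : M ≤ commutator ↥(isometryGroup F ⇑Q)) (hM : ContainsOD Q M D)
    (g : ↥(isometryGroup F ⇑Q)) (hg : g ∈ M)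
    (hgs : (g : Matrix.GeneralLinearGroup ι F) ∉ Cfsg.Geo.decompositionStabilizer D) :
    commutator ↥(isometryGroup F ⇑Q) ≤ M := by
  obtain ⟨Δ, hΔ0, hΔ⟩ := exists_disc Q h2 hQ hodd
  obtain ⟨d, hd, hoff⟩ := hD.exists_invC_off hQ h2 hk hex hM hΔ0 hΔ g hg hgs
  have hQd : Q d ≠ 0 := by
    obtain ⟨h, -⟩ := hd
    exact h
  have hd0 : d ≠ 0 := by
    rintro rfl
    exact hQd (map_zero _)
  obtain ⟨j, n, hnj, hdn⟩ : ∃ j, ∃ n ∈ D j, polar ⇑Q d n ≠ 0 := by
    by_contra hcon
    push Not at hcon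
    exact hd0 (hD.eq_zero_of_orth hQ hcon)
  obtain ⟨y, hy, z, hz, hyz⟩ := (hD.orthPair j).exists_decomp d
  have hy0 : y ≠ 0 := by
    rintro rfl
    apply hdn
    rw [← hyz, zero_add, polar_comm]
    exact (hD.orthPair j).orth n hnj z hz
  have hz0 : z ≠ 0 := by
    rintro rfl
    apply hoff j
    rw [← hyz, add_zero]
    exact hy
  have hinv : InvC Q M (y + z) := by rw [hyz]; exact hd
  by_cases h5 : 5 ≤ Fintype.card F
  · obtain ⟨ω, hω0, hω⟩ := hD.exists_iso_class hQ h2 hk j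
    have hs : St Q M D j (Q d) y z := ⟨hy, hz, hy0, hz0, hinv, by rw [hyz]⟩
    exact hD.le_of_state hQ h2 hn hk h5 hM hMle hΔ hω0 hω hs
  · have hk5 : 5 ≤ k := by
      rcases hex with h | h
      · exact h
      · exact absurd h h5
    obtain ⟨u', hu', hu'0, hQu', hu'y, a', ha', h1, h3⟩ :=
      exists_nice_five (hD.orthPair j) hQ (by rw [hD.finrank_eq]; exact hk5) hy hy0
    exact hD.le_of_nice hQ h2 hn hk hM hy hz hz0 hinv hu' hu'0 hQu' hu'y ha' h1 h3

end Move

end Cfsg.Agent.Lib.Helper18.OD
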