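import Mathlib
import Cfsg.Agent.Lib.Helper18.ODMove

/-!
The stabiliser in `Ω` of an orthogonal decomposition of a quadratic space of odd dimension
into isometric blocks of dimension `k ≥ 3` (`k ≥ 5` or `|F| ≥ 5`) is a maximal subgroup of `Ω`.
-/

set_option autoImplicit false
set_option linter.unusedSectionVars false

namespace Cfsg.Agent.Lib.Helper18.OD

open Module QuadraticMap Cfsg
open Cfsg.Agent.Lib.Helper51 Cfsg.Agent.Lib.Helper52

section Final

variable {ι : Type} [Fintype ι] [DecidableEq ι] {F : Type*} [Field F] [Fintype F]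
variable {Q : QuadraticForm F (ι → F)}
variable {t k : ℕ} {D : Fin t → Submodule F (ι → F)}

local notation "mt(" g ")" => ((g : Matrix.GeneralLinearGroup ι F) : Matrix ι ι F)

/-- The dimension count of a decomposition into `t` subspaces of dimension `k`. -/
theorem finrank_count (hind : iSupIndep D) (htop : iSup D = ⊤)
    (hfin : ∀ i, finrank F (D i) = k) : t * k = Fintype.card ι := by
  classical
  have hint : DirectSum.IsInternal D :=
    DirectSum.isInternal_submodule_of_iSupIndep_of_iSup_eq_top hind htop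
  have e := LinearEquiv.ofBijective (DirectSum.coeLinearMap D) hint
  have h1 := e.finrank_eq
  rw [Module.finrank_directSum, Module.finrank_fintype_fun_eq_card] at h1
  rw [← h1]
  simp [hfin]

/-- The stabiliser of the decomposition in `Ω` is a proper subgroup of `Ω`. -/
theorem ODec.exists_not_stab (hD : ODec Q k D) (hQ : (polarBilin Q).Nondegenerate)
    (hn : 5 ≤ Fintype.card ι) (hk : 3 ≤ k) (ht : 2 ≤ t) :
    ∃ g : ↥(isometryGroup F ⇑Q), g ∈ commutator ↥(isometryGroup F ⇑Q) ∧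
      (g : Matrix.GeneralLinearGroup ι F) ∉ Cfsg.Geo.decompositionStabilizer D := by
  obtain ⟨i₀, i₁, hne⟩ : ∃ i₀ i₁ : Fin t, i₁ ≠ i₀ :=
    ⟨⟨0, by omega⟩, ⟨1, by omega⟩, by simp [Fin.ext_iff]⟩
  obtain ⟨u, hu, hu0, hQu⟩ := exists_singular_of_finrank Q (D i₀)
    (by rw [hD.finrank_eq]; exact hk)
  obtain ⟨v, hv, hQv, huv⟩ := (hD.orthPair i₀).exists_partner hQ hu hu0 hQu
  obtain ⟨a, ha, ha0⟩ := Submodule.exists_mem_ne_zero_of_ne_bot (hD.ne_bot (by omega) i₁)
  have hua : polar ⇑Q u a = 0 := hD.orth i₀ i₁ (Ne.symm hne) u hu a ha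
  have hva : polar ⇑Q v a = 0 := hD.orth i₀ i₁ (Ne.symm hne) v hv a ha
  refine ⟨eich Q u a hQu hua, eich_mem_commutator Q hQ hn u a hQu hua, ?_⟩
  intro hmem
  obtain ⟨j, hj⟩ := exists_of_mem_stab _ hmem i₀
  have h1 := hj u hu
  rw [coe_eich, eichMat_mulVec, Cfsg.Agent.Lib.Helper51.polar_self, hQu, polar_comm ⇑Q a u,
    hua] at h1
  have h1' : u ∈ D j := by simpa using h1
  have hji : j = i₀ := by
    by_contra hji
    obtain ⟨y, hy, hyne⟩ := (hD.orthPair i₀).nondeg hQ hu hu0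
    exact hyne (hD.orth j i₀ hji u h1' y hy)
  rw [hji] at hj
  have h3 := hj v hv
  rw [coe_eich, eichMat_mulVec, huv, polar_comm ⇑Q a v, hva] at h3
  have h4 : a ∈ D i₀ := by
    have h5 := (D i₀).sub_mem ((D i₀).sub_mem hv h3) ((D i₀).smul_mem (Q a) hu)
    have e : v - (v + (0 : F) • u - (1 : F) • a - (Q a * 1) • u) - Q a • u = a := by
      module
    rwa [e] at h5
  have h6 : a ∈ D i₀ ⊓ cmp D i₀ := ⟨h4, le_cmp D hne ha⟩
  rw [(hD.orthPair i₀).inf_eq_bot hQ, Submodule.mem_bot] at h6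
  exact ha0 h6

/-- The stabiliser in `Ω` of an orthogonal decomposition into isometric blocks is a maximal
subgroup of `Ω`. -/
theorem ODec.isMaximalIn (hD : ODec Q k D) (hQ : (polarBilin Q).Nondegenerate)
    (h2 : (2 : F) ≠ 0) (hodd : Odd (Fintype.card ι)) (hn : 5 ≤ Fintype.card ι) (hk : 3 ≤ k)
    (ht : 2 ≤ t) (hex : 5 ≤ k ∨ 5 ≤ Fintype.card F) :
    Cfsg.Geo.IsMaximalIn (Cfsg.Geo.omegaGL ⇑Q)
      (Cfsg.Geo.decompositionStabilizer D ⊓ Cfsg.Geo.omegaGL ⇑Q) := by
  classical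
  constructor
  · rw [SetLike.lt_iff_le_and_exists]
    refine ⟨inf_le_right, ?_⟩
    obtain ⟨g, hg, hgs⟩ := hD.exists_not_stab hQ hn hk ht
    exact ⟨(g : Matrix.GeneralLinearGroup ι F), coe_mem_omegaGL Q hg, fun h => hgs h.1⟩
  · intro M hPM hMK
    by_cases hMP : M ≤ Cfsg.Geo.decompositionStabilizer D ⊓ Cfsg.Geo.omegaGL ⇑Q
    · left; exact le_antisymm hMP hPM
    right
    apply le_antisymm hMK
    obtain ⟨x, hxM, hxP⟩ := SetLike.not_le_iff_exists.mp hMP
    obtain ⟨g, hg, rfl⟩ := exists_of_mem_omegaGL Q (hMK hxM)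
    have hHle : M.comap (isometryGroup F ⇑Q).subtype ≤ commutator ↥(isometryGroup F ⇑Q) := by
      intro k' hk'
      obtain ⟨k'', hk'', hkk⟩ := exists_of_mem_omegaGL Q (hMK hk')
      have : k'' = k' := Subtype.ext hkk
      rw [← this]; exact hk''
    have hcont : ContainsOD Q (M.comap (isometryGroup F ⇑Q).subtype) D := by
      intro g' hg' hst
      exact hPM ⟨hst, coe_mem_omegaGL Q hg'⟩
    have key := hD.le_of_not_stab hQ h2 hodd hn hk hex hHle hcont g hxM
      (fun h => hxP ⟨h, coe_mem_omegaGL Q hg⟩)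
    intro y hy
    obtain ⟨g', hg', rfl⟩ := exists_of_mem_omegaGL Q hy
    exact key hg'

end Final

end Cfsg.Agent.Lib.Helper18.OD
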