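import Mathlib

/-!
Nondegenerate symmetric bilinear forms over a finite field of odd order (helper18):
existence of nonsingular vectors in large subspaces, and of singular vectors with prescribed
inner products against an independent family.
-/

set_option autoImplicit false

namespace Cfsg.Agent.Lib.Helper18

open Module Polynomial

section QuadFin

variable {K : Type*} [Field K] {E : Type*} [AddCommGroup E] [Module K E]
  [FiniteDimensional K E] (B : LinearMap.BilinForm K E)

/-- a subspace of more than half the dimension contains a nonsingular vector -/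
theorem qf_exists_nonsing (hB : B.Nondegenerate) (hs : B.IsSymm) (h2 : (2 : K) ≠ 0)
    (W : Submodule K E) (hW : finrank K E < 2 * finrank K W) : ∃ w ∈ W, B w w ≠ 0 := by
  by_contra hcon
  push Not at hcon
  have hle : W ≤ B.orthogonal W := by
    intro x hx
    rw [LinearMap.BilinForm.mem_orthogonal_iff]
    intro y hy
    have h1 := hcon (x + y) (W.add_mem hx hy)
    simp only [map_add, LinearMap.add_apply] at h1
    rw [hcon x hx, hcon y hy, hs.eq x y] at h1
    have h3 : (2 : K) * B y x = 0 := by linear_combination h1
    exact (mul_eq_zero.mp h3).resolve_left h2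
  have h4 := Submodule.finrank_mono hle
  have h5 := LinearMap.BilinForm.finrank_orthogonal hB W
  have h6 := Submodule.finrank_le W
  omega

/-- prescribed inner products against an independent family -/
theorem qf_exists_dual (hB : B.Nondegenerate) (hs : B.IsSymm) {k : ℕ} (v : Fin k → E)
    (hv : LinearIndependent K v) (p : Fin k → K) : ∃ c, ∀ i, B c (v i) = p i := by
  obtain ⟨Φ, hΦ⟩ : ∃ Φ : E →ₗ[K] (Fin k → K), ∀ c i, Φ c i = B c (v i) :=
    ⟨LinearMap.pi (fun i => B.flip (v i)), fun c i => rfl⟩
  have hker : LinearMap.ker Φ ≤ B.orthogonal (Submodule.span K (Set.range v)) := by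
    intro c hc
    rw [LinearMap.mem_ker] at hc
    rw [LinearMap.BilinForm.mem_orthogonal_iff]
    intro m hm
    refine Submodule.span_induction ?_ ?_ ?_ ?_ hm
    · rintro _ ⟨i, rfl⟩
      rw [hs.eq, ← hΦ, hc]
      rfl
    · simp
    · intro x y _ _ hx hy
      rw [map_add, LinearMap.add_apply, hx, hy, add_zero]
    · intro a x _ hx
      rw [map_smul, LinearMap.smul_apply, hx, smul_zero]
  have h1 := Submodule.finrank_mono hker
  have h2 := LinearMap.BilinForm.finrank_orthogonal hB (Submodule.span K (Set.range v))
  have h3 : finrank K (Submodule.span K (Set.range v)) = k := by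
    rw [finrank_span_eq_card hv, Fintype.card_fin]
  have h4 := LinearMap.finrank_range_add_finrank_ker Φ
  have h5 : finrank K (LinearMap.range Φ) ≤ k := by
    have := Submodule.finrank_le (LinearMap.range Φ)
    rwa [Module.finrank_fin_fun] at this
  have h6 := Submodule.finrank_le (Submodule.span K (Set.range v))
  have h7 : LinearMap.range Φ = ⊤ := by
    apply Submodule.eq_top_of_finrank_eq
    rw [Module.finrank_fin_fun]
    omega
  obtain ⟨c, hc⟩ := LinearMap.range_eq_top.mp h7 p
  exact ⟨c, fun i => by rw [← hΦ, hc]⟩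

/-- a nonsingular vector orthogonal to a small family -/
theorem qf_exists_nonsing_perp (hB : B.Nondegenerate) (hs : B.IsSymm) (h2 : (2 : K) ≠ 0)
    {k : ℕ} (v : Fin k → E) (hk : 2 * k < finrank K E) :
    ∃ w, B w w ≠ 0 ∧ ∀ i, B w (v i) = 0 := by
  have h1 := LinearMap.BilinForm.finrank_orthogonal hB (Submodule.span K (Set.range v))
  have h3 : finrank K (Submodule.span K (Set.range v)) ≤ k := by
    have := finrank_range_le_card (R := K) v
    rwa [Fintype.card_fin] at this
  obtain ⟨w, hwU, hw⟩ := qf_exists_nonsing B hB hs h2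
    (B.orthogonal (Submodule.span K (Set.range v))) (by omega)
  refine ⟨w, hw, fun i => ?_⟩
  rw [hs.eq]
  exact hwU (v i) (Submodule.subset_span ⟨i, rfl⟩)

variable [Fintype K]

theorem qf_two_ne_zero (hodd : Fintype.card K % 2 = 1) : (2 : K) ≠ 0 := by
  intro h
  have h1 : ringChar K = 2 := CharP.ringChar_of_prime_eq_zero Nat.prime_two h
  have h2 := FiniteField.even_card_of_char_two h1
  omega

/-- a singular vector with prescribed inner products against an independent family -/
theorem qf_exists_sing (hB : B.Nondegenerate) (hs : B.IsSymm) (hodd : Fintype.card K % 2 = 1)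
    {k : ℕ} (v : Fin k → E) (hv : LinearIndependent K v) (p : Fin k → K)
    (hk : 2 * k + 3 ≤ finrank K E) : ∃ c, B c c = 0 ∧ ∀ i, B c (v i) = p i := by
  have h2 := qf_two_ne_zero hodd
  obtain ⟨c0, hc0⟩ := qf_exists_dual B hB hs v hv p
  have hU := LinearMap.BilinForm.finrank_orthogonal hB (Submodule.span K (Set.range v))
  have hk' : finrank K (Submodule.span K (Set.range v)) = k := by
    rw [finrank_span_eq_card hv, Fintype.card_fin]
  obtain ⟨w1, hw1U, hw1⟩ := qf_exists_nonsing B hB hs h2
    (B.orthogonal (Submodule.span K (Set.range v))) (by omega)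
  have hU' := LinearMap.BilinForm.finrank_orthogonal hB (Submodule.span K {w1})
  have h1 : finrank K (Submodule.span K {w1}) ≤ 1 := by
    have := finrank_span_le_card (R := K) ({w1} : Set E)
    simpa using this
  have hinf := Submodule.finrank_sup_add_finrank_inf_eq
    (B.orthogonal (Submodule.span K (Set.range v))) (B.orthogonal (Submodule.span K {w1}))
  have hsup := Submodule.finrank_le (B.orthogonal (Submodule.span K (Set.range v)) ⊔
    B.orthogonal (Submodule.span K {w1}))
  obtain ⟨w2, hw2U, hw2⟩ := qf_exists_nonsing B hB hs h2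
    (B.orthogonal (Submodule.span K (Set.range v)) ⊓ B.orthogonal (Submodule.span K {w1}))
    (by omega)
  have h12 : B w1 w2 = 0 := hw2U.2 w1 (Submodule.mem_span_singleton_self w1)
  have h21 : B w2 w1 = 0 := by rw [hs.eq]; exact h12
  have hf : degree (C (B w1 w1) * X ^ 2 + C (2 * B c0 w1) * X + C (B c0 c0)) = 2 :=
    degree_quadratic hw1
  have hg : degree (C (B w2 w2) * X ^ 2 + C (2 * B c0 w2) * X + C (0 : K)) = 2 :=
    degree_quadratic hw2
  obtain ⟨x1, x2, hx⟩ := FiniteField.exists_root_sum_quadratic hf hg hodd
  simp only [eval_add, eval_mul, eval_C, eval_pow, eval_X] at hx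
  have hwv : ∀ (w : E), w ∈ B.orthogonal (Submodule.span K (Set.range v)) → ∀ i,
      B w (v i) = 0 := by
    intro w hw i
    rw [hs.eq]
    exact hw (v i) (Submodule.subset_span ⟨i, rfl⟩)
  refine ⟨c0 + x1 • w1 + x2 • w2, ?_, fun i => ?_⟩
  · simp only [map_add, map_smul, LinearMap.add_apply, LinearMap.smul_apply, smul_eq_mul]
    rw [h12, h21, hs.eq w1 c0, hs.eq w2 c0]
    linear_combination hx
  · simp only [map_add, map_smul, LinearMap.add_apply, LinearMap.smul_apply, smul_eq_mul]
    rw [hc0, hwv w1 hw1U, hwv w2 hw2U.1]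
    ring

end QuadFin

end Cfsg.Agent.Lib.Helper18
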