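import Mathlib
import Cfsg.Prelude.Def_GeometricClasses
import Cfsg.Prelude.Def_ClassicalGeometry
import Cfsg.Agent.Lib.Helper44.SubfUnitary
import Cfsg.Agent.Lib.Helper18.Unitary
import Cfsg.Agent.Lib.Helper18.UnitaryTv
import Cfsg.Agent.Lib.Helper18.QuadFin

/-!
Orthogonal rational structures in a unitary space (helper18), part A.

`F` has `q^2` elements, `q` odd, `F₀` is the subfield with `q` elements and `P ∈ GL_n(F)` is such
that the standard hermitian form is `F₀`-valued on the `F₀`-span `V₀` of the columns of `P`.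
Then the form restricts to a nondegenerate symmetric bilinear form on `V₀`; we set up this form
(`OD.form`), the decomposition `z = a + θ b` of vectors (`θ^q = -θ`), and the elements of the
subfield group we need: rational Siegel elements and products of two rational reflections.
-/

set_option autoImplicit false
set_option linter.unusedSectionVars false
set_option linter.unusedVariables false

namespace Cfsg.Agent.Lib.Helper18

open Matrix Module Cfsg.Agent.Lib.Helper7

section OrthSubfA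

variable {F : Type*} [Field F] [Fintype F] {q n : ℕ} {F₀ : Subfield F} {P : GL (Fin n) F}

/-- coordinatewise inclusion of `F₀^n` in `F^n` -/
def cv (u : Fin n → F₀) : Fin n → F := fun i => (u i : F)

theorem cv_add (u v : Fin n → F₀) : cv (u + v) = cv u + cv v := by
  funext i; simp [cv]

theorem cv_smul (c : F₀) (u : Fin n → F₀) : cv (c • u) = (c : F) • cv u := by
  funext i; simp [cv]

theorem cv_ratV (u : Fin n → F₀) : Cfsg.Agent.Lib.Helper44.RatV F₀ (cv u) := fun i => (u i).2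

theorem cv_inj {u v : Fin n → F₀} (h : cv u = cv v) : u = v := by
  funext i
  exact Subtype.ext (congrFun h i)

theorem exists_cv (w : Fin n → F) (hw : Cfsg.Agent.Lib.Helper44.RatV F₀ w) :
    ∃ u : Fin n → F₀, cv u = w := ⟨fun i => ⟨w i, hw i⟩, rfl⟩

/-- the rational vector with `P`-coordinates `u` -/
def rv (P : GL (Fin n) F) (u : Fin n → F₀) : Fin n → F :=
  (P : Matrix (Fin n) (Fin n) F) *ᵥ cv u

theorem rv_add (u v : Fin n → F₀) : rv P (u + v) = rv P u + rv P v := by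
  unfold rv; rw [cv_add, Matrix.mulVec_add]

theorem rv_smul (c : F₀) (u : Fin n → F₀) : rv P (c • u) = (c : F) • rv P u := by
  unfold rv; rw [cv_smul, Matrix.mulVec_smul]

theorem rv_zero : rv P (0 : Fin n → F₀) = 0 := by
  have h := rv_smul (P := P) (0 : F₀) (0 : Fin n → F₀)
  rw [zero_smul] at h
  rw [h]; simp

theorem rv_neg (u : Fin n → F₀) : rv P (-u) = -rv P u := by
  have h := rv_smul (P := P) (-1 : F₀) u
  rw [neg_one_smul] at h
  rw [h]; simp

theorem rv_sub (u v : Fin n → F₀) : rv P (u - v) = rv P u - rv P v := by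
  rw [sub_eq_add_neg, rv_add, rv_neg, sub_eq_add_neg]

theorem gl_inv_mulVec (g : GL (Fin n) F) (z : Fin n → F) :
    ((g⁻¹ : GL (Fin n) F) : Matrix (Fin n) (Fin n) F) *ᵥ
      ((g : Matrix (Fin n) (Fin n) F) *ᵥ z) = z := by
  rw [Matrix.mulVec_mulVec, ← Units.val_mul, inv_mul_cancel, Units.val_one, Matrix.one_mulVec]

theorem gl_mulVec_inv (g : GL (Fin n) F) (z : Fin n → F) :
    (g : Matrix (Fin n) (Fin n) F) *ᵥ
      (((g⁻¹ : GL (Fin n) F) : Matrix (Fin n) (Fin n) F) *ᵥ z) = z := by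
  rw [Matrix.mulVec_mulVec, ← Units.val_mul, mul_inv_cancel, Units.val_one, Matrix.one_mulVec]

theorem rv_inj {u v : Fin n → F₀} (h : rv P u = rv P v) : u = v := by
  apply cv_inj
  have h1 := congrArg (fun z => ((P⁻¹ : GL (Fin n) F) : Matrix (Fin n) (Fin n) F) *ᵥ z) h
  simp only [rv, gl_inv_mulVec] at h1
  exact h1

/-- the data of an orthogonal rational structure -/
structure OD (F : Type*) [Field F] [Fintype F] (q n : ℕ) (F₀ : Subfield F)
    (P : GL (Fin n) F) : Prop where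
  hF : Fintype.card F = q ^ 2
  hcard : Fintype.card F = Nat.card F₀ ^ 2
  hodd : Odd q
  hP : Cfsg.Geo.IsFormRationalStructure (Cfsg.hermForm n F q) F₀ 1 P

theorem OD.mem_iff (D : OD F q n F₀ P) (c : F) : c ∈ F₀ ↔ c ^ q = c :=
  Cfsg.Agent.Lib.Helper44.mem_subfield_iff D.hF F₀ D.hcard c

theorem OD.coe_pow (D : OD F q n F₀ P) (c : F₀) : (c : F) ^ q = c := (D.mem_iff c).1 c.2

theorem OD.two_ne (D : OD F q n F₀ P) : (2 : F) ≠ 0 := by
  intro h
  have h1 : ringChar F = 2 := CharP.ringChar_of_prime_eq_zero Nat.prime_two h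
  have h2 := FiniteField.even_card_of_char_two h1
  have h3 : Odd (q ^ 2) := D.hodd.pow
  rw [D.hF] at h2
  rw [Nat.odd_iff] at h3
  omega

theorem OD.two_mem (D : OD F q n F₀ P) : (2 : F) ∈ F₀ := by
  have h := F₀.add_mem F₀.one_mem F₀.one_mem
  rwa [one_add_one_eq_two] at h

theorem OD.two_ne₀ (D : OD F q n F₀ P) : (2 : F₀) ≠ 0 := by
  intro h
  apply D.two_ne
  have h1 : ((1 + 1 : F₀) : F) = 0 := by
    have : (1 + 1 : F₀) = 0 := by rw [one_add_one_eq_two]; exact h
    rw [this]; rfl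
  have h2 : ((1 + 1 : F₀) : F) = 2 := by push_cast; norm_num
  rw [← h2]; exact h1

theorem OD.two_pow (D : OD F q n F₀ P) : (2 : F) ^ q = 2 := (D.mem_iff 2).1 D.two_mem

theorem OD.rat (D : OD F q n F₀ P) (u v : Fin n → F₀) :
    Cfsg.hermForm n F q (rv P u) (rv P v) ∈ F₀ := by
  have := D.hP (cv u) (cv v) (cv_ratV u) (cv_ratV v)
  rwa [one_mul] at this

/-- the symmetric bilinear form on the rational structure -/
noncomputable def OD.form (D : OD F q n F₀ P) : LinearMap.BilinForm F₀ (Fin n → F₀) :=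
  LinearMap.mk₂ F₀ (fun u v => (⟨Cfsg.hermForm n F q (rv P u) (rv P v), D.rat u v⟩ : F₀))
    (fun u u' v => Subtype.ext (by
      show Cfsg.hermForm n F q (rv P (u + u')) (rv P v) = _
      rw [rv_add, hf_add_left]; rfl))
    (fun c u v => Subtype.ext (by
      show Cfsg.hermForm n F q (rv P (c • u)) (rv P v) = _
      rw [rv_smul, hf_smul_left]; rfl))
    (fun u v v' => Subtype.ext (by
      show Cfsg.hermForm n F q (rv P u) (rv P (v + v')) = _
      rw [rv_add, hf_add_right D.hF]; rfl))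
    (fun c u v => Subtype.ext (by
      show Cfsg.hermForm n F q (rv P u) (rv P (c • v)) = _
      rw [rv_smul, hf_smul_right, D.coe_pow]; rfl))

theorem OD.form_apply (D : OD F q n F₀ P) (u v : Fin n → F₀) :
    ((D.form u v : F₀) : F) = Cfsg.hermForm n F q (rv P u) (rv P v) := rfl

theorem OD.form_symm (D : OD F q n F₀ P) : D.form.IsSymm := by
  refine ⟨fun u v => Subtype.ext ?_⟩
  rw [D.form_apply, D.form_apply, hf_conj D.hF n (rv P v) (rv P u)]
  exact (D.mem_iff _).1 (D.rat v u)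

theorem OD.sym (D : OD F q n F₀ P) (u v : Fin n → F₀) : D.form u v = D.form v u :=
  D.form_symm.eq u v

/-- a generator `θ` of `F` over `F₀` with `θ^q = -θ` -/
theorem OD.exists_th (D : OD F q n F₀ P) :
    ∃ θ : F, Cfsg.Agent.Lib.Helper44.IsTheta F₀ θ ∧ θ ^ q = -θ := by
  obtain ⟨θ', hθ'⟩ := Cfsg.Agent.Lib.Helper44.exists_theta F₀ D.hcard
  have h2 := D.two_ne
  have hne : θ' - θ' ^ q ≠ 0 := by
    intro h
    apply hθ'.notin
    rw [D.mem_iff]
    exact (sub_eq_zero.mp h).symm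
  have hconj : (θ' - θ' ^ q) ^ q = -(θ' - θ' ^ q) := by
    rw [herm_sub_pow D.hF, herm_pow_pow D.hF]; ring
  refine ⟨θ' - θ' ^ q, ⟨?_, ?_⟩, hconj⟩
  · intro hmem
    rw [D.mem_iff, hconj] at hmem
    apply hne
    have : (2 : F) * (θ' - θ' ^ q) = 0 := by linear_combination -hmem
    exact (mul_eq_zero.mp this).resolve_left h2
  · intro c
    refine ⟨(c + c ^ q) / 2, ?_, (c - c ^ q) / (2 * (θ' - θ' ^ q)), ?_, ?_⟩
    · rw [D.mem_iff, div_pow, herm_add_pow D.hF, herm_pow_pow D.hF, D.two_pow]; ring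
    · rw [D.mem_iff, div_pow, mul_pow, herm_sub_pow D.hF, herm_pow_pow D.hF, D.two_pow, hconj]
      field_simp
      ring
    · field_simp
      ring

theorem OD.dec (D : OD F q n F₀ P) {θ : F} (hθ : Cfsg.Agent.Lib.Helper44.IsTheta F₀ θ)
    (z : Fin n → F) : ∃ a b : Fin n → F₀, z = rv P a + θ • rv P b := by
  obtain ⟨a', b', ha', hb', h⟩ :=
    hθ.vec_dec (((P⁻¹ : GL (Fin n) F) : Matrix (Fin n) (Fin n) F) *ᵥ z)
  obtain ⟨a, rfl⟩ := exists_cv a' ha'
  obtain ⟨b, rfl⟩ := exists_cv b' hb'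
  refine ⟨a, b, ?_⟩
  have h1 := congrArg (fun w => (P : Matrix (Fin n) (Fin n) F) *ᵥ w) h
  simp only [gl_mulVec_inv, Matrix.mulVec_add, Matrix.mulVec_smul] at h1
  exact h1

theorem OD.hl (D : OD F q n F₀ P) (θ : F) (a b c : Fin n → F₀) :
    Cfsg.hermForm n F q (rv P a + θ • rv P b) (rv P c) =
      (D.form a c : F) + θ * (D.form b c : F) := by
  rw [hf_add_left, hf_smul_left, ← D.form_apply, ← D.form_apply]

theorem OD.hr (D : OD F q n F₀ P) {θ : F} (hθ : θ ^ q = -θ) (a b c : Fin n → F₀) :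
    Cfsg.hermForm n F q (rv P c) (rv P a + θ • rv P b) =
      (D.form c a : F) - θ * (D.form c b : F) := by
  rw [hf_add_right D.hF, hf_smul_right, hθ, ← D.form_apply, ← D.form_apply]
  ring

theorem OD.split (D : OD F q n F₀ P) {θ : F} (hθ : Cfsg.Agent.Lib.Helper44.IsTheta F₀ θ)
    (x y : F₀) (h : (x : F) + θ * (y : F) = 0) : x = 0 ∧ y = 0 := by
  obtain ⟨h1, h2⟩ := hθ.unique x.2 y.2 h
  exact ⟨Subtype.ext h1, Subtype.ext h2⟩

theorem OD.rv_split (D : OD F q n F₀ P) {θ : F} (hθ : Cfsg.Agent.Lib.Helper44.IsTheta F₀ θ)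
    (a b : Fin n → F₀) (h : rv P a + θ • rv P b = 0) : a = 0 ∧ b = 0 := by
  have h1 := congrArg (fun w => ((P⁻¹ : GL (Fin n) F) : Matrix (Fin n) (Fin n) F) *ᵥ w) h
  simp only [rv, Matrix.mulVec_add, Matrix.mulVec_smul, gl_inv_mulVec, Matrix.mulVec_zero] at h1
  obtain ⟨h2, h3⟩ := hθ.vec_unique (cv_ratV a) (cv_ratV b) h1
  exact ⟨cv_inj (by rw [h2]; rfl), cv_inj (by rw [h3]; rfl)⟩

theorem OD.form_nondeg (D : OD F q n F₀ P) : D.form.Nondegenerate := by
  obtain ⟨θ, hθ, hθq⟩ := D.exists_th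
  have key : ∀ x : Fin n → F₀, (∀ y, D.form x y = 0) → x = 0 := by
    intro x hx
    apply rv_inj (P := P)
    rw [rv_zero]
    apply herm_nondeg D.hF
    intro z
    obtain ⟨a, b, rfl⟩ := D.dec hθ z
    rw [D.hl, D.sym a x, D.sym b x, hx, hx]
    simp
  refine ⟨key, ?_⟩
  intro y hy
  exact key y (fun x => by rw [D.sym]; exact hy x)

theorem OD.card₀ (D : OD F q n F₀ P) [Fintype F₀] : Fintype.card F₀ % 2 = 1 := by
  have h := Cfsg.Agent.Lib.Helper44.card_subfield D.hF F₀ D.hcard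
  rw [Nat.card_eq_fintype_card] at h
  rw [h]
  exact Nat.odd_iff.mp D.hodd

theorem OD.ex1 (D : OD F q n F₀ P) (hn : 9 ≤ n) (a : Fin n → F₀) (ha : a ≠ 0) (p : F₀) :
    ∃ c, D.form c c = 0 ∧ D.form c a = p := by
  classical
  have : Fintype F₀ := Fintype.ofFinite _
  have hli : LinearIndependent F₀ ![a] := by
    rw [linearIndependent_unique_iff]
    exact ha
  obtain ⟨c, hc, hc'⟩ := qf_exists_sing D.form D.form_nondeg D.form_symm D.card₀ ![a] hli ![p]
    (by rw [Module.finrank_fin_fun]; omega)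
  exact ⟨c, hc, hc' 0⟩

theorem OD.ex2 (D : OD F q n F₀ P) (hn : 9 ≤ n) (a b : Fin n → F₀)
    (hli : LinearIndependent F₀ ![a, b]) (p r : F₀) :
    ∃ c, D.form c c = 0 ∧ D.form c a = p ∧ D.form c b = r := by
  classical
  have : Fintype F₀ := Fintype.ofFinite _
  obtain ⟨c, hc, hc'⟩ := qf_exists_sing D.form D.form_nondeg D.form_symm D.card₀ ![a, b] hli
    ![p, r] (by rw [Module.finrank_fin_fun]; omega)
  exact ⟨c, hc, hc' 0, hc' 1⟩

theorem OD.ex3 (D : OD F q n F₀ P) (hn : 9 ≤ n) (a b d : Fin n → F₀)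
    (hli : LinearIndependent F₀ ![a, b, d]) (p r s : F₀) :
    ∃ c, D.form c c = 0 ∧ D.form c a = p ∧ D.form c b = r ∧ D.form c d = s := by
  classical
  have : Fintype F₀ := Fintype.ofFinite _
  obtain ⟨c, hc, hc'⟩ := qf_exists_sing D.form D.form_nondeg D.form_symm D.card₀ ![a, b, d] hli
    ![p, r, s] (by rw [Module.finrank_fin_fun]; omega)
  exact ⟨c, hc, hc' 0, hc' 1, hc' 2⟩

theorem OD.exns2 (D : OD F q n F₀ P) (hn : 9 ≤ n) (a b : Fin n → F₀) :
    ∃ w, D.form w w ≠ 0 ∧ D.form w a = 0 ∧ D.form w b = 0 := by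
  obtain ⟨w, hw, hw'⟩ := qf_exists_nonsing_perp D.form D.form_nondeg D.form_symm D.two_ne₀
    ![a, b] (by rw [Module.finrank_fin_fun]; omega)
  exact ⟨w, hw, hw' 0, hw' 1⟩

theorem OD.exns3 (D : OD F q n F₀ P) (hn : 9 ≤ n) (a b d : Fin n → F₀) :
    ∃ w, D.form w w ≠ 0 ∧ D.form w a = 0 ∧ D.form w b = 0 ∧ D.form w d = 0 := by
  obtain ⟨w, hw, hw'⟩ := qf_exists_nonsing_perp D.form D.form_nondeg D.form_symm D.two_ne₀
    ![a, b, d] (by rw [Module.finrank_fin_fun]; omega)
  exact ⟨w, hw, hw' 0, hw' 1, hw' 2⟩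

/-- a vector `a + θ b` which is not a multiple of a rational vector has `a`, `b` independent -/
theorem OD.indep_of_nr (D : OD F q n F₀ P) {θ : F} (a b : Fin n → F₀)
    (h : ∀ (c : F) (r : Fin n → F₀), rv P a + θ • rv P b ≠ c • rv P r) :
    LinearIndependent F₀ ![a, b] := by
  rw [LinearIndependent.pair_iff]
  intro s t hst
  by_contra hcon
  by_cases ht : t = 0
  · subst ht
    have hs : s ≠ 0 := fun hs => hcon ⟨hs, rfl⟩
    have ha : a = 0 := by
      rw [zero_smul, add_zero] at hst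
      exact (smul_eq_zero.mp hst).resolve_left hs
    exact h θ b (by rw [ha, rv_zero, zero_add])
  · have h1 : t • b = -(s • a) := eq_neg_of_add_eq_zero_right hst
    have hb : b = (-(s / t)) • a := by
      have h2 : b = t⁻¹ • (t • b) := by rw [smul_smul, inv_mul_cancel₀ ht, one_smul]
      rw [h2, h1, smul_neg, smul_smul, ← neg_smul]
      congr 1
      field_simp
    exact h (1 + θ * ((-(s / t) : F₀) : F)) a (by
      rw [hb, rv_smul, add_smul, one_smul, mul_smul])

/-! ### Elements of the subfield group -/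

/-- the subfield group inside `SU_n(q)` -/
abbrev OH (F₀ : Subfield F) (P : GL (Fin n) F) (q : ℕ) : Subgroup (GL (Fin n) F) :=
  Cfsg.Geo.subfieldSubgroup F₀ P ⊓ (Cfsg.GU n F q ⊓ Cfsg.Geo.specialLinear (Fin n) F)

theorem subf_of_rv (t : GL (Fin n) F)
    (h : ∀ u : Fin n → F₀, ∃ u' : Fin n → F₀,
      (t : Matrix (Fin n) (Fin n) F) *ᵥ rv P u = rv P u') :
    t ∈ Cfsg.Geo.subfieldSubgroup F₀ P := by
  classical
  apply Cfsg.Agent.Lib.Helper44.mem_subfieldSubgroup_of_entries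
  intro i j
  obtain ⟨u', hu'⟩ := h (Pi.single j 1)
  have hcv : cv (Pi.single j (1 : F₀) : Fin n → F₀) = (Pi.single j (1 : F) : Fin n → F) := by
    funext l
    unfold cv
    by_cases hl : l = j
    · subst hl; simp
    · simp [Pi.single_eq_of_ne hl]
  have hcol : ((P⁻¹ * t * P : GL (Fin n) F) : Matrix (Fin n) (Fin n) F) *ᵥ Pi.single j 1
      = cv u' := by
    rw [Units.val_mul, Units.val_mul, ← Matrix.mulVec_mulVec, ← Matrix.mulVec_mulVec, ← hcv]
    have h1 : (P : Matrix (Fin n) (Fin n) F) *ᵥ cv (Pi.single j (1 : F₀) : Fin n → F₀) =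
        rv P (Pi.single j 1) := rfl
    rw [h1, hu']
    exact gl_inv_mulVec P (cv u')
  have hij := congrFun hcol i
  rw [Matrix.mulVec_single_one] at hij
  have : ((P⁻¹ * t * P : GL (Fin n) F) : Matrix (Fin n) (Fin n) F) i j = cv u' i := hij
  rw [this]
  exact (u' i).2

theorem OD.form_zero_iff (D : OD F q n F₀ P) (u v : Fin n → F₀) :
    D.form u v = 0 ↔ Cfsg.hermForm n F q (rv P u) (rv P v) = 0 := by
  rw [← D.form_apply]
  constructor
  · intro h; rw [h]; rfl
  · intro h; exact Subtype.ext h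

/-- rational Siegel elements lie in the subfield group -/
theorem OD.siegel_mem (D : OD F q n F₀ P) (u w : Fin n → F₀) (huu : D.form u u = 0)
    (hwu : D.form w u = 0) :
    ∃ (a : F₀) (t : GL (Fin n) F),
      (t : Matrix (Fin n) (Fin n) F) = heis q n (rv P u) (rv P w) (a : F) ∧ t ∈ OH F₀ P q := by
  have hee := (D.form_zero_iff u u).1 huu
  have hwe := (D.form_zero_iff w u).1 hwu
  obtain ⟨a, ha⟩ : ∃ a : F₀, a = -(D.form w w) / 2 := ⟨_, rfl⟩
  have h0 : a + a + D.form w w = 0 := by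
    rw [ha]
    have := D.two_ne₀
    field_simp
    ring
  have h1 : (a : F) + (a : F) ^ q + Cfsg.hermForm n F q (rv P w) (rv P w) = 0 := by
    rw [D.coe_pow, ← D.form_apply]
    have := congrArg (fun x : F₀ => (x : F)) h0
    simpa using this
  have hdet := heis_det D.hF n (rv P u) (rv P w) (a : F) hee hwe
  refine ⟨a, Matrix.GeneralLinearGroup.mkOfDetNeZero (heis q n (rv P u) (rv P w) (a : F))
    (by rw [hdet]; exact one_ne_zero), rfl, ?_, ?_, ?_⟩
  · apply subf_of_rv
    intro z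
    refine ⟨z + D.form z u • w + (a * D.form z u - D.form z w) • u, ?_⟩
    show heis q n (rv P u) (rv P w) (a : F) *ᵥ rv P z = _
    rw [heis_mulVec, rv_add, rv_add, rv_smul, rv_smul]
    rfl
  · intro x y
    exact heis_preserves D.hF n (rv P u) (rv P w) (a : F) hee hwe h1 x y
  · exact (Cfsg.Agent.Lib.Helper97.mem_specialLinear_iff _).2 hdet

/-- the reflection in a rational nonsingular vector -/
noncomputable def OD.rmat (D : OD F q n F₀ P) (w : Fin n → F₀) : Matrix (Fin n) (Fin n) F :=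
  1 - (2 / (D.form w w : F)) • hrk q n (rv P w) (rv P w)

theorem OD.rmat_mulVec (D : OD F q n F₀ P) (w : Fin n → F₀) (z : Fin n → F) :
    D.rmat w *ᵥ z = z - (2 / (D.form w w : F) * Cfsg.hermForm n F q z (rv P w)) • rv P w := by
  unfold OD.rmat
  rw [Matrix.sub_mulVec, Matrix.one_mulVec, Matrix.smul_mulVec, hrk_mulVec, smul_smul]

theorem OD.rmat_pres (D : OD F q n F₀ P) (w : Fin n → F₀) (hw : D.form w w ≠ 0)
    (x y : Fin n → F) :
    Cfsg.hermForm n F q (D.rmat w *ᵥ x) (D.rmat w *ᵥ y) = Cfsg.hermForm n F q x y := by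
  have hw' : (D.form w w : F) ≠ 0 := fun h => hw (Subtype.ext h)
  rw [D.rmat_mulVec, D.rmat_mulVec]
  simp only [hf_sub_left, hf_sub_right D.hF, hf_smul_left, hf_smul_right]
  rw [mul_pow, div_pow, D.two_pow, D.coe_pow, ← hf_conj D.hF n y (rv P w), ← D.form_apply]
  field_simp
  ring

theorem OD.rmat_det (D : OD F q n F₀ P) (w : Fin n → F₀) (hw : D.form w w ≠ 0) :
    (D.rmat w).det = -1 := by
  have hw' : (D.form w w : F) ≠ 0 := fun h => hw (Subtype.ext h)
  have h1 : D.rmat w = 1 + Matrix.vecMulVec ((-(2 / (D.form w w : F))) • rv P w)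
      (fun j => rv P w j ^ q) := by
    unfold OD.rmat hrk
    rw [neg_smul, Matrix.neg_vecMulVec, Matrix.smul_vecMulVec, sub_eq_add_neg]
  rw [h1, det_one_add_vecMulVec']
  have h2 : (fun j => rv P w j ^ q) ⬝ᵥ ((-(2 / (D.form w w : F))) • rv P w) =
      (-(2 / (D.form w w : F))) * Cfsg.hermForm n F q (rv P w) (rv P w) := by
    simp only [dotProduct, Cfsg.hermForm, Pi.smul_apply, smul_eq_mul, Finset.mul_sum]
    refine Finset.sum_congr rfl fun j _ => ?_
    ring
  rw [h2, ← D.form_apply]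
  field_simp
  ring

theorem OD.rmat_rv (D : OD F q n F₀ P) (w z : Fin n → F₀) :
    D.rmat w *ᵥ rv P z = rv P (z - (2 / D.form w w * D.form z w) • w) := by
  rw [D.rmat_mulVec, rv_sub, rv_smul]
  congr 2

/-- products of two rational reflections lie in the subfield group -/
theorem OD.drefl_mem (D : OD F q n F₀ P) (w d : Fin n → F₀) (hw : D.form w w ≠ 0)
    (hd : D.form d d ≠ 0) :
    ∃ t : GL (Fin n) F,
      (t : Matrix (Fin n) (Fin n) F) = D.rmat w * D.rmat d ∧ t ∈ OH F₀ P q := by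
  have hdet : (D.rmat w * D.rmat d).det = 1 := by
    rw [Matrix.det_mul, D.rmat_det w hw, D.rmat_det d hd]; ring
  refine ⟨Matrix.GeneralLinearGroup.mkOfDetNeZero (D.rmat w * D.rmat d)
    (by rw [hdet]; exact one_ne_zero), rfl, ?_, ?_, ?_⟩
  · apply subf_of_rv
    intro z
    refine ⟨(z - (2 / D.form d d * D.form z d) • d) -
      (2 / D.form w w * D.form (z - (2 / D.form d d * D.form z d) • d) w) • w, ?_⟩
    show (D.rmat w * D.rmat d) *ᵥ rv P z = _
    rw [← Matrix.mulVec_mulVec, D.rmat_rv, D.rmat_rv]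
  · intro x y
    show Cfsg.hermForm n F q ((D.rmat w * D.rmat d) *ᵥ x) ((D.rmat w * D.rmat d) *ᵥ y) = _
    rw [← Matrix.mulVec_mulVec, ← Matrix.mulVec_mulVec, D.rmat_pres w hw, D.rmat_pres d hd]
  · exact (Cfsg.Agent.Lib.Helper97.mem_specialLinear_iff _).2 hdet

/-! ### Conjugates and commutators of Siegel elements -/

theorem heis_conj_mat (K : Matrix (Fin n) (Fin n) F)
    (hK : ∀ x y, Cfsg.hermForm n F q (K *ᵥ x) (K *ᵥ y) = Cfsg.hermForm n F q x y)
    (e w : Fin n → F) (a : F) :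
    K * heis q n e w a = heis q n (K *ᵥ e) (K *ᵥ w) a * K := by
  apply Matrix.mulVec_injective
  funext x
  rw [← Matrix.mulVec_mulVec, ← Matrix.mulVec_mulVec, heis_mulVec, heis_mulVec, hK, hK,
    Matrix.mulVec_add, Matrix.mulVec_add, Matrix.mulVec_smul, Matrix.mulVec_smul]

theorem conj_heis_GL (k X : GL (Fin n) F) (hk : k ∈ Cfsg.GU n F q) (e w : Fin n → F) (a : F)
    (hX : (X : Matrix (Fin n) (Fin n) F) = heis q n e w a) :
    ((k * X * k⁻¹ : GL (Fin n) F) : Matrix (Fin n) (Fin n) F) =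
      heis q n ((k : Matrix (Fin n) (Fin n) F) *ᵥ e) ((k : Matrix (Fin n) (Fin n) F) *ᵥ w) a := by
  rw [Units.val_mul, Units.val_mul, hX, heis_conj_mat (k : Matrix (Fin n) (Fin n) F)
    (fun x y => hk x y), mul_assoc, ← Units.val_mul, mul_inv_cancel, Units.val_one, mul_one]

theorem comm_heis_GL (hF : Fintype.card F = q ^ 2) (X Y : GL (Fin n) F) (e w w' : Fin n → F)
    (a a' : F) (hee : Cfsg.hermForm n F q e e = 0) (hwe : Cfsg.hermForm n F q w e = 0)
    (hwe' : Cfsg.hermForm n F q w' e = 0)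
    (hX : (X : Matrix (Fin n) (Fin n) F) = heis q n e w a)
    (hY : (Y : Matrix (Fin n) (Fin n) F) = heis q n e w' a') :
    ((X * Y * X⁻¹ * Y⁻¹ : GL (Fin n) F) : Matrix (Fin n) (Fin n) F) =
      Cfsg.unitaryTransvection n q e
        (Cfsg.hermForm n F q w w' - Cfsg.hermForm n F q w' w) := by
  have h1 : (X * Y * X⁻¹ * Y⁻¹) * (Y * X) = X * Y := by group
  have h2 : ((X * Y * X⁻¹ * Y⁻¹ : GL (Fin n) F) : Matrix (Fin n) (Fin n) F) *
      ((Y * X : GL (Fin n) F) : Matrix (Fin n) (Fin n) F) =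
      Cfsg.unitaryTransvection n q e
        (Cfsg.hermForm n F q w w' - Cfsg.hermForm n F q w' w) *
      ((Y * X : GL (Fin n) F) : Matrix (Fin n) (Fin n) F) := by
    rw [← Units.val_mul, h1, Units.val_mul, Units.val_mul, hX, hY,
      heis_mul hF n e w w' a a' hee hwe hwe', heis_mul hF n e w' w a' a hee hwe' hwe,
      transvection_mul_heis hF n e (w' + w) _ _ hee
        (by rw [hf_add_left, hwe, hwe', add_zero])]
    rw [add_comm w' w]
    congr 1
    ring
  have h3 := congrArg (fun A => A * (((Y * X)⁻¹ : GL (Fin n) F) : Matrix (Fin n) (Fin n) F)) h2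
  beta_reduce at h3
  rw [Matrix.mul_assoc, Matrix.mul_assoc, ← Units.val_mul, mul_inv_cancel, Units.val_one,
    Matrix.mul_one, Matrix.mul_one] at h3
  exact h3

theorem UC_zero (M : Subgroup (GL (Fin n) F)) :
    Cfsg.Agent.Lib.Helper44.UC n q M (0 : Fin n → F) := by
  intro b _ t ht
  have h1 : t = 1 := by
    apply Units.ext
    rw [ht]
    unfold Cfsg.unitaryTransvection
    ext i j
    simp
  rw [h1]
  exact M.one_mem

end OrthSubfA

end Cfsg.Agent.Lib.Helper18
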