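import Mathlib
import Cfsg.Prelude.Def_GeometricClasses
import Cfsg.Prelude.Def_ClassicalGeometry
import Cfsg.Agent.Lib.Helper18.OrthSubfA

/-!
Orthogonal rational structures in a unitary space (helper18), part B: the overgroup theorem.
A subgroup `M` of `SU_n(q)` properly containing the subfield group `H` of an orthogonal rational
structure contains every unitary transvection.
-/

set_option autoImplicit false
set_option linter.unusedSectionVars false
set_option linter.unusedVariables false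

namespace Cfsg.Agent.Lib.Helper18

open Matrix Module Cfsg.Agent.Lib.Helper7

section OrthSubfB

variable {F : Type*} [Field F] [Fintype F] {q n : ℕ} {F₀ : Subfield F} {P : GL (Fin n) F}

theorem gu_pres (g : GL (Fin n) F) (hg : g ∈ Cfsg.GU n F q) (u v : Fin n → F) :
    Cfsg.hermForm n F q ((g : Matrix (Fin n) (Fin n) F) *ᵥ u)
      ((g : Matrix (Fin n) (Fin n) F) *ᵥ v) = Cfsg.hermForm n F q u v :=
  (mem_GU_iff g).1 hg u v

/-- an element outside the subfield group moves some rational singular vector to a vector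
which is not a multiple of a rational vector -/
theorem OD.exists_moved (D : OD F q n F₀ P) (hn : 9 ≤ n) {θ : F}
    (hθ : Cfsg.Agent.Lib.Helper44.IsTheta F₀ θ) (g : GL (Fin n) F) (hgU : g ∈ Cfsg.GU n F q)
    (hg : g ∉ Cfsg.Geo.subfieldSubgroup F₀ P) :
    ∃ e : Fin n → F₀, D.form e e = 0 ∧ ∀ (c : F) (r : Fin n → F₀),
      (g : Matrix (Fin n) (Fin n) F) *ᵥ rv P e ≠ c • rv P r := by
  obtain ⟨u, hu, hnr⟩ := Cfsg.Agent.Lib.Helper44.exists_moved_rat F₀ hθ ⟨0, by omega⟩ P g hg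
  obtain ⟨u0, rfl⟩ := exists_cv u hu
  have hnr' : ∀ (c : F) (r : Fin n → F₀),
      (g : Matrix (Fin n) (Fin n) F) *ᵥ rv P u0 ≠ c • rv P r := by
    intro c r h
    apply hnr
    refine ⟨c, cv r, cv_ratV r, ?_⟩
    rw [Units.val_mul, Units.val_mul, ← Matrix.mulVec_mulVec, ← Matrix.mulVec_mulVec]
    have h1 : (P : Matrix (Fin n) (Fin n) F) *ᵥ cv u0 = rv P u0 := rfl
    rw [h1, h, Matrix.mulVec_smul]
    congr 1
    exact gl_inv_mulVec P (cv r)
  by_cases h0 : D.form u0 u0 = 0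
  · exact ⟨u0, h0, hnr'⟩
  · have hu0 : u0 ≠ 0 := by
      rintro rfl
      exact h0 (by simp)
    obtain ⟨s, hss, hsu⟩ := D.ex1 hn u0 hu0 1
    obtain ⟨t, ht⟩ : ∃ t : F₀, t = D.form u0 u0 / 2 := ⟨_, rfl⟩
    have h2 := D.two_ne₀
    have ht0 : t ≠ 0 := by rw [ht]; exact div_ne_zero h0 h2
    have hs1 : D.form (u0 - t • s) (u0 - t • s) = 0 := by
      simp only [map_sub, map_smul, LinearMap.sub_apply, LinearMap.smul_apply, smul_eq_mul]
      rw [hss, D.sym u0 s, hsu, ht]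
      field_simp
      ring
    have hs2 : D.form (t • s) (t • s) = 0 := by
      simp only [map_smul, LinearMap.smul_apply, smul_eq_mul]
      rw [hss]; ring
    have h12 : D.form (u0 - t • s) (t • s) = t := by
      simp only [map_sub, map_smul, LinearMap.sub_apply, LinearMap.smul_apply, smul_eq_mul]
      rw [hss, D.sym u0 s, hsu]
      ring
    by_contra hcon
    push Not at hcon
    obtain ⟨c1, r1, h1⟩ := hcon _ hs1
    obtain ⟨c2, r2, h2'⟩ := hcon _ hs2
    have hpres := gu_pres g hgU (rv P (u0 - t • s)) (rv P (t • s))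
    rw [h1, h2', hf_smul_left, hf_smul_right, ← D.form_apply, ← D.form_apply, h12] at hpres
    have ht0' : (t : F) ≠ 0 := fun h => ht0 (Subtype.ext h)
    have hc2 : c2 ≠ 0 := by
      rintro rfl
      rw [zero_pow (herm_q_ne_zero D.hF)] at hpres
      apply ht0'
      rw [← hpres]; ring
    have hB : (D.form r1 r2 : F) ≠ 0 := by
      intro h
      rw [h] at hpres
      apply ht0'
      rw [← hpres]; ring
    have hc2q : c2 ^ q ≠ 0 := pow_ne_zero q hc2
    have hlam : c1 / c2 ∈ F₀ := by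
      rw [D.mem_iff, div_pow]
      have h3 : c1 * c2 ^ q = (t : F) / (D.form r1 r2 : F) := by
        field_simp
        linear_combination hpres
      have h4 : (c1 * c2 ^ q) ^ q = c1 * c2 ^ q := by
        rw [h3, div_pow, D.coe_pow, D.coe_pow]
      rw [mul_pow, herm_pow_pow D.hF] at h4
      field_simp
      linear_combination h4
    obtain ⟨lam, hlam'⟩ : ∃ lam : F₀, (lam : F) = c1 / c2 := ⟨⟨_, hlam⟩, rfl⟩
    apply hnr' c2 (lam • r1 + r2)
    have hsum : rv P u0 = rv P (u0 - t • s) + rv P (t • s) := by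
      rw [← rv_add]
      congr 1
      abel
    rw [hsum, Matrix.mulVec_add, h1, h2', rv_add, rv_smul, smul_add, smul_smul, hlam']
    congr 2
    field_simp

/-- a centre from an element of `M` fixing a rational singular vector but not the rational
structure of its perp -/
theorem OD.centre_of_fix (D : OD F q n F₀ P) (M : Subgroup (GL (Fin n) F))
    (hHM : OH F₀ P q ≤ M) (k : GL (Fin n) F) (hkM : k ∈ M) (hkU : k ∈ Cfsg.GU n F q)
    (u a a' : Fin n → F₀) (huu : D.form u u = 0) (hau : D.form a u = 0)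
    (hau' : D.form a' u = 0)
    (hku : (k : Matrix (Fin n) (Fin n) F) *ᵥ rv P u = rv P u)
    (hne : Cfsg.hermForm n F q ((k : Matrix (Fin n) (Fin n) F) *ᵥ rv P a) (rv P a') -
      Cfsg.hermForm n F q (rv P a') ((k : Matrix (Fin n) (Fin n) F) *ᵥ rv P a) ≠ 0) :
    Cfsg.Agent.Lib.Helper44.UC n q M (rv P u) := by
  have hee := (D.form_zero_iff u u).1 huu
  obtain ⟨ca, X, hX, hXH⟩ := D.siegel_mem u a huu hau
  have hE1M : k * X * k⁻¹ ∈ M := M.mul_mem (M.mul_mem hkM (hHM hXH)) (M.inv_mem hkM)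
  have hE1 := conj_heis_GL k X hkU (rv P u) (rv P a) (ca : F) hX
  rw [hku] at hE1
  have hwe : Cfsg.hermForm n F q ((k : Matrix (Fin n) (Fin n) F) *ᵥ rv P a) (rv P u) = 0 := by
    have h1 : Cfsg.hermForm n F q ((k : Matrix (Fin n) (Fin n) F) *ᵥ rv P a) (rv P u) =
        Cfsg.hermForm n F q ((k : Matrix (Fin n) (Fin n) F) *ᵥ rv P a)
          ((k : Matrix (Fin n) (Fin n) F) *ᵥ rv P u) := by rw [hku]
    rw [h1, gu_pres k hkU]
    exact (D.form_zero_iff a u).1 hau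
  obtain ⟨b0, hb0⟩ : ∃ b0 : F, b0 = Cfsg.hermForm n F q
      ((k : Matrix (Fin n) (Fin n) F) *ᵥ rv P a) (rv P a') -
      Cfsg.hermForm n F q (rv P a') ((k : Matrix (Fin n) (Fin n) F) *ᵥ rv P a) := ⟨_, rfl⟩
  rw [← hb0] at hne
  have hb0q : b0 ^ q = -b0 := by
    rw [hb0, hf_conj D.hF n ((k : Matrix (Fin n) (Fin n) F) *ᵥ rv P a) (rv P a'),
      herm_sub_pow D.hF, herm_pow_pow D.hF]
    ring
  intro b hb tt htt
  have hbq : b ^ q = -b := by linear_combination hb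
  have ht0 : b / b0 ∈ F₀ := by
    rw [D.mem_iff, div_pow, hbq, hb0q, neg_div_neg_eq]
  obtain ⟨t, ht⟩ : ∃ t : F₀, (t : F) = b / b0 := ⟨⟨_, ht0⟩, rfl⟩
  obtain ⟨ct, Y, hY, hYH⟩ := D.siegel_mem u (t • a') huu (by
    rw [map_smul, LinearMap.smul_apply, hau', smul_zero])
  have hwe' : Cfsg.hermForm n F q (rv P (t • a')) (rv P u) = 0 :=
    (D.form_zero_iff (t • a') u).1 (by rw [map_smul, LinearMap.smul_apply, hau', smul_zero])
  have hT := comm_heis_GL D.hF (k * X * k⁻¹) Y (rv P u)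
    ((k : Matrix (Fin n) (Fin n) F) *ᵥ rv P a) (rv P (t • a')) (ca : F) (ct : F) hee hwe hwe'
    hE1 hY
  have hTM : (k * X * k⁻¹) * Y * (k * X * k⁻¹)⁻¹ * Y⁻¹ ∈ M :=
    M.mul_mem (M.mul_mem (M.mul_mem hE1M (hHM hYH)) (M.inv_mem hE1M)) (M.inv_mem (hHM hYH))
  have hpar : Cfsg.hermForm n F q ((k : Matrix (Fin n) (Fin n) F) *ᵥ rv P a) (rv P (t • a')) -
      Cfsg.hermForm n F q (rv P (t • a')) ((k : Matrix (Fin n) (Fin n) F) *ᵥ rv P a) = b := by
    rw [rv_smul, hf_smul_right, hf_smul_left, D.coe_pow, ← mul_sub, ← hb0, ht]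
    field_simp
  rw [hpar] at hT
  have : tt = (k * X * k⁻¹) * Y * (k * X * k⁻¹)⁻¹ * Y⁻¹ := Units.ext (by rw [htt, hT])
  rw [this]
  exact hTM

/-- a rational vector in `⟨u, x⟩^⊥` not orthogonal to a given non-isotropic `y ⊥ x` -/
theorem OD.exists_a (D : OD F q n F₀ P) {θ : F} (hθ : Cfsg.Agent.Lib.Helper44.IsTheta F₀ θ)
    (hθq : θ ^ q = -θ) (u a0 b0 : Fin n → F₀) (huu : D.form u u = 0) (hua : D.form u a0 = 0)
    (hub : D.form u b0 = 0)
    (hxx : Cfsg.hermForm n F q (rv P a0 + θ • rv P b0) (rv P a0 + θ • rv P b0) = 0)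
    (y : Fin n → F) (hyx : Cfsg.hermForm n F q y (rv P a0 + θ • rv P b0) = 0)
    (hyy : Cfsg.hermForm n F q y y ≠ 0) :
    ∃ a, D.form a u = 0 ∧ D.form a a0 = 0 ∧ D.form a b0 = 0 ∧
      Cfsg.hermForm n F q (rv P a) y ≠ 0 := by
  by_contra hcon
  push Not at hcon
  obtain ⟨a3, b3, hy⟩ := D.dec hθ y
  obtain ⟨W, hW⟩ : ∃ W : Submodule F₀ (Fin n → F₀),
      W = Submodule.span F₀ (Set.range ![u, a0, b0]) := ⟨_, rfl⟩
  have hperp : ∀ a, a ∈ D.form.orthogonal W →
      D.form a u = 0 ∧ D.form a a0 = 0 ∧ D.form a b0 = 0 := by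
    intro a ha
    rw [LinearMap.BilinForm.mem_orthogonal_iff] at ha
    have h0 := ha u (by rw [hW]; exact Submodule.subset_span ⟨0, rfl⟩)
    have h1 := ha a0 (by rw [hW]; exact Submodule.subset_span ⟨1, rfl⟩)
    have h2 := ha b0 (by rw [hW]; exact Submodule.subset_span ⟨2, rfl⟩)
    exact ⟨by rw [D.sym]; exact h0, by rw [D.sym]; exact h1, by rw [D.sym]; exact h2⟩
  have key : ∀ a, a ∈ D.form.orthogonal W → D.form a a3 = 0 ∧ D.form a b3 = 0 := by
    intro a ha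
    obtain ⟨h1, h2, h3⟩ := hperp a ha
    have h4 := hcon a h1 h2 h3
    rw [hy, D.hr hθq] at h4
    have h5 := D.split hθ (D.form a a3) (-(D.form a b3)) (by
      push_cast
      linear_combination h4)
    exact ⟨h5.1, neg_eq_zero.mp h5.2⟩
  have ha3 : a3 ∈ W := by
    rw [← LinearMap.BilinForm.orthogonal_orthogonal D.form_nondeg D.form_symm.isRefl W,
      LinearMap.BilinForm.mem_orthogonal_iff]
    intro m hm
    exact (key m hm).1
  have hb3 : b3 ∈ W := by
    rw [← LinearMap.BilinForm.orthogonal_orthogonal D.form_nondeg D.form_symm.isRefl W,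
      LinearMap.BilinForm.mem_orthogonal_iff]
    intro m hm
    exact (key m hm).2
  rw [hW, Submodule.mem_span_range_iff_exists_fun] at ha3 hb3
  obtain ⟨c, hc⟩ := ha3
  obtain ⟨c', hc'⟩ := hb3
  rw [Fin.sum_univ_three] at hc hc'
  simp only [Matrix.cons_val_zero, Matrix.cons_val_one, Matrix.cons_val_two,
    Matrix.head_cons, Matrix.tail_cons] at hc hc'
  obtain ⟨A, hA⟩ : ∃ A : F, A = (c 0 : F) + θ * (c' 0 : F) := ⟨_, rfl⟩
  obtain ⟨B', hB'⟩ : ∃ B' : F, B' = (c 1 : F) + θ * (c' 1 : F) := ⟨_, rfl⟩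
  obtain ⟨C', hC'⟩ : ∃ C' : F, C' = (c 2 : F) + θ * (c' 2 : F) := ⟨_, rfl⟩
  have hy' : y = A • rv P u + B' • rv P a0 + C' • rv P b0 := by
    rw [hy, ← hc, ← hc', rv_add, rv_add, rv_smul, rv_smul, rv_smul, rv_add, rv_add, rv_smul,
      rv_smul, rv_smul, hA, hB', hC']
    module
  obtain ⟨α0, hα0⟩ : ∃ α0 : F, α0 = (D.form a0 a0 : F) := ⟨_, rfl⟩
  obtain ⟨β0, hβ0⟩ : ∃ β0 : F, β0 = (D.form b0 b0 : F) := ⟨_, rfl⟩
  obtain ⟨γ0, hγ0⟩ : ∃ γ0 : F, γ0 = (D.form a0 b0 : F) := ⟨_, rfl⟩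
  have f_uu : Cfsg.hermForm n F q (rv P u) (rv P u) = 0 := (D.form_zero_iff u u).1 huu
  have f_ua : Cfsg.hermForm n F q (rv P u) (rv P a0) = 0 := (D.form_zero_iff u a0).1 hua
  have f_ub : Cfsg.hermForm n F q (rv P u) (rv P b0) = 0 := (D.form_zero_iff u b0).1 hub
  have f_au : Cfsg.hermForm n F q (rv P a0) (rv P u) = 0 :=
    (D.form_zero_iff a0 u).1 (by rw [D.sym]; exact hua)
  have f_bu : Cfsg.hermForm n F q (rv P b0) (rv P u) = 0 :=
    (D.form_zero_iff b0 u).1 (by rw [D.sym]; exact hub)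
  have f_aa : Cfsg.hermForm n F q (rv P a0) (rv P a0) = α0 := by rw [hα0, D.form_apply]
  have f_bb : Cfsg.hermForm n F q (rv P b0) (rv P b0) = β0 := by rw [hβ0, D.form_apply]
  have f_ab : Cfsg.hermForm n F q (rv P a0) (rv P b0) = γ0 := by rw [hγ0, D.form_apply]
  have f_ba : Cfsg.hermForm n F q (rv P b0) (rv P a0) = γ0 := by
    rw [hγ0, D.sym a0 b0, D.form_apply]
  have hα' : α0 - θ ^ 2 * β0 = 0 := by
    simp only [hf_add_left, hf_add_right D.hF, hf_smul_left, hf_smul_right, hθq, f_aa, f_ab,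
      f_ba, f_bb] at hxx
    linear_combination hxx
  have hyx' : B' * (α0 - θ * γ0) + C' * (γ0 - θ * β0) = 0 := by
    rw [hy'] at hyx
    simp only [hf_add_left, hf_add_right D.hF, hf_smul_left, hf_smul_right, hθq, f_aa, f_ab,
      f_ba, f_bb, f_ua, f_ub] at hyx
    linear_combination hyx
  have hyy' : Cfsg.hermForm n F q y y =
      B' * B' ^ q * α0 + B' * C' ^ q * γ0 + C' * B' ^ q * γ0 + C' * C' ^ q * β0 := by
    rw [hy']
    simp only [hf_add_left, hf_add_right D.hF, hf_smul_left, hf_smul_right, f_aa, f_ab,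
      f_ba, f_bb, f_ua, f_ub, f_uu, f_au, f_bu]
    ring
  have hprod : (γ0 - θ * β0) * (C' - θ * B') = 0 := by
    linear_combination hyx' - B' * hα'
  apply hyy
  rw [hyy']
  rcases mul_eq_zero.mp hprod with h | h
  · have h5 := D.split hθ (D.form a0 b0) (-(D.form b0 b0)) (by
      push_cast
      rw [← hγ0, ← hβ0]
      linear_combination h)
    have hγz : γ0 = 0 := by rw [hγ0, h5.1]; rfl
    have hβz : β0 = 0 := by rw [hβ0, neg_eq_zero.mp h5.2]; rfl
    have hαz : α0 = 0 := by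
      rw [hβz] at hα'
      linear_combination hα'
    rw [hγz, hβz, hαz]
    ring
  · have hC : C' = θ * B' := by linear_combination h
    rw [hC, mul_pow, hθq]
    linear_combination (B' * B' ^ q) * hα'

/-- from `g ∈ M` moving a rational singular vector off the rational structure: an element of `M`
fixing a rational singular vector `u` but not the rational structure of `u^⊥` -/
theorem OD.exists_fix (D : OD F q n F₀ P) (hn : 9 ≤ n) {θ : F}
    (hθ : Cfsg.Agent.Lib.Helper44.IsTheta F₀ θ) (hθq : θ ^ q = -θ)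
    (M : Subgroup (GL (Fin n) F)) (hHM : OH F₀ P q ≤ M) (g : GL (Fin n) F) (hgM : g ∈ M)
    (hgU : g ∈ Cfsg.GU n F q) (e : Fin n → F₀) (hee : D.form e e = 0)
    (hnr : ∀ (c : F) (r : Fin n → F₀),
      (g : Matrix (Fin n) (Fin n) F) *ᵥ rv P e ≠ c • rv P r) :
    ∃ (u a a' : Fin n → F₀) (k : GL (Fin n) F), k ∈ M ∧ k ∈ Cfsg.GU n F q ∧ u ≠ 0 ∧
      D.form u u = 0 ∧ D.form a u = 0 ∧ D.form a' u = 0 ∧
      (k : Matrix (Fin n) (Fin n) F) *ᵥ rv P u = rv P u ∧
      Cfsg.hermForm n F q ((k : Matrix (Fin n) (Fin n) F) *ᵥ rv P a) (rv P a') -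
        Cfsg.hermForm n F q (rv P a') ((k : Matrix (Fin n) (Fin n) F) *ᵥ rv P a) ≠ 0 := by
  obtain ⟨a0, b0, hx⟩ := D.dec hθ ((g : Matrix (Fin n) (Fin n) F) *ᵥ rv P e)
  have hli : LinearIndependent F₀ ![a0, b0] := D.indep_of_nr a0 b0 (by rw [← hx]; exact hnr)
  have hxx : Cfsg.hermForm n F q (rv P a0 + θ • rv P b0) (rv P a0 + θ • rv P b0) = 0 := by
    rw [← hx, gu_pres g hgU]
    exact (D.form_zero_iff e e).1 hee
  obtain ⟨v3, hv3, hv3a, hv3b⟩ := D.exns2 hn a0 b0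
  have hli3 : LinearIndependent F₀ ![v3, a0, b0] := by
    show LinearIndependent F₀ (Fin.cons v3 ![a0, b0] : Fin 3 → Fin n → F₀)
    refine linearIndependent_finCons.mpr ⟨hli, ?_⟩
    intro hmem
    rw [Submodule.mem_span_range_iff_exists_fun] at hmem
    obtain ⟨c, hc⟩ := hmem
    rw [Fin.sum_univ_two] at hc
    simp only [Matrix.cons_val_zero, Matrix.cons_val_one] at hc
    apply hv3
    nth_rewrite 2 [← hc]
    simp only [map_add, map_smul, smul_eq_mul, hv3a, hv3b]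
    ring
  obtain ⟨u, huu, huv3, hua, hub⟩ := D.ex3 hn v3 a0 b0 hli3 1 0 0
  have hu0 : u ≠ 0 := by
    rintro rfl
    simp at huv3
  have hli3' : LinearIndependent F₀ ![u, a0, b0] := by
    show LinearIndependent F₀ (Fin.cons u ![a0, b0] : Fin 3 → Fin n → F₀)
    refine linearIndependent_finCons.mpr ⟨hli, ?_⟩
    intro hmem
    rw [Submodule.mem_span_range_iff_exists_fun] at hmem
    obtain ⟨c, hc⟩ := hmem
    rw [Fin.sum_univ_two] at hc
    simp only [Matrix.cons_val_zero, Matrix.cons_val_one] at hc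
    have h0 : D.form u v3 = 0 := by
      rw [← hc]
      simp only [map_add, map_smul, LinearMap.add_apply, LinearMap.smul_apply, smul_eq_mul]
      rw [D.sym a0 v3, D.sym b0 v3, hv3a, hv3b]
      ring
    rw [huv3] at h0
    exact one_ne_zero h0
  have hux : Cfsg.hermForm n F q (rv P u) (rv P a0 + θ • rv P b0) = 0 := by
    rw [D.hr hθq, hua, hub]
    simp
  obtain ⟨a1, b1, hgu⟩ :=
    D.dec hθ (((g⁻¹ : GL (Fin n) F) : Matrix (Fin n) (Fin n) F) *ᵥ rv P u)
  obtain ⟨y0, hy0, hy0e, hy0a, hy0b⟩ := D.exns3 hn e a1 b1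
  obtain ⟨d0, K0, hK0, hK0H⟩ := D.siegel_mem e y0 hee hy0e
  obtain ⟨y, hydef⟩ : ∃ y, y = (g : Matrix (Fin n) (Fin n) F) *ᵥ rv P y0 := ⟨_, rfl⟩
  have hyx : Cfsg.hermForm n F q y (rv P a0 + θ • rv P b0) = 0 := by
    rw [hydef, ← hx, gu_pres g hgU]
    exact (D.form_zero_iff y0 e).1 hy0e
  have huy : Cfsg.hermForm n F q (rv P u) y = 0 := by
    have h1 : rv P u = (g : Matrix (Fin n) (Fin n) F) *ᵥ (rv P a1 + θ • rv P b1) := by
      rw [← hgu, gl_mulVec_inv]
    rw [h1, hydef, gu_pres g hgU, D.hl, D.sym a1 y0, D.sym b1 y0, hy0a, hy0b]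
    simp
  have hyy : Cfsg.hermForm n F q y y ≠ 0 := by
    rw [hydef, gu_pres g hgU, ← D.form_apply]
    exact fun h => hy0 (Subtype.ext h)
  have hkM : g * K0 * g⁻¹ ∈ M := M.mul_mem (M.mul_mem hgM (hHM hK0H)) (M.inv_mem hgM)
  have hkU : g * K0 * g⁻¹ ∈ Cfsg.GU n F q :=
    (Cfsg.GU n F q).mul_mem ((Cfsg.GU n F q).mul_mem hgU hK0H.2.1) ((Cfsg.GU n F q).inv_mem hgU)
  have hkmat := conj_heis_GL g K0 hgU (rv P e) (rv P y0) (d0 : F) hK0
  rw [hx, ← hydef] at hkmat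
  have hku : ((g * K0 * g⁻¹ : GL (Fin n) F) : Matrix (Fin n) (Fin n) F) *ᵥ rv P u = rv P u := by
    rw [hkmat, heis_mulVec, hux, huy]
    simp
  obtain ⟨a, hau, haa0, hab0, hμ⟩ := D.exists_a hθ hθq u a0 b0 huu hua hub hxx y hyx hyy
  have hax : Cfsg.hermForm n F q (rv P a) (rv P a0 + θ • rv P b0) = 0 := by
    rw [D.hr hθq, haa0, hab0]
    simp
  obtain ⟨μ, hμdef⟩ : ∃ μ : F, μ = Cfsg.hermForm n F q (rv P a) y := ⟨_, rfl⟩
  rw [← hμdef] at hμ
  have hka : ((g * K0 * g⁻¹ : GL (Fin n) F) : Matrix (Fin n) (Fin n) F) *ᵥ rv P a =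
      rv P a - μ • (rv P a0 + θ • rv P b0) := by
    rw [hkmat, heis_mulVec, hax, ← hμdef]
    module
  obtain ⟨a', -, ha'u, ha'a, ha'b⟩ := D.ex3 hn u a0 b0 hli3' 0 1 0
  obtain ⟨a'', -, ha''u, ha''a, ha''b⟩ := D.ex3 hn u a0 b0 hli3' 0 0 1
  have hz' : Cfsg.hermForm n F q (rv P a - μ • (rv P a0 + θ • rv P b0)) (rv P a') =
      (D.form a a' : F) - μ := by
    rw [hf_sub_left, hf_smul_left, D.hl, D.sym a0 a', D.sym b0 a', ha'a, ha'b, ← D.form_apply]
    simp
  have hz'' : Cfsg.hermForm n F q (rv P a - μ • (rv P a0 + θ • rv P b0)) (rv P a'') =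
      (D.form a a'' : F) - μ * θ := by
    rw [hf_sub_left, hf_smul_left, D.hl, D.sym a0 a'', D.sym b0 a'', ha''a, ha''b,
      ← D.form_apply]
    simp
  by_cases hcase : μ - μ ^ q = 0
  · refine ⟨u, a, a'', g * K0 * g⁻¹, hkM, hkU, hu0, huu, hau, ha''u, hku, ?_⟩
    rw [hka, hf_conj D.hF n (rv P a - μ • (rv P a0 + θ • rv P b0)) (rv P a''), hz'',
      herm_sub_pow D.hF, mul_pow, hθq, D.coe_pow]
    have hμq : μ ^ q = μ := by linear_combination -hcase
    rw [hμq]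
    have h3 : (D.form a a'' : F) - μ * θ - ((D.form a a'' : F) - μ * -θ) = -(2 * θ * μ) := by
      ring
    rw [h3]
    exact neg_ne_zero.mpr (mul_ne_zero (mul_ne_zero D.two_ne hθ.ne_zero) hμ)
  · refine ⟨u, a, a', g * K0 * g⁻¹, hkM, hkU, hu0, huu, hau, ha'u, hku, ?_⟩
    rw [hka, hf_conj D.hF n (rv P a - μ • (rv P a0 + θ • rv P b0)) (rv P a'), hz',
      herm_sub_pow D.hF, D.coe_pow]
    intro h
    apply hcase
    linear_combination -h

/-- **Manufacturing a centre.** A subgroup of `SU_n(q)` containing the subfield group and an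
element outside it has a nonzero rational singular vector as a centre. -/
theorem OD.manufacture (D : OD F q n F₀ P) (hn : 9 ≤ n) (M : Subgroup (GL (Fin n) F))
    (hHM : OH F₀ P q ≤ M) (hMK : M ≤ Cfsg.GU n F q ⊓ Cfsg.Geo.specialLinear (Fin n) F)
    (g : GL (Fin n) F) (hgM : g ∈ M) (hg : g ∉ Cfsg.Geo.subfieldSubgroup F₀ P) :
    ∃ u : Fin n → F₀, u ≠ 0 ∧ D.form u u = 0 ∧
      Cfsg.Agent.Lib.Helper44.UC n q M (rv P u) := by
  obtain ⟨θ, hθ, hθq⟩ := D.exists_th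
  have hgU := (hMK hgM).1
  obtain ⟨e, hee, hnr⟩ := D.exists_moved hn hθ g hgU hg
  obtain ⟨u, a, a', k, hkM, hkU, hu0, huu, hau, hau', hku, hne⟩ :=
    D.exists_fix hn hθ hθq M hHM g hgM hgU e hee hnr
  exact ⟨u, hu0, huu, D.centre_of_fix M hHM k hkM hkU u a a' huu hau hau' hku hne⟩

/-! ### All rational singular vectors are centres -/

theorem OD.step (D : OD F q n F₀ P) (hn : 9 ≤ n) (M : Subgroup (GL (Fin n) F))
    (hHM : OH F₀ P q ≤ M) (hMK : M ≤ Cfsg.GU n F q ⊓ Cfsg.Geo.specialLinear (Fin n) F)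
    (u₁ u₂ : Fin n → F₀) (h1 : D.form u₁ u₁ = 0) (h2 : D.form u₂ u₂ = 0)
    (h12 : D.form u₁ u₂ ≠ 0) (hUC : Cfsg.Agent.Lib.Helper44.UC n q M (rv P u₁)) :
    Cfsg.Agent.Lib.Helper44.UC n q M (rv P u₂) := by
  have h2ne := D.two_ne₀
  have hww : D.form (u₁ - u₂) (u₁ - u₂) = -(2 * D.form u₁ u₂) := by
    simp only [map_sub, LinearMap.sub_apply]
    rw [h1, h2, D.sym u₂ u₁]
    ring
  have hw : D.form (u₁ - u₂) (u₁ - u₂) ≠ 0 := by
    rw [hww]
    exact neg_ne_zero.mpr (mul_ne_zero h2ne h12)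
  obtain ⟨d, hd, hd1, hd2⟩ := D.exns2 hn u₁ u₂
  obtain ⟨t, ht, htH⟩ := D.drefl_mem (u₁ - u₂) d hw hd
  have htM := hHM htH
  have h := Cfsg.Agent.Lib.Helper44.UC_conj htM (hMK htM).1 hUC
  have hmove : (t : Matrix (Fin n) (Fin n) F) *ᵥ rv P u₁ = rv P u₂ := by
    rw [ht, ← Matrix.mulVec_mulVec, D.rmat_rv, D.sym u₁ d, hd1, mul_zero, zero_smul, sub_zero,
      D.rmat_rv]
    congr 1
    have h3 : D.form u₁ (u₁ - u₂) = -(D.form u₁ u₂) := by
      simp only [map_sub]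
      rw [h1]
      ring
    rw [h3, hww]
    have h4 : 2 / -(2 * D.form u₁ u₂) * -(D.form u₁ u₂) = 1 := by
      field_simp
    rw [h4, one_smul]
    abel
  rwa [hmove] at h

theorem OD.all_rat (D : OD F q n F₀ P) (hn : 9 ≤ n) (M : Subgroup (GL (Fin n) F))
    (hHM : OH F₀ P q ≤ M) (hMK : M ≤ Cfsg.GU n F q ⊓ Cfsg.Geo.specialLinear (Fin n) F)
    (u : Fin n → F₀) (hu0 : u ≠ 0) (huu : D.form u u = 0)
    (hUC : Cfsg.Agent.Lib.Helper44.UC n q M (rv P u)) (u' : Fin n → F₀)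
    (hu' : D.form u' u' = 0) : Cfsg.Agent.Lib.Helper44.UC n q M (rv P u') := by
  by_cases hli : LinearIndependent F₀ ![u, u']
  · obtain ⟨w, hww, hwu, hwu'⟩ := D.ex2 hn u u' hli 1 1
    have hw := D.step hn M hHM hMK u w huu hww (by rw [D.sym, hwu]; exact one_ne_zero) hUC
    exact D.step hn M hHM hMK w u' hww hu' (by rw [hwu']; exact one_ne_zero) hw
  · rw [LinearIndependent.pair_iff' hu0] at hli
    push Not at hli
    obtain ⟨a, ha⟩ := hli
    rw [← ha, rv_smul]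
    exact Cfsg.Agent.Lib.Helper44.UC_smul D.hF hUC (a : F)

/-! ### All isotropic vectors are centres -/

theorem OD.line (D : OD F q n F₀ P) (M : Subgroup (GL (Fin n) F)) (hMU : M ≤ Cfsg.GU n F q)
    {u v : Fin n → F} (hu : Cfsg.Agent.Lib.Helper44.UC n q M u)
    (hv : Cfsg.Agent.Lib.Helper44.UC n q M v) (huu : Cfsg.hermForm n F q u u = 0)
    (hvv : Cfsg.hermForm n F q v v = 0) (huv : Cfsg.hermForm n F q u v ≠ 0) (α : F)
    (hiso : Cfsg.hermForm n F q (v + α • u) (v + α • u) = 0) :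
    Cfsg.Agent.Lib.Helper44.UC n q M (v + α • u) := by
  obtain ⟨σ, hσ⟩ := Cfsg.Agent.Lib.Helper44.frob_equiv_exists D.hF
  have hstd := Cfsg.Agent.Lib.Helper44.herm_unitary D.hF F₀ D.hcard n σ hσ
  exact Cfsg.Agent.Lib.Helper44.UC_line hstd hσ hMU hu hv huu hvv huv α hiso

theorem OD.fv (D : OD F q n F₀ P) (u v : Fin n → F₀) (c : F₀) (h : D.form u v = c) :
    Cfsg.hermForm n F q (rv P u) (rv P v) = (c : F) := by
  rw [← D.form_apply, h]

theorem OD.uc_mult (D : OD F q n F₀ P) (M : Subgroup (GL (Fin n) F))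
    (hall : ∀ u' : Fin n → F₀, D.form u' u' = 0 →
      Cfsg.Agent.Lib.Helper44.UC n q M (rv P u'))
    (c : F) (r : Fin n → F₀)
    (hiso : Cfsg.hermForm n F q (c • rv P r) (c • rv P r) = 0) :
    Cfsg.Agent.Lib.Helper44.UC n q M (c • rv P r) := by
  by_cases hc : c = 0
  · rw [hc, zero_smul]
    exact UC_zero M
  · apply Cfsg.Agent.Lib.Helper44.UC_smul D.hF (hall r ?_) c
    rw [hf_smul_left, hf_smul_right] at hiso
    have h0 : Cfsg.hermForm n F q (rv P r) (rv P r) = 0 := by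
      rcases mul_eq_zero.mp hiso with h | h
      · exact absurd h hc
      · rcases mul_eq_zero.mp h with h' | h'
        · exact absurd ((pow_eq_zero_iff (herm_q_ne_zero D.hF)).mp h') hc
        · exact h'
    exact (D.form_zero_iff r r).2 h0

theorem OD.mult_of_dep (D : OD F q n F₀ P) {θ : F} (a b : Fin n → F₀)
    (h : ¬ LinearIndependent F₀ ![a, b]) :
    ∃ (c : F) (r : Fin n → F₀), rv P a + θ • rv P b = c • rv P r := by
  by_contra hcon
  push Not at hcon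
  exact h (D.indep_of_nr a b hcon)

/-- the case of two singular components -/
theorem OD.iso_sing (D : OD F q n F₀ P) (hn : 9 ≤ n) (M : Subgroup (GL (Fin n) F))
    (hMU : M ≤ Cfsg.GU n F q)
    (hall : ∀ u' : Fin n → F₀, D.form u' u' = 0 →
      Cfsg.Agent.Lib.Helper44.UC n q M (rv P u'))
    {θ : F} (hθ : Cfsg.Agent.Lib.Helper44.IsTheta F₀ θ) (hθq : θ ^ q = -θ)
    (a' b' : Fin n → F₀) (ha : D.form a' a' = 0) (hb : D.form b' b' = 0)
    (hiso : Cfsg.hermForm n F q (rv P a' + θ • rv P b') (rv P a' + θ • rv P b') = 0) :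
    Cfsg.Agent.Lib.Helper44.UC n q M (rv P a' + θ • rv P b') := by
  by_cases hli' : LinearIndependent F₀ ![a', b']
  swap
  · obtain ⟨c', r, hcr⟩ := D.mult_of_dep (θ := θ) a' b' hli'
    rw [hcr] at hiso ⊢
    exact D.uc_mult M hall c' r hiso
  have faa := D.fv a' a' 0 ha
  have fbb := D.fv b' b' 0 hb
  by_cases hab' : D.form a' b' = 0
  · obtain ⟨c1, hc1, hc1a, hc1b⟩ := D.ex2 hn a' b' hli' 1 0
    have fcc := D.fv c1 c1 0 hc1
    have fca := D.fv c1 a' 1 hc1a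
    have fac := D.fv a' c1 1 (by rw [D.sym]; exact hc1a)
    have fba := D.fv b' a' 0 (by rw [D.sym]; exact hab')
    have fbc := D.fv b' c1 0 (by rw [D.sym]; exact hc1b)
    have hnq : (-θ) ^ q = θ := by
      rw [herm_neg_pow D.hF, hθq]
      ring
    have hvv : Cfsg.hermForm n F q (rv P a' + (-θ) • rv P c1) (rv P a' + (-θ) • rv P c1) = 0 := by
      simp only [hf_add_left, hf_add_right D.hF, hf_smul_left, hf_smul_right, faa, fcc, fca, fac,
        hnq]
      push_cast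
      ring
    have hv : Cfsg.Agent.Lib.Helper44.UC n q M (rv P a' + (-θ) • rv P c1) := by
      apply D.line M hMU (hall c1 hc1) (hall a' ha) fcc faa
      · rw [fca]
        simp
      · exact hvv
    have huu' : D.form (b' + c1) (b' + c1) = 0 := by
      simp only [map_add, LinearMap.add_apply]
      rw [hb, hc1, hc1b, D.sym b' c1, hc1b]
      ring
    have e : rv P a' + (-θ) • rv P c1 + θ • rv P (b' + c1) = rv P a' + θ • rv P b' := by
      rw [rv_add]
      module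
    have h3 := D.line M hMU (hall (b' + c1) huu') hv ((D.form_zero_iff _ _).1 huu') hvv (by
      rw [rv_add]
      simp only [hf_add_left, hf_add_right D.hF, hf_smul_right, fba, fbc, fca, fcc, hnq]
      push_cast
      simp) θ (by rw [e]; exact hiso)
    rwa [e] at h3
  · exact D.line M hMU (hall b' hb) (hall a' ha) fbb faa (by
      rw [← D.form_apply, D.sym]
      exact fun h => hab' (Subtype.ext h)) θ hiso

/-- **All isotropic vectors are centres**, once the rational singular ones are. -/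
theorem OD.all_iso (D : OD F q n F₀ P) (hn : 9 ≤ n) (M : Subgroup (GL (Fin n) F))
    (hMU : M ≤ Cfsg.GU n F q)
    (hall : ∀ u' : Fin n → F₀, D.form u' u' = 0 →
      Cfsg.Agent.Lib.Helper44.UC n q M (rv P u'))
    (z : Fin n → F) (hz : Cfsg.hermForm n F q z z = 0) :
    Cfsg.Agent.Lib.Helper44.UC n q M z := by
  obtain ⟨θ, hθ, hθq⟩ := D.exists_th
  obtain ⟨a, b, rfl⟩ := D.dec hθ z
  by_cases hli : LinearIndependent F₀ ![a, b]
  swap
  · obtain ⟨c, r, hcr⟩ := D.mult_of_dep (θ := θ) a b hli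
    rw [hcr] at hz ⊢
    exact D.uc_mult M hall c r hz
  obtain ⟨c, hcc, hca, hcb⟩ := D.ex2 hn a b hli 1 1
  have h2 := D.two_ne₀
  have hν : θ ^ 2 ∈ F₀ := by
    rw [D.mem_iff, ← pow_mul, mul_comm, pow_mul, hθq]
    ring
  obtain ⟨ν, hνdef⟩ : ∃ ν : F₀, (ν : F) = θ ^ 2 := ⟨⟨_, hν⟩, rfl⟩
  have hiso : D.form a a = ν * D.form b b := by
    apply Subtype.ext
    push_cast
    rw [hνdef]
    have h3 := hz
    rw [hf_add_left, hf_smul_left, D.hr hθq, D.hr hθq, D.sym b a] at h3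
    linear_combination h3
  obtain ⟨s, hs⟩ : ∃ s : F₀, s = -(D.form b b) / 2 := ⟨_, rfl⟩
  obtain ⟨a', ha'⟩ : ∃ a' : Fin n → F₀, a' = a + (s * ν) • c := ⟨_, rfl⟩
  obtain ⟨b', hb'⟩ : ∃ b' : Fin n → F₀, b' = b + s • c := ⟨_, rfl⟩
  have hb'b' : D.form b' b' = 0 := by
    rw [hb']
    simp only [map_add, map_smul, LinearMap.add_apply, LinearMap.smul_apply, smul_eq_mul]
    rw [hcc, hcb, D.sym b c, hcb, hs]
    field_simp
    ring
  have ha'a' : D.form a' a' = 0 := by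
    rw [ha']
    simp only [map_add, map_smul, LinearMap.add_apply, LinearMap.smul_apply, smul_eq_mul]
    rw [hcc, hca, D.sym a c, hca, hiso, hs]
    field_simp
    ring
  have hca' : D.form c a' = 1 := by
    rw [ha']
    simp only [map_add, map_smul, smul_eq_mul]
    rw [hca, hcc]
    ring
  have hcb' : D.form c b' = 1 := by
    rw [hb']
    simp only [map_add, map_smul, smul_eq_mul]
    rw [hcb, hcc]
    ring
  obtain ⟨α, hα⟩ : ∃ α : F, α = (s : F) * ((ν : F) + θ) := ⟨_, rfl⟩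
  have hz' : rv P a' + θ • rv P b' = (rv P a + θ • rv P b) + α • rv P c := by
    rw [ha', hb', rv_add, rv_add, rv_smul, rv_smul, hα]
    push_cast
    module
  have hz'iso : Cfsg.hermForm n F q (rv P a' + θ • rv P b') (rv P a' + θ • rv P b') = 0 := by
    rw [hf_add_left, hf_smul_left, D.hr hθq, D.hr hθq, ha'a', hb'b', D.sym b' a']
    push_cast
    ring
  have hUCz' := D.iso_sing hn M hMU hall hθ hθq a' b' ha'a' hb'b' hz'iso
  have hcz' : Cfsg.hermForm n F q (rv P c) (rv P a' + θ • rv P b') ≠ 0 := by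
    rw [D.hr hθq, hca', hcb']
    push_cast
    intro h
    apply hθ.notin
    have h1 : θ = 1 := by linear_combination -h
    rw [h1]
    exact F₀.one_mem
  have e : rv P a + θ • rv P b = (rv P a' + θ • rv P b') + (-α) • rv P c := by
    rw [hz']
    module
  rw [e]
  apply D.line M hMU (hall c hcc) hUCz' ((D.form_zero_iff c c).1 hcc) hz'iso hcz'
  rw [← e]
  exact hz

/-! ### Strictness and the maximality theorem -/

/-- the subfield group is a proper subgroup of `SU_n(q)` -/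
theorem OD.lt (D : OD F q n F₀ P) (hn : 9 ≤ n) :
    OH F₀ P q < Cfsg.GU n F q ⊓ Cfsg.Geo.specialLinear (Fin n) F := by
  classical
  refine lt_of_le_of_ne inf_le_right ?_
  intro heq
  obtain ⟨θ, hθ, hθq⟩ := D.exists_th
  obtain ⟨σ, hσ⟩ := Cfsg.Agent.Lib.Helper44.frob_equiv_exists D.hF
  have hstd := Cfsg.Agent.Lib.Helper44.herm_unitary D.hF F₀ D.hcard n σ hσ
  have h1 : (Pi.single (⟨0, by omega⟩ : Fin n) (1 : F₀) : Fin n → F₀) ≠ 0 := by
    intro h
    have h' := congrFun h ⟨0, by omega⟩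
    simp at h'
  obtain ⟨u, huu, hu1⟩ := D.ex1 hn _ h1 1
  have hu0 : u ≠ 0 := by
    rintro rfl
    simp at hu1
  obtain ⟨w, -, hwu⟩ := D.ex1 hn u hu0 1
  have hee := (D.form_zero_iff u u).1 huu
  obtain ⟨t, ht⟩ := Cfsg.Agent.Lib.Helper44.exists_utG (q := q) hee θ
  have htK : t ∈ Cfsg.GU n F q ⊓ Cfsg.Geo.specialLinear (Fin n) F :=
    ⟨Cfsg.Agent.Lib.Helper44.ut_mem_GU hstd hσ hee (by rw [hθq]; ring) t ht,
      Cfsg.Agent.Lib.Helper44.ut_mem_SL hee t ht⟩
  have htH : t ∈ Cfsg.Geo.subfieldSubgroup F₀ P := by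
    rw [← heq] at htK
    exact htK.1
  obtain ⟨lam, r', hr', hmove⟩ :=
    Cfsg.Agent.Lib.Helper44.subfield_proj F₀ P t htH (cv w) (cv_ratV w)
  obtain ⟨r, rfl⟩ := exists_cv r' hr'
  rw [Units.val_mul, Units.val_mul, ← Matrix.mulVec_mulVec, ← Matrix.mulVec_mulVec] at hmove
  have hmove' : (t : Matrix (Fin n) (Fin n) F) *ᵥ rv P w = lam • rv P r := by
    have h3 := congrArg (fun v => (P : Matrix (Fin n) (Fin n) F) *ᵥ v) hmove
    beta_reduce at h3
    rw [gl_mulVec_inv, Matrix.mulVec_smul] at h3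
    exact h3
  rw [ht, Cfsg.Agent.Lib.Helper44.ut_mulVec, D.fv w u 1 hwu] at hmove'
  obtain ⟨l1, hl1, l2, hl2, hlam⟩ := hθ.dec lam
  obtain ⟨m1, rfl⟩ : ∃ m1 : F₀, (m1 : F) = l1 := ⟨⟨l1, hl1⟩, rfl⟩
  obtain ⟨m2, rfl⟩ : ∃ m2 : F₀, (m2 : F) = l2 := ⟨⟨l2, hl2⟩, rfl⟩
  have h5 : rv P w + θ • rv P u = ((m1 : F) + θ * (m2 : F)) • rv P r := by
    rw [← hlam, ← hmove']
    simp
  have h0 : rv P (w - m1 • r) + θ • rv P (u - m2 • r) = 0 := by
    rw [rv_sub, rv_sub, rv_smul, rv_smul]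
    have h6 : rv P w - (m1 : F) • rv P r + θ • (rv P u - (m2 : F) • rv P r) =
        (rv P w + θ • rv P u) - ((m1 : F) + θ * (m2 : F)) • rv P r := by
      module
    rw [h6, h5, sub_self]
  obtain ⟨hw', hu'⟩ := D.rv_split hθ _ _ h0
  have hw'' : w = m1 • r := sub_eq_zero.mp hw'
  have hu'' : u = m2 • r := sub_eq_zero.mp hu'
  have h3 : m2 * m2 * D.form r r = 0 := by
    have h7 := huu
    rw [hu''] at h7
    simp only [map_smul, LinearMap.smul_apply, smul_eq_mul] at h7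
    linear_combination h7
  have h4 : m1 * m2 * D.form r r = 1 := by
    have h7 := hwu
    rw [hw'', hu''] at h7
    simp only [map_smul, LinearMap.smul_apply, smul_eq_mul] at h7
    linear_combination h7
  rcases mul_eq_zero.mp h3 with h | h
  · have hm2 : m2 = 0 := by
      rcases mul_eq_zero.mp h with h' | h' <;> exact h'
    rw [hm2] at h4
    simp at h4
  · rw [h] at h4
    simp at h4

/-- **Maximality of the orthogonal subfield group in `SU_n(q)`**, `q` odd, `n ≥ 9`, given that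
`SU_n(q)` is generated by unitary transvections. -/
theorem orth_subfield_isMaximalIn (hF : Fintype.card F = q ^ 2) (hn : 9 ≤ n) (hodd : Odd q)
    (F₀ : Subfield F) (hcard : Fintype.card F = Nat.card F₀ ^ 2) (P : GL (Fin n) F)
    (hP : Cfsg.Geo.IsFormRationalStructure (Cfsg.hermForm n F q) F₀ 1 P)
    (hgen : Subgroup.closure {A : ↥(Cfsg.SU n F q) | ∃ (v : Fin n → F) (c : F),
      Cfsg.hermForm n F q v v = 0 ∧ ((A : Matrix.SpecialLinearGroup (Fin n) F) :
        Matrix (Fin n) (Fin n) F) = Cfsg.unitaryTransvection n q v c} = ⊤) :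
    Cfsg.Geo.IsMaximalIn (Cfsg.GU n F q ⊓ Cfsg.Geo.specialLinear (Fin n) F)
      (Cfsg.Geo.subfieldSubgroup F₀ P ⊓
        (Cfsg.GU n F q ⊓ Cfsg.Geo.specialLinear (Fin n) F)) := by
  have D : OD F q n F₀ P := ⟨hF, hcard, hodd, hP⟩
  refine ⟨D.lt hn, fun M hHM hMK => ?_⟩
  by_cases hne : M = Cfsg.Geo.subfieldSubgroup F₀ P ⊓
      (Cfsg.GU n F q ⊓ Cfsg.Geo.specialLinear (Fin n) F)
  · exact Or.inl hne
  · right
    obtain ⟨g, hgM, hgH⟩ := SetLike.exists_of_lt (lt_of_le_of_ne hHM (Ne.symm hne))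
    have hgS : g ∉ Cfsg.Geo.subfieldSubgroup F₀ P := fun h => hgH ⟨h, hMK hgM⟩
    obtain ⟨u, hu0, huu, hUC⟩ := D.manufacture hn M hHM hMK g hgM hgS
    have hall := D.all_rat hn M hHM hMK u hu0 huu hUC
    exact le_antisymm hMK (Cfsg.Agent.Lib.Helper44.su_le_of_UC hF F₀ hcard n hgen M
      (D.all_iso hn M (fun x hx => (hMK hx).1) hall))

end OrthSubfB

end Cfsg.Agent.Lib.Helper18
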