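import Mathlib
import Cfsg.Prelude.Def_ClassicalGeometry

set_option autoImplicit false

namespace Cfsg.Agent.Lib.Helper18

open Matrix

/-- The coordinate subspace of vectors supported on the first `k` coordinates. -/
def coordSub (F : Type*) [Field F] (n k : ℕ) : Submodule F (Fin n → F) where
  carrier := {v | ∀ i : Fin n, k ≤ (i : ℕ) → v i = 0}
  add_mem' := by
    intro a b ha hb i hi
    simp [ha i hi, hb i hi]
  zero_mem' := by
    intro i hi
    rfl
  smul_mem' := by
    intro c a ha i hi
    simp [ha i hi]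

theorem mem_coordSub {F : Type*} [Field F] {n k : ℕ} (v : Fin n → F) :
    v ∈ coordSub F n k ↔ ∀ i : Fin n, k ≤ (i : ℕ) → v i = 0 := Iff.rfl

/-- The stabiliser of the coordinate subspace consists of the block upper triangular matrices. -/
theorem mem_stab_iff {F : Type*} [Field F] (n k : ℕ) (g : Matrix.GeneralLinearGroup (Fin n) F) :
    g ∈ Cfsg.stabilizing (Cfsg.glToMat (Fin n) F)
        {v : Fin n → F | ∀ i : Fin n, k ≤ (i : ℕ) → v i = 0} ↔
      ∀ i j : Fin n, k ≤ (i : ℕ) → (j : ℕ) < k → (g : Matrix (Fin n) (Fin n) F) i j = 0 := by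
  constructor
  · intro hg i j hi hj
    have h1 : (Pi.single j 1 : Fin n → F) ∈ {v : Fin n → F | ∀ i : Fin n, k ≤ (i : ℕ) → v i = 0} := by
      intro l hl
      have hne : l ≠ j := by
        rintro rfl
        omega
      simp [hne]
    have h2 := (hg _).mp h1 i hi
    have h3 : (Cfsg.glToMat (Fin n) F) g = (g : Matrix (Fin n) (Fin n) F) := rfl
    rw [h3, Matrix.mulVec_single_one] at h2
    exact h2
  · intro hbut v
    have hmap : ∀ v ∈ coordSub F n k, Matrix.toLin' (g : Matrix (Fin n) (Fin n) F) v ∈ coordSub F n k := by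
      intro v hv i hi
      rw [Matrix.toLin'_apply, Matrix.mulVec, dotProduct]
      apply Finset.sum_eq_zero
      intro j _
      by_cases hj : (j : ℕ) < k
      · rw [hbut i j hi hj, zero_mul]
      · rw [hv j (by omega), mul_zero]
    have hinj : Function.Injective (Matrix.toLin' (g : Matrix (Fin n) (Fin n) F)) := by
      intro x y hxy
      have h1 := congrArg (Matrix.toLin' ((g⁻¹ : Matrix.GeneralLinearGroup (Fin n) F) : Matrix (Fin n) (Fin n) F)) hxy
      rw [← Matrix.toLin'_mul_apply, ← Matrix.toLin'_mul_apply, ← Units.val_mul, inv_mul_cancel,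
        Units.val_one, Matrix.toLin'_one] at h1
      exact h1
    let f : coordSub F n k →ₗ[F] coordSub F n k :=
      (Matrix.toLin' (g : Matrix (Fin n) (Fin n) F)).restrict hmap
    have hfinj : Function.Injective f := by
      intro x y hxy
      apply Subtype.ext
      apply hinj
      exact congrArg Subtype.val hxy
    have hfsurj : Function.Surjective f := LinearMap.injective_iff_surjective.mp hfinj
    have h3 : (Cfsg.glToMat (Fin n) F) g = (g : Matrix (Fin n) (Fin n) F) := rfl
    rw [h3]
    constructor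
    · intro hv
      have h4 := hmap v hv
      rw [Matrix.toLin'_apply] at h4
      exact h4
    · intro hgv
      have hgv' : Matrix.toLin' (g : Matrix (Fin n) (Fin n) F) v ∈ coordSub F n k := by
        rw [Matrix.toLin'_apply]
        exact hgv
      obtain ⟨w, hw⟩ := hfsurj ⟨_, hgv'⟩
      have h5 : Matrix.toLin' (g : Matrix (Fin n) (Fin n) F) (w : Fin n → F) =
          Matrix.toLin' (g : Matrix (Fin n) (Fin n) F) v := congrArg Subtype.val hw
      have h6 := hinj h5
      rw [← h6]
      exact w.2

/-- The splitting of `Fin n` into the first `k` and the last `n - k` indices. -/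
def blockEquiv (n k : ℕ) (hk : k ≤ n) : Fin k ⊕ Fin (n - k) ≃ Fin n :=
  finSumFinEquiv.trans (finCongr (Nat.add_sub_cancel' hk))

theorem blockEquiv_inl (n k : ℕ) (hk : k ≤ n) (a : Fin k) :
    ((blockEquiv n k hk (Sum.inl a) : Fin n) : ℕ) = a := by
  simp [blockEquiv]

theorem blockEquiv_inr (n k : ℕ) (hk : k ≤ n) (b : Fin (n - k)) :
    ((blockEquiv n k hk (Sum.inr b) : Fin n) : ℕ) = k + b := by
  simp [blockEquiv]

theorem but_iff_toBlocks {F : Type*} [Field F] (n k : ℕ) (hk : k ≤ n) (M : Matrix (Fin n) (Fin n) F) :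
    (∀ i j : Fin n, k ≤ (i : ℕ) → (j : ℕ) < k → M i j = 0) ↔
      (M.submatrix (blockEquiv n k hk) (blockEquiv n k hk)).toBlocks₂₁ = 0 := by
  constructor
  · intro h
    ext b a
    simp only [Matrix.toBlocks₂₁, Matrix.of_apply, Matrix.submatrix_apply, Matrix.zero_apply]
    apply h
    · rw [blockEquiv_inr]; omega
    · rw [blockEquiv_inl]; exact a.2
  · intro h i j hi hj
    have hi' : i = blockEquiv n k hk (Sum.inr ⟨(i : ℕ) - k, by omega⟩) := by
      apply Fin.ext
      rw [blockEquiv_inr]
      simp only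
      omega
    have hj' : j = blockEquiv n k hk (Sum.inl ⟨(j : ℕ), hj⟩) := by
      apply Fin.ext
      rw [blockEquiv_inl]
    have h1 := congrFun (congrFun h ⟨(i : ℕ) - k, by omega⟩) ⟨(j : ℕ), hj⟩
    simp only [Matrix.toBlocks₂₁, Matrix.of_apply, Matrix.submatrix_apply, Matrix.zero_apply] at h1
    rw [hi', hj']
    exact h1

end Cfsg.Agent.Lib.Helper18
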