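import Mathlib
import Cfsg.Agent.Lib.Helper91.PslU

set_option autoImplicit false

namespace Cfsg.Agent.Lib.Helper18.PslB7c

open Matrix Matrix.SpecialLinearGroup Cfsg.Agent.Lib.Helper91.PslU

/-- entries of the conjugate of `x` by the transvection `1 + a E_{ji}` -/
theorem conj_entry (n : ℕ) (K : Type*) [Field K] (i j : Fin n) (hji : j ≠ i) (a : K)
    (x : SpecialLinearGroup (Fin n) K) (r s : Fin n) :
    (transvection hji a * x * (transvection hji a)⁻¹).1 r s =
      x.1 r s + (if r = j then a * x.1 i s else 0) - (if s = i then a * x.1 r j else 0)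
        - (if r = j ∧ s = i then a * a * x.1 i j else 0) := by
  rw [transvection_inv]
  have e : (transvection hji a * x * transvection hji (-a)).1 =
      ((1 : Matrix (Fin n) (Fin n) K) + single j i a) * x.1 *
        ((1 : Matrix (Fin n) (Fin n) K) + single j i (-a)) := rfl
  rw [e]
  simp only [Matrix.add_mul, Matrix.mul_add, Matrix.one_mul, Matrix.mul_one, Matrix.add_apply]
  by_cases hr : r = j
  · by_cases hs : s = i
    · rw [if_pos hr, if_pos hs, if_pos ⟨hr, hs⟩, hr, hs]
      simp only [single_mul_apply_same, mul_single_apply_same, single_mul_mul_single,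
        single_apply_same]
      ring
    · have hs' : ¬ (r = j ∧ s = i) := fun h => hs h.2
      rw [if_pos hr, if_neg hs, if_neg hs', hr]
      simp only [single_mul_apply_same, mul_single_apply_of_ne (hbj := hs),
        single_mul_mul_single]
      ring
  · have hr' : ¬ (r = j ∧ s = i) := fun h => hr h.1
    by_cases hs : s = i
    · rw [if_neg hr, if_pos hs, if_neg hr', hs]
      simp only [single_mul_apply_of_ne (h := hr), mul_single_apply_same,
        single_mul_mul_single]
      ring
    · rw [if_neg hr, if_neg hs, if_neg hr']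
      simp only [single_mul_apply_of_ne (h := hr), mul_single_apply_of_ne (hbj := hs),
        single_mul_mul_single]
      ring

theorem lower_normalizes (n : ℕ) (K : Type*) [Field K] (i j : Fin n)
    (hij : (i : ℕ) + 1 = (j : ℕ)) (hji : j ≠ i) (P : Subgroup (SpecialLinearGroup (Fin n) K))
    (hP : ∀ g, g ∈ P ↔ g ∈ UU n K ∧ g.1 i j = 0) (a : K)
    (x : SpecialLinearGroup (Fin n) K) (hx : x ∈ P) :
    transvection hji a * x * (transvection hji a)⁻¹ ∈ P := by
  obtain ⟨hxU, hx0⟩ := (hP x).mp hx
  obtain ⟨hlow, hdiag⟩ := (mem_UU_iff n K x).mp hxU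
  have hne : i ≠ j := fun h => hji h.symm
  refine (hP _).mpr ⟨(mem_UU_iff n K _).mpr ⟨?_, ?_⟩, ?_⟩
  · intro r s hsr
    rw [conj_entry, hx0, hlow r s hsr]
    have hsr' : (s : ℕ) < (r : ℕ) := hsr
    by_cases hr : r = j
    · by_cases hs : s = i
      · rw [if_pos hr, if_pos hs, if_pos ⟨hr, hs⟩, hr, hs, hdiag, hdiag]
        ring
      · have hs' : ¬ (r = j ∧ s = i) := fun h => hs h.2
        have hsi : s < i := by
          rw [Fin.lt_def]
          have h1 : (s : ℕ) ≠ (i : ℕ) := fun h => hs (Fin.ext h)
          have h2 : (r : ℕ) = (j : ℕ) := by rw [hr]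
          omega
        rw [if_pos hr, if_neg hs, if_neg hs', hlow i s hsi]
        ring
    · have hr' : ¬ (r = j ∧ s = i) := fun h => hr h.1
      by_cases hs : s = i
      · have hjr : j < r := by
          rw [Fin.lt_def]
          have h1 : (r : ℕ) ≠ (j : ℕ) := fun h => hr (Fin.ext h)
          have h2 : (s : ℕ) = (i : ℕ) := by rw [hs]
          omega
        rw [if_neg hr, if_pos hs, if_neg hr', hlow r j hjr]
        ring
      · rw [if_neg hr, if_neg hs, if_neg hr']
        ring
  · intro r
    rw [conj_entry, hx0, hdiag r]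
    by_cases hr : r = j
    · have hs : r ≠ i := by rw [hr]; exact hji
      have hs' : ¬ (r = j ∧ r = i) := fun h => hs h.2
      rw [if_pos hr, if_neg hs, if_neg hs', hr, hx0]
      ring
    · have hr' : ¬ (r = j ∧ r = i) := fun h => hr h.1
      by_cases hs : r = i
      · rw [if_neg hr, if_pos hs, if_neg hr', hs, hx0]
        ring
      · rw [if_neg hr, if_neg hs, if_neg hr']
        ring
  · rw [conj_entry, hx0]
    have h1 : ¬ (i = j) := hne
    have h2 : ¬ (j = i) := hji
    have h3 : ¬ (i = j ∧ j = i) := fun h => h1 h.1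
    rw [if_neg h1, if_neg h2, if_neg h3]
    ring

end Cfsg.Agent.Lib.Helper18.PslB7c
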