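import Mathlib
import Cfsg.Prelude.Def_RootSubgroups
import Cfsg.Agent.Lib.Helper12.RootInv
import Cfsg.Agent.Lib.Helper20.RI1

set_option autoImplicit false

namespace Cfsg.Agent.Lib.Helper18.RI

open Cfsg Cfsg.Agent.Lib.Helper12.RootInv Cfsg.Agent.Lib.Helper20.RI

variable {G : Type*} [Group G]

/-- `zfam ρ β t = ∏_{|i| ≤ t} β_i` -/
def zfam (ρ β : G) : ℕ → G
  | 0 => β
  | (t + 1) => zfam ρ β t * (bfam ρ β (-((t : ℤ) + 1)) * bfam ρ β ((t : ℤ) + 1))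

theorem zfam_zero (ρ β : G) : zfam ρ β 0 = β := rfl

theorem zfam_succ (ρ β : G) (t : ℕ) :
    zfam ρ β (t + 1) = zfam ρ β t * (bfam ρ β (-((t : ℤ) + 1)) * bfam ρ β ((t : ℤ) + 1)) := rfl

theorem zfam_comm {ρ β : G} (hcomm : ∀ i j : ℤ, Commute (bfam ρ β i) (bfam ρ β j)) (t : ℕ)
    (i : ℤ) : Commute (zfam ρ β t) (bfam ρ β i) := by
  induction t with
  | zero =>
    rw [zfam_zero]
    have := hcomm 0 i
    rwa [bfam_zero] at this
  | succ t ih =>
    rw [zfam_succ]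
    exact ih.mul_left ((hcomm _ i).mul_left (hcomm _ i))

theorem zfam_conj_a {ρ β a u : G} (haβ : a * β * a = u * β)
    (hmu : ∀ j : ℤ, a * (bfam ρ β (-j) * bfam ρ β j) = (bfam ρ β (-j) * bfam ρ β j) * a)
    (t : ℕ) : a * zfam ρ β t * a = u * zfam ρ β t := by
  induction t with
  | zero => exact haβ
  | succ t ih =>
    rw [zfam_succ]
    have h := hmu ((t : ℤ) + 1)
    obtain ⟨μ, hμ⟩ : ∃ μ, μ = bfam ρ β (-((t : ℤ) + 1)) * bfam ρ β ((t : ℤ) + 1) := ⟨_, rfl⟩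
    rw [← hμ] at h ⊢
    calc a * (zfam ρ β t * μ) * a = a * zfam ρ β t * (μ * a) := by simp only [mul_assoc]
      _ = a * zfam ρ β t * (a * μ) := by rw [h]
      _ = (a * zfam ρ β t * a) * μ := by simp only [mul_assoc]
      _ = u * (zfam ρ β t * μ) := by rw [ih, mul_assoc]

theorem bfam_u_swap {ρ β u : G} (hu2 : u * u = 1) (hrefl : u * ρ * u = ρ⁻¹)
    (hβu : β * u = u * β) (j : ℤ) : u * bfam ρ β j = bfam ρ β (-j) * u := by
  have h1 := bfam_refl hu2 hrefl hβu j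
  calc u * bfam ρ β j = u * bfam ρ β j * (u * u) := by rw [hu2, mul_one]
    _ = (u * bfam ρ β j * u) * u := by simp only [mul_assoc]
    _ = bfam ρ β (-j) * u := by rw [h1]

theorem bfam_u_swap' {ρ β u : G} (hu2 : u * u = 1) (hrefl : u * ρ * u = ρ⁻¹)
    (hβu : β * u = u * β) (j : ℤ) : bfam ρ β j * u = u * bfam ρ β (-j) := by
  have h := bfam_u_swap hu2 hrefl hβu (-j)
  rw [neg_neg] at h
  exact h.symm

theorem mu_refl {ρ β u : G} (hu2 : u * u = 1) (hrefl : u * ρ * u = ρ⁻¹) (hβu : β * u = u * β)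
    (hcomm : ∀ i j : ℤ, Commute (bfam ρ β i) (bfam ρ β j)) (j : ℤ) :
    u * (bfam ρ β (-j) * bfam ρ β j) = (bfam ρ β (-j) * bfam ρ β j) * u := by
  have e1 : u * bfam ρ β (-j) = bfam ρ β j * u := by
    have h := bfam_u_swap hu2 hrefl hβu (-j)
    rwa [neg_neg] at h
  have e2 : u * bfam ρ β j = bfam ρ β (-j) * u := bfam_u_swap hu2 hrefl hβu j
  calc u * (bfam ρ β (-j) * bfam ρ β j) = (u * bfam ρ β (-j)) * bfam ρ β j := by rw [mul_assoc]
    _ = bfam ρ β j * (u * bfam ρ β j) := by rw [e1, mul_assoc]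
    _ = bfam ρ β j * bfam ρ β (-j) * u := by rw [e2, mul_assoc]
    _ = (bfam ρ β (-j) * bfam ρ β j) * u := by rw [(hcomm j (-j)).eq]

theorem zfam_comm_u {ρ β u : G} (hu2 : u * u = 1) (hrefl : u * ρ * u = ρ⁻¹)
    (hβu : β * u = u * β) (hcomm : ∀ i j : ℤ, Commute (bfam ρ β i) (bfam ρ β j)) (t : ℕ) :
    u * zfam ρ β t = zfam ρ β t * u := by
  induction t with
  | zero => exact hβu.symm
  | succ t ih =>
    rw [zfam_succ]
    have h := mu_refl hu2 hrefl hβu hcomm ((t : ℤ) + 1)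
    obtain ⟨μ, hμ⟩ : ∃ μ, μ = bfam ρ β (-((t : ℤ) + 1)) * bfam ρ β ((t : ℤ) + 1) := ⟨_, rfl⟩
    rw [← hμ] at h ⊢
    calc u * (zfam ρ β t * μ) = (u * zfam ρ β t) * μ := by rw [mul_assoc]
      _ = zfam ρ β t * (u * μ) := by rw [ih, mul_assoc]
      _ = zfam ρ β t * μ * u := by rw [h, mul_assoc]

theorem zfam_mem {D : Set G} (hD : IsRootInvolutionSet D) {ρ β a u : G} (ha : a ∈ D)
    (hβ : β ∈ D) (hu2 : u * u = 1) (hrefl : u * ρ * u = ρ⁻¹) (hβu : β * u = u * β)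
    (haβ : a * β * a = u * β) (hcomm : ∀ i j : ℤ, Commute (bfam ρ β i) (bfam ρ β j)) (t : ℕ) :
    u * zfam ρ β t ∈ D := by
  induction t with
  | zero =>
    rw [zfam_zero, ← haβ]
    have := hD.conj_mem β hβ a
    rwa [ri_inv hD ha] at this
  | succ t ih =>
    have hβ2 := ri_sq hD hβ
    have hB0 : bfam ρ β 0 = β := bfam_zero ρ β
    have hcβ : ∀ i, Commute β (bfam ρ β i) := fun i => by
      have := hcomm 0 i
      rwa [hB0] at this
    have hZβ : Commute (zfam ρ β t) β := by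
      have := zfam_comm hcomm t 0
      rwa [hB0] at this
    obtain ⟨q, hq⟩ : ∃ q, q = bfam ρ β ((t : ℤ) + 1) := ⟨_, rfl⟩
    obtain ⟨r, hr⟩ : ∃ r, r = bfam ρ β (-((t : ℤ) + 1)) := ⟨_, rfl⟩
    obtain ⟨Z, hZ⟩ : ∃ Z, Z = zfam ρ β t := ⟨_, rfl⟩
    have hβq : Commute β q := by rw [hq]; exact hcβ _
    have hβr : Commute β r := by rw [hr]; exact hcβ _
    have hZq : Commute Z q := by rw [hq, hZ]; exact zfam_comm hcomm t _
    have hZr : Commute Z r := by rw [hr, hZ]; exact zfam_comm hcomm t _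
    have hZβ' : Commute Z β := by rw [hZ]; exact hZβ
    have hrq : Commute r q := by rw [hr, hq]; exact hcomm _ _
    have hqq : q * q = 1 := by rw [hq]; exact bfam_sq hβ2 _
    have hqu : q * u = u * r := by rw [hq, hr]; exact bfam_u_swap' hu2 hrefl hβu _
    have hww : (β * q) * (β * q) = 1 := by
      calc β * q * (β * q) = β * (q * β) * q := by simp only [mul_assoc]
        _ = β * (β * q) * q := by rw [hβq.eq]
        _ = (β * β) * (q * q) := by simp only [mul_assoc]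
        _ = 1 := by rw [hβ2, hqq, mul_one]
    have hwinv : (β * q)⁻¹ = β * q := inv_eq_of_mul_eq_one_left hww
    have hmem := hD.conj_mem (u * Z) (by rw [hZ]; exact ih) (β * q)
    rw [hwinv] at hmem
    have key : β * q * (u * Z) * (β * q) = u * zfam ρ β (t + 1) := by
      rw [zfam_succ, ← hq, ← hr, ← hZ]
      calc β * q * (u * Z) * (β * q) = β * (q * u) * (Z * β) * q := by simp only [mul_assoc]
        _ = β * (u * r) * (β * Z) * q := by rw [hqu, hZβ'.eq]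
        _ = (β * u) * (r * β) * (Z * q) := by simp only [mul_assoc]
        _ = (u * β) * (β * r) * (q * Z) := by rw [hβu, hβr.eq, hZq.eq]
        _ = u * (β * β) * (r * q) * Z := by simp only [mul_assoc]
        _ = u * ((r * q) * Z) := by rw [hβ2, mul_one, mul_assoc]
        _ = u * (Z * (r * q)) := by rw [(hZr.mul_right hZq).eq]
    rw [key] at hmem
    exact hmem

theorem zfam_rho {ρ β : G} (hβ2 : β * β = 1)
    (hcomm : ∀ i j : ℤ, Commute (bfam ρ β i) (bfam ρ β j)) (t : ℕ) :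
    ρ⁻¹ * zfam ρ β t * ρ = zfam ρ β t * bfam ρ β (-(t : ℤ)) * bfam ρ β ((t : ℤ) + 1) := by
  induction t with
  | zero =>
    rw [zfam_zero]
    have h := bfam_succ ρ β 0
    rw [bfam_zero] at h
    rw [h, Nat.cast_zero, neg_zero, bfam_zero, hβ2, one_mul]
  | succ t ih =>
    rw [zfam_succ]
    have h1 := bfam_succ ρ β (-((t : ℤ) + 1))
    have h2 := bfam_succ ρ β ((t : ℤ) + 1)
    have e1 : -((t : ℤ) + 1) + 1 = -(t : ℤ) := by ring
    rw [e1] at h1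
    have e2 : ((t + 1 : ℕ) : ℤ) = (t : ℤ) + 1 := by push_cast; ring
    rw [e2]
    obtain ⟨p, hp⟩ : ∃ p, p = bfam ρ β (-(t : ℤ)) := ⟨_, rfl⟩
    obtain ⟨q, hq⟩ : ∃ q, q = bfam ρ β ((t : ℤ) + 1) := ⟨_, rfl⟩
    obtain ⟨r, hr⟩ : ∃ r, r = bfam ρ β (-((t : ℤ) + 1)) := ⟨_, rfl⟩
    obtain ⟨s, hs⟩ : ∃ s, s = bfam ρ β ((t : ℤ) + 1 + 1) := ⟨_, rfl⟩
    obtain ⟨Z, hZ⟩ : ∃ Z, Z = zfam ρ β t := ⟨_, rfl⟩
    rw [← hp, ← hq, ← hZ] at ih
    rw [← hr, ← hp] at h1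
    rw [← hq, ← hs] at h2
    rw [← hr, ← hq, ← hs, ← hZ]
    have hpq : Commute p q := by rw [hp, hq]; exact hcomm _ _
    have hrq : Commute r q := by rw [hr, hq]; exact hcomm _ _
    have hpp : p * p = 1 := by rw [hp]; exact bfam_sq hβ2 _
    have hrr : r * r = 1 := by rw [hr]; exact bfam_sq hβ2 _
    calc ρ⁻¹ * (Z * (r * q)) * ρ = (ρ⁻¹ * Z * ρ) * (ρ⁻¹ * r * ρ) * (ρ⁻¹ * q * ρ) := by group
      _ = (Z * p * q) * p * s := by rw [ih, h1, h2]
      _ = Z * p * (q * p) * s := by simp only [mul_assoc]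
      _ = Z * p * (p * q) * s := by rw [hpq.eq]
      _ = Z * (p * p) * q * s := by simp only [mul_assoc]
      _ = Z * (r * r) * q * s := by rw [hpp, hrr]
      _ = Z * r * (r * q) * s := by simp only [mul_assoc]
      _ = Z * r * (q * r) * s := by rw [hrq.eq]
      _ = Z * (r * q) * r * s := by simp only [mul_assoc]

/-- PIECE ZETA: the product of the `β_i` over a period gives a contradiction. -/
theorem zeta_false {D : Set G} (hD : IsRootInvolutionSet D) {a u β x : G} (ha : a ∈ D) (hu : u ∈ D)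
    (hβ : β ∈ D) (hx : x ∈ D) (hau : a * u = u * a) (hβu : β * u = u * β) (haβ : a * β * a = u * β)
    (hodd : Odd (orderOf (u * x))) (hxu : x ≠ u)
    (hcomm : ∀ i j : ℤ, Commute (bfam (u * x) β i) (bfam (u * x) β j))
    (hmu : ∀ j : ℤ, a * (bfam (u * x) β (-j) * bfam (u * x) β j) =
      (bfam (u * x) β (-j) * bfam (u * x) β j) * a) : False := by
  have hu2 := ri_sq hD hu
  have hx2 := ri_sq hD hx
  have ha2 := ri_sq hD ha
  have hβ2 := ri_sq hD hβ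
  have hrefl : u * (u * x) * u = (u * x)⁻¹ := refl_mul hu2 hx2
  obtain ⟨h, hh⟩ := hodd
  obtain ⟨ρ, hρ⟩ : ∃ ρ, ρ = u * x := ⟨_, rfl⟩
  rw [← hρ] at hcomm hmu hrefl hh
  have hm : ρ ^ (2 * h + 1) = 1 := by rw [← hh]; exact pow_orderOf_eq_one ρ
  -- β_(h+1) = β_(-h)
  have hper : bfam ρ β ((h : ℤ) + 1) = bfam ρ β (-(h : ℤ)) := by
    have := bfam_period (β := β) hm (-(h : ℤ))
    rw [← this]
    congr 1
    push_cast
    ring
  obtain ⟨ζ, hζ⟩ : ∃ ζ, ζ = zfam ρ β h := ⟨_, rfl⟩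
  have h4 : ρ⁻¹ * ζ * ρ = ζ := by
    have h4' := zfam_rho hβ2 hcomm h
    rw [hper, ← hζ] at h4'
    rw [h4', mul_assoc, bfam_sq hβ2, mul_one]
  have hζρ : ρ * ζ = ζ * ρ := by
    calc ρ * ζ = ρ * (ρ⁻¹ * ζ * ρ) := by rw [h4]
      _ = ζ * ρ := by group
  have hζu : u * ζ = ζ * u := by rw [hζ]; exact zfam_comm_u hu2 hrefl hβu hcomm h
  have hζD : u * ζ ∈ D := by rw [hζ]; exact zfam_mem hD ha hβ hu2 hrefl hβu haβ hcomm h
  have hxρ : x = u * ρ := by rw [hρ, ← mul_assoc, hu2, one_mul]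
  have hζx : x * ζ = ζ * x := by
    rw [hxρ]
    calc u * ρ * ζ = u * (ρ * ζ) := by rw [mul_assoc]
      _ = (u * ζ) * ρ := by rw [hζρ, mul_assoc]
      _ = ζ * (u * ρ) := by rw [hζu, mul_assoc]
  have hζ2 : ζ * ζ = 1 := by
    have h1 := ri_sq hD hζD
    calc ζ * ζ = (u * u) * (ζ * ζ) := by rw [hu2, one_mul]
      _ = u * (u * ζ) * ζ := by simp only [mul_assoc]
      _ = u * (ζ * u) * ζ := by rw [hζu]
      _ = u * ζ * (u * ζ) := by simp only [mul_assoc]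
      _ = 1 := h1
  have hζ1 : ζ ≠ 1 := by
    intro h1
    have h5 := zfam_conj_a haβ hmu h
    rw [← hζ, h1, mul_one, mul_one, ha2] at h5
    exact ri_ne_one hD hu h5.symm
  have hodd' : Odd (orderOf (u * x)) := by rw [← hρ, hh]; exact ⟨h, rfl⟩
  exact hxu (l2 hD hζ2 hζ1 hζu hζD hx hζx hodd').symm

end Cfsg.Agent.Lib.Helper18.RI
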