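import Cfsg.Agent.Lib.Helper96.SpTI
import Cfsg.Agent.Lib.Helper96.SpElem

/-!
# S5955 piece BAD-ELT (helper18 for helper96): an isometry that is a prescribed conjugate
`g_{τ s}` on each of `A` pairwise orthogonal nondegenerate blocks (adapted from
`Helper58.SpMax.exists_max`).
-/

set_option autoImplicit false
set_option linter.unusedSectionVars false
set_option linter.unusedVariables false

namespace Cfsg.Agent.Lib.Helper18.SpBadElt

open Module Cfsg.Agent.Lib.Helper96.Sp

section

variable {F : Type*} [Field F] {V : Type*} [AddCommGroup V] [Module F V]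
  {B : LinearMap.BilinForm F V}

theorem pow_congr_on {T T' : Module.End F V} {P : Submodule F V} (hinv : ∀ u ∈ P, T u ∈ P)
    (hag : ∀ u ∈ P, T' u = T u) (n : ℕ) : ∀ u ∈ P, (T' ^ n) u = (T ^ n) u := by
  induction n with
  | zero =>
    intro u _
    rw [pow_zero, pow_zero]
  | succ n ih =>
    intro u hu
    rw [pow_succ, pow_succ, Module.End.mul_apply, Module.End.mul_apply, hag u hu,
      ih _ (hinv u hu)]

/-- two endomorphisms agreeing on an invariant subspace have the same polynomials there -/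
theorem aeval_congr_on {T T' : Module.End F V} {P : Submodule F V} (hinv : ∀ u ∈ P, T u ∈ P)
    (hag : ∀ u ∈ P, T' u = T u) (p : Polynomial F) :
    ∀ u ∈ P, Polynomial.aeval T' p u = Polynomial.aeval T p u := by
  intro u hu
  rw [Polynomial.aeval_eq_sum_range, Polynomial.aeval_eq_sum_range, LinearMap.sum_apply,
    LinearMap.sum_apply]
  apply Finset.sum_congr rfl
  intro i _
  rw [LinearMap.smul_apply, LinearMap.smul_apply, pow_congr_on hinv hag i u hu]

/-- for an isometry, the commutator space is the orthogonal of the fixed space -/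
theorem range_eq_perp_ker [FiniteDimensional F V] (hA : B.IsAlt) (hN : ND B ⊤)
    {T : Module.End F V} (hT : Isom B T) :
    LinearMap.range (T - 1) = B.orthogonal (LinearMap.ker (T - 1)) := by
  apply Submodule.eq_of_le_of_finrank_eq (orth_iff_le_perp.mp (orth_ker_range hT))
  have h1 := LinearMap.finrank_range_add_finrank_ker (T - 1)
  have h2 := finrank_inf_perp hA hN (le_top : LinearMap.ker (T - 1) ≤ ⊤) hN
  rw [top_inf_eq, finrank_top] at h2
  omega

end

theorem exists_typed_elt_aux {F : Type*} [Field F] {V : Type*} [AddCommGroup V] [Module F V]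
    [FiniteDimensional F V] {B : LinearMap.BilinForm F V} (hA : B.IsAlt) (hN : ND B ⊤)
    (r c : ℕ) (hc : 1 ≤ c) (P₀ : Submodule F V) (hP₀ : ND B P₀) (hP₀c : finrank F P₀ = c)
    {t : ℕ} (g : Fin t → Module.End F V) (f : Fin t → Polynomial F)
    (hg : ∀ a, Isom B (g a) ∧ (g a) ^ r = 1 ∧ P₀.map (g a) ≤ P₀ ∧
      (∀ u ∈ B.orthogonal P₀, g a u = u) ∧ (∀ u ∈ P₀, g a u = u → u = 0) ∧
      Kills (g a) (f a) P₀)
    (A : ℕ) : ∀ (τ : Fin A → Fin t), c * A ≤ finrank F V →
    ∃ (x : Module.End F V) (P : Fin A → Submodule F V), Isom B x ∧ x ^ r = 1 ∧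
      (∀ s, ND B (P s) ∧ (P s).map x ≤ P s ∧ finrank F (P s) = c ∧
        Kills x (f (τ s)) (P s) ∧ P s ≤ LinearMap.range (x - 1)) ∧
      (∀ s s', s ≠ s' → Orth B (P s) (P s')) ∧
      LinearMap.range (x - 1) ≤ ⨆ s, P s ∧
      finrank F (LinearMap.ker (x - 1)) = finrank F V - c * A ∧
      ND B (LinearMap.ker (x - 1)) := by
  induction A with
  | zero =>
    intro τ _
    refine ⟨1, fun s => s.elim0, fun x y => rfl, one_pow r, fun s => s.elim0,
      fun s => s.elim0, ?_, ?_, ?_⟩
    · rw [sub_self, LinearMap.range_zero]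
      exact bot_le
    · rw [sub_self, LinearMap.ker_zero, finrank_top, mul_zero, Nat.sub_zero]
    · rw [sub_self, LinearMap.ker_zero]
      exact hN
  | succ A ih =>
    intro τ hk
    have hk' : c * A ≤ finrank F V := le_trans (Nat.mul_le_mul_left c (Nat.le_succ A)) hk
    obtain ⟨y, P, hy, hyr, hP, horth, hrange, hfin, hK⟩ :=
      ih (fun s => τ (Fin.castSucc s)) hk'
    have hck : c * (A + 1) = c * A + c := by ring
    have hKc : c ≤ finrank F (LinearMap.ker (y - 1)) := by
      rw [hfin]
      rw [hck] at hk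
      omega
    obtain ⟨b, hb⟩ := even_finrank_of_nd hA P₀ hP₀
    have hcb : c = 2 * b := by
      rw [← hP₀c, hb]
      ring
    obtain ⟨Q, hQK, hQ, hQc'⟩ := exists_nd_sub hA _ hK b (by rw [← hcb]; exact hKc)
    have hQc : finrank F Q = c := by rw [hQc', hcb]
    obtain ⟨h, hh, hhQ⟩ := witt_sub hA hN hP₀ hQ (by rw [hP₀c, hQc])
    obtain ⟨hx₁, hx₁r, hx₁inv, hx₁P, hx₁fix, hx₁kill⟩ := hg (τ (Fin.last A))
    generalize g (τ (Fin.last A)) = x₁ at hx₁ hx₁r hx₁inv hx₁P hx₁fix hx₁kill
    have hh' : ∀ a b : V, B (h a) (h b) = B a b := fun a b => hh a b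
    have hsymm : ∀ a b : V, B (h.symm a) (h.symm b) = B a b := by
      intro a b
      have := hh' (h.symm a) (h.symm b)
      rw [LinearEquiv.apply_symm_apply, LinearEquiv.apply_symm_apply] at this
      exact this.symm
    have hQmem : ∀ q : V, q ∈ Q ↔ ∃ w ∈ P₀, h w = q := by
      intro q
      rw [← hhQ, Submodule.mem_map]
      rfl
    set xQ : Module.End F V := (h : V →ₗ[F] V) ∘ₗ x₁ ∘ₗ (h.symm : V →ₗ[F] V) with hxQ
    have xQ_apply : ∀ v, xQ v = h (x₁ (h.symm v)) := fun v => rfl
    have xQ_isom : Isom B xQ := by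
      intro a b
      rw [xQ_apply, xQ_apply, hh', hx₁, hsymm]
    have xQ_pow : ∀ (m : ℕ) (v : V), (xQ ^ m) v = h ((x₁ ^ m) (h.symm v)) := by
      intro m
      induction m with
      | zero =>
        intro v
        rw [pow_zero, pow_zero, Module.End.one_apply, Module.End.one_apply,
          LinearEquiv.apply_symm_apply]
      | succ m ihm =>
        intro v
        rw [pow_succ, Module.End.mul_apply, ihm, xQ_apply, LinearEquiv.symm_apply_apply,
          pow_succ, Module.End.mul_apply]
    have xQ_r : xQ ^ r = 1 := by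
      apply LinearMap.ext
      intro v
      rw [xQ_pow, hx₁r, Module.End.one_apply, Module.End.one_apply,
        LinearEquiv.apply_symm_apply]
    have xQ_perp : ∀ u ∈ B.orthogonal Q, xQ u = u := by
      intro u hu
      have h1 : h.symm u ∈ B.orthogonal P₀ := by
        rw [mem_perp_iff]
        intro w hw
        have h2 : B w (h.symm u) = B (h w) u := by
          rw [← hh' w (h.symm u), LinearEquiv.apply_symm_apply]
        rw [h2]
        exact (mem_perp_iff.mp hu) (h w) ((hQmem _).2 ⟨w, hw, rfl⟩)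
      rw [xQ_apply, hx₁P _ h1, LinearEquiv.apply_symm_apply]
    have xQ_Q : ∀ q ∈ Q, xQ q ∈ Q := by
      intro q hq
      obtain ⟨w, hw, rfl⟩ := (hQmem q).1 hq
      rw [xQ_apply, LinearEquiv.symm_apply_apply]
      exact (hQmem _).2 ⟨x₁ w, hx₁inv ⟨w, hw, rfl⟩, rfl⟩
    have xQ_fix : ∀ q ∈ Q, xQ q = q → q = 0 := by
      intro q hq hfix
      obtain ⟨w, hw, rfl⟩ := (hQmem q).1 hq
      rw [xQ_apply, LinearEquiv.symm_apply_apply] at hfix
      have h1 : x₁ w = w := h.injective hfix
      rw [hx₁fix w hw h1, map_zero]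
    have y_K : ∀ v, v ∈ LinearMap.ker (y - 1) ↔ y v = v := by
      intro v
      rw [LinearMap.mem_ker, LinearMap.sub_apply, Module.End.one_apply, sub_eq_zero]
    have y_Q : ∀ q ∈ Q, y q = q := fun q hq => (y_K q).1 (hQK hq)
    have y_perp : ∀ p ∈ B.orthogonal Q, y p ∈ B.orthogonal Q := by
      intro p hp
      have h1 : Q.map y ≤ Q := by
        rintro _ ⟨q, hq, rfl⟩
        rw [y_Q q hq]; exact hq
      exact perp_invariant hN hy h1 ⟨p, hp, rfl⟩
    have hcompl := nd_isCompl hA hQ
    have dec : ∀ x : V, ∃ q ∈ Q, ∃ p ∈ B.orthogonal Q, x = q + p := by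
      intro x
      have hx : x ∈ Q ⊔ B.orthogonal Q := by rw [hcompl.sup_eq_top]; exact Submodule.mem_top
      obtain ⟨q, hq, p, hp, rfl⟩ := Submodule.mem_sup.mp hx
      exact ⟨q, hq, p, hp, rfl⟩
    have key : ∀ q ∈ Q, ∀ p ∈ B.orthogonal Q, y (xQ (q + p)) = xQ q + y p := by
      intro q hq p hp
      rw [map_add, map_add, y_Q _ (xQ_Q q hq), xQ_perp p hp]
    have hcomm : Commute y xQ := by
      apply LinearMap.ext
      intro v
      obtain ⟨q, hq, p, hp, rfl⟩ := dec v
      rw [Module.End.mul_apply, Module.End.mul_apply, key q hq p hp, map_add, map_add, y_Q q hq,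
        xQ_perp _ (y_perp p hp)]
    -- the new block
    have xQ_aeval : ∀ (p : Polynomial F) (v : V),
        Polynomial.aeval xQ p v = h (Polynomial.aeval x₁ p (h.symm v)) := by
      intro p v
      have e1 : xQ = (h.conjAlgEquiv F) x₁ := rfl
      rw [e1, Polynomial.aeval_algHom_apply]
      rfl
    have xQ_kill : Kills xQ (f (τ (Fin.last A))) Q := by
      intro q hq
      obtain ⟨w, hw, rfl⟩ := (hQmem q).1 hq
      rw [xQ_aeval, LinearEquiv.symm_apply_apply, hx₁kill w hw, map_zero]
    have hker_eq : LinearMap.ker (y * xQ - 1) = LinearMap.ker (y - 1) ⊓ B.orthogonal Q := by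
      ext v
      rw [LinearMap.mem_ker, LinearMap.sub_apply, Module.End.one_apply, sub_eq_zero,
        Module.End.mul_apply, Submodule.mem_inf, y_K]
      constructor
      · intro hv
        obtain ⟨q, hq, p, hp, rfl⟩ := dec v
        rw [key q hq p hp] at hv
        have h1 : xQ q - q = p - y p := by
          rw [sub_eq_sub_iff_add_eq_add, hv, add_comm]
        have h2 : xQ q - q ∈ Q ⊓ B.orthogonal Q :=
          ⟨Q.sub_mem (xQ_Q q hq) hq, by rw [h1]; exact Submodule.sub_mem _ hp (y_perp p hp)⟩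
        rw [nd_inf_perp hA hQ, Submodule.mem_bot, sub_eq_zero] at h2
        have hq0 : q = 0 := xQ_fix q hq h2
        rw [hq0, map_zero, zero_add, zero_add] at hv
        rw [hq0, zero_add]
        exact ⟨hv, hp⟩
      · rintro ⟨hv1, hv2⟩
        rw [xQ_perp v hv2, hv1]
    have y'_perp : ∀ u ∈ B.orthogonal Q, (y * xQ) u = y u := by
      intro u hu
      rw [Module.End.mul_apply, xQ_perp u hu]
    have y'_Q : ∀ q ∈ Q, (y * xQ) q = xQ q := by
      intro q hq
      rw [Module.End.mul_apply, y_Q _ (xQ_Q q hq)]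
    have hy' : Isom B (y * xQ) := by
      intro a b
      rw [Module.End.mul_apply, Module.End.mul_apply, hy, xQ_isom]
    have hPQ : ∀ s, Orth B (P s) Q := fun s =>
      orth_mono (orth_symm hA (orth_ker_range hy)) (hP s).2.2.2.2 hQK
    have hPperp : ∀ s, P s ≤ B.orthogonal Q := fun s =>
      orth_iff_le_perp.mp (orth_symm hA (hPQ s))
    have hrange' := range_eq_perp_ker hA hN hy'
    obtain ⟨P', hP'last, hP'cs⟩ : ∃ P' : Fin (A + 1) → Submodule F V,
        P' (Fin.last A) = Q ∧ ∀ s : Fin A, P' (Fin.castSucc s) = P s :=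
      ⟨Fin.snoc P Q, by simp, fun s => by simp⟩
    refine ⟨y * xQ, P', hy', ?_, ?_, ?_, ?_, ?_, ?_⟩
    · rw [hcomm.mul_pow, hyr, xQ_r, one_mul]
    · intro s
      induction s using Fin.lastCases with
      | last =>
        rw [hP'last]
        refine ⟨hQ, ?_, hQc, ?_, ?_⟩
        · rintro _ ⟨q, hq, rfl⟩
          rw [y'_Q q hq]
          exact xQ_Q q hq
        · intro q hq
          rw [aeval_congr_on (T := xQ) (T' := y * xQ) xQ_Q y'_Q _ q hq]
          exact xQ_kill q hq
        · rw [hrange', hker_eq]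
          intro q hq
          rw [mem_perp_iff]
          intro w hw
          exact (mem_perp_iff' hA).mp hw.2 q hq
      | cast s =>
        rw [hP'cs]
        obtain ⟨h1, h2, h3, h4, h5⟩ := hP s
        refine ⟨h1, ?_, h3, ?_, ?_⟩
        · rintro _ ⟨u, hu, rfl⟩
          rw [y'_perp u (hPperp s hu)]
          exact h2 ⟨u, hu, rfl⟩
        · intro u hu
          rw [aeval_congr_on (T := y) (T' := y * xQ) (fun u hu => h2 ⟨u, hu, rfl⟩)
            (fun u hu => y'_perp u (hPperp s hu)) _ u hu]
          exact h4 u hu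
        · rw [hrange', hker_eq]
          intro u hu
          rw [mem_perp_iff]
          intro w hw
          exact orth_ker_range hy w hw.1 u (h5 hu)
    · intro s s'
      induction s using Fin.lastCases with
      | last =>
        induction s' using Fin.lastCases with
        | last =>
          intro hne
          exact absurd rfl hne
        | cast s' =>
          intro _
          rw [hP'last, hP'cs]
          exact orth_symm hA (hPQ s')
      | cast s =>
        induction s' using Fin.lastCases with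
        | last =>
          intro _
          rw [hP'last, hP'cs]
          exact hPQ s
        | cast s' =>
          intro hne
          rw [hP'cs, hP'cs]
          exact horth s s' (fun e => hne (by rw [e]))
    · rintro _ ⟨v, rfl⟩
      obtain ⟨q, hq, p, hp, rfl⟩ := dec v
      have e1 : (y * xQ - 1) (q + p) = (xQ q - q) + (y p - p) := by
        rw [LinearMap.sub_apply, Module.End.mul_apply, key q hq p hp, Module.End.one_apply]
        abel
      rw [e1]
      apply Submodule.add_mem
      · have h1 : Q ≤ ⨆ s, P' s := by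
          rw [← hP'last]
          exact le_iSup P' (Fin.last A)
        exact h1 (Q.sub_mem (xQ_Q q hq) hq)
      · have h1 : (⨆ s, P s) ≤ ⨆ s, P' s :=
          iSup_le (fun s => by rw [← hP'cs s]; exact le_iSup P' (Fin.castSucc s))
        apply h1
        apply hrange
        exact ⟨p, by rw [LinearMap.sub_apply, Module.End.one_apply]⟩
    · rw [hker_eq]
      have h3 := (nd_rel hA hQ hK hQK).2.2
      rw [hQc, hfin] at h3
      rw [hck] at hk ⊢
      omega
    · rw [hker_eq]
      exact (nd_rel hA hQ hK hQK).1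

/-- BAD-ELT. -/
theorem exists_typed_elt {F : Type*} [Field F] {V : Type*} [AddCommGroup V] [Module F V]
    [FiniteDimensional F V] {B : LinearMap.BilinForm F V} (hA : B.IsAlt) (hN : ND B ⊤)
    (r c : ℕ) (hc : 1 ≤ c) (P₀ : Submodule F V) (hP₀ : ND B P₀) (hP₀c : finrank F P₀ = c)
    {t : ℕ} (g : Fin t → Module.End F V) (f : Fin t → Polynomial F)
    (hg : ∀ a, Isom B (g a) ∧ (g a) ^ r = 1 ∧ P₀.map (g a) ≤ P₀ ∧
      (∀ u ∈ B.orthogonal P₀, g a u = u) ∧ (∀ u ∈ P₀, g a u = u → u = 0) ∧
      Kills (g a) (f a) P₀)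
    (A : ℕ) (hAc : c * A ≤ finrank F V) (τ : Fin A → Fin t) :
    ∃ (x : Module.End F V) (P : Fin A → Submodule F V), Isom B x ∧ x ^ r = 1 ∧
      (∀ s, ND B (P s) ∧ (P s).map x ≤ P s ∧ finrank F (P s) = c ∧
        Kills x (f (τ s)) (P s) ∧ P s ≤ LinearMap.range (x - 1)) ∧
      (∀ s s', s ≠ s' → Orth B (P s) (P s')) ∧
      LinearMap.range (x - 1) ≤ ⨆ s, P s ∧
      finrank F (LinearMap.ker (x - 1)) = finrank F V - c * A := by
  obtain ⟨x, P, h1, h2, h3, h4, h5, h6, -⟩ :=
    exists_typed_elt_aux hA hN r c hc P₀ hP₀ hP₀c g f hg A τ hAc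
  exact ⟨x, P, h1, h2, h3, h4, h5, h6⟩

end Cfsg.Agent.Lib.Helper18.SpBadElt
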