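import Mathlib
import Cfsg.Agent.Lib.Helper96.SpDefs
import Cfsg.Agent.Lib.Helper51.JForm

set_option autoImplicit false

namespace Cfsg.Agent.Lib.Helper18.SpCH2

open Module Cfsg.Agent.Lib.Helper96.Sp

theorem four_dvd_of_atype {F : Type*} [Field F] [CharP F 2] {V : Type*} [AddCommGroup V]
    [Module F V] [FiniteDimensional F V] {B : LinearMap.BilinForm F V} (hA : B.IsAlt)
    (hN : ND B ⊤) (u : Module.End F V) (hu : Isom B u) (hsq : u * u = 1)
    (hat : ∀ v, B v (u v) = 0) (hkr : LinearMap.ker (u - 1) = LinearMap.range (u - 1))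
    (W : Submodule F V) (hW : W.map u ≤ W) (hWnd : ND B W) : 4 ∣ finrank F W := by
  have h2 : (2 : F) = 0 := by
    have := CharP.cast_eq_zero F 2
    exact_mod_cast this
  have hxx : ∀ x : V, x + x = 0 := by
    intro x
    rw [← two_smul F x, h2, zero_smul]
  have huu : ∀ x : V, u (u x) = x := by
    intro x
    have := congrArg (fun f : Module.End F V => f x) hsq
    simpa using this
  obtain ⟨N, hNdef⟩ : ∃ N : Module.End F V, N = u - 1 := ⟨_, rfl⟩
  have hNx : ∀ x : V, N x = u x - x := by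
    intro x
    rw [hNdef]
    rfl
  have hNN : ∀ x : V, N (N x) = 0 := by
    intro x
    rw [hNx (N x), hNx x, map_sub, huu]
    have e : x - u x - (u x - x) = (x + x) - (u x + u x) := by abel
    rw [e, hxx, hxx, sub_zero]
  have hNW : ∀ w ∈ W, N w ∈ W := by
    intro w hw
    rw [hNx]
    exact W.sub_mem (hW (Submodule.mem_map_of_mem hw)) hw
  have hW'inv : (B.orthogonal W).map u ≤ B.orthogonal W := perp_invariant hN hu hW
  have hNW' : ∀ w ∈ B.orthogonal W, N w ∈ B.orthogonal W := by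
    intro w hw
    rw [hNx]
    exact (B.orthogonal W).sub_mem (hW'inv (Submodule.mem_map_of_mem hw)) hw
  obtain ⟨n, hn⟩ : ∃ n : ↥W →ₗ[F] ↥W, n = N.restrict hNW := ⟨_, rfl⟩
  have hn_coe : ∀ x : ↥W, ((n x : ↥W) : V) = N (x : V) := by
    intro x
    rw [hn]
    rfl
  have hcompl := nd_isCompl hA hWnd
  have hker_range : LinearMap.ker n = LinearMap.range n := by
    apply le_antisymm
    · intro x hx
      rw [LinearMap.mem_ker] at hx
      have hx0 : N (x : V) = 0 := by
        rw [← hn_coe, hx]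
        rfl
      have hxk : (x : V) ∈ LinearMap.ker (u - 1) := by
        rw [LinearMap.mem_ker, ← hNdef]
        exact hx0
      rw [hkr] at hxk
      obtain ⟨y, hy⟩ := hxk
      rw [← hNdef] at hy
      obtain ⟨w, hw, w', hw', rfl⟩ : ∃ w ∈ W, ∃ w' ∈ B.orthogonal W, w + w' = y :=
        Submodule.mem_sup.mp (hcompl.sup_eq_top ▸ (Submodule.mem_top : y ∈ (⊤ : Submodule F V)))
      have h1 : N w' = (x : V) - N w := by
        rw [map_add] at hy
        rw [← hy]
        abel
      have h2' : N w' ∈ W ⊓ B.orthogonal W :=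
        ⟨by rw [h1]; exact W.sub_mem x.2 (hNW w hw), hNW' w' hw'⟩
      rw [nd_inf_perp hA hWnd, Submodule.mem_bot] at h2'
      refine ⟨⟨w, hw⟩, ?_⟩
      apply Subtype.ext
      rw [hn_coe]
      rw [h2'] at h1
      exact (sub_eq_zero.mp h1.symm).symm
    · rintro _ ⟨y, rfl⟩
      rw [LinearMap.mem_ker]
      apply Subtype.ext
      rw [hn_coe, hn_coe, hNN]
      rfl
  have hrk := LinearMap.finrank_range_add_finrank_ker n
  rw [← hker_range] at hrk
  -- the alternating form γ x y = B x (N y) on W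
  obtain ⟨γ, hγ⟩ : ∃ γ : LinearMap.BilinForm F ↥W,
      γ = B.compl₁₂ W.subtype (N ∘ₗ W.subtype) := ⟨_, rfl⟩
  have hγ_apply : ∀ x y : ↥W, γ x y = B (x : V) (N (y : V)) := by
    intro x y
    rw [hγ]
    rfl
  have hγalt : γ.IsAlt := by
    intro x
    rw [hγ_apply, hNx, map_sub, hat, hA, sub_zero]
  have hR : ∀ y, y ∈ LinearMap.ker n ↔ ∀ x, γ x y = 0 := by
    intro y
    rw [LinearMap.mem_ker]
    constructor
    · intro hy x
      have hy0 : N (y : V) = 0 := by
        rw [← hn_coe, hy]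
        rfl
      rw [hγ_apply, hy0, map_zero]
    · intro h
      apply Subtype.ext
      rw [hn_coe]
      show N (y : V) = 0
      apply hWnd (N (y : V)) (hNW _ y.2)
      intro v hv
      rw [alt_swap hA]
      have := h ⟨v, hv⟩
      rw [hγ_apply] at this
      rw [this, neg_zero]
  obtain ⟨k, hk⟩ := Cfsg.Agent.Lib.Helper51.JForm.even_corank γ hγalt (LinearMap.ker n) hR
  refine ⟨k, ?_⟩
  omega

end Cfsg.Agent.Lib.Helper18.SpCH2
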