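import Mathlib
import Cfsg.Agent.Lib.Helper91.SpU

set_option autoImplicit false

namespace Cfsg.Agent.Lib.Helper18.SpH1g

open Matrix Cfsg.Agent.Lib.Helper91.SpU

/-- abstract block identity behind `weyl_conj` -/
theorem block_identity {n : Type*} [Fintype n] [DecidableEq n] {R : Type*} [CommRing R]
    (E P Q : Matrix n n R) (hEE : E * E = E) (hPE : P * E = P) (hEP : E * P = 0)
    (hEQ : E * Q = Q) (hQE : Q * E = 0) :
    fromBlocks (1 - E) E (-E) (1 - E) * fromBlocks 1 (P + Q) 0 1 =
      fromBlocks (1 + P) 0 0 (1 - Q) * fromBlocks (1 - E) E (-E) (1 - E) := by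
  rw [Matrix.fromBlocks_multiply, Matrix.fromBlocks_multiply]
  congr 1
  · simp only [Matrix.mul_one, Matrix.mul_zero, Matrix.zero_mul, add_zero, Matrix.add_mul,
      Matrix.mul_sub, Matrix.one_mul, hPE]
    abel
  · simp only [Matrix.mul_one, Matrix.mul_zero, Matrix.zero_mul, add_zero, Matrix.add_mul,
      Matrix.mul_add, Matrix.sub_mul, Matrix.one_mul, hPE, hEP, hEQ]
    abel
  · simp only [Matrix.mul_one, Matrix.mul_zero, Matrix.zero_mul, add_zero, zero_add,
      Matrix.sub_mul, Matrix.mul_neg, Matrix.one_mul, hQE]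
    abel
  · simp only [Matrix.mul_one, Matrix.mul_zero, Matrix.zero_mul, add_zero, zero_add,
      Matrix.sub_mul, Matrix.mul_sub, Matrix.mul_add, Matrix.neg_mul, Matrix.one_mul, hQE, hEP,
      hEQ]
    abel

theorem weyl_conj (m : ℕ) (K : Type*) [Field K] (i j : Fin m) (hij : i ≠ j) (a : K)
    (hB : (Matrix.single i j a + Matrix.single j i a)ᵀ =
      Matrix.single i j a + Matrix.single j i a) :
    ∃ g : Matrix.symplecticGroup (Fin m) K,
      g * sq m K (Matrix.single i j a + Matrix.single j i a) hB * g⁻¹ =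
        slphi m K (SpecialLinearGroup.transvection hij a) := by
  obtain ⟨E, hE⟩ : ∃ E : Matrix (Fin m) (Fin m) K, E = Matrix.single j j 1 := ⟨_, rfl⟩
  have hET : Eᵀ = E := by rw [hE, Matrix.transpose_single]
  have hEE : E * E = E := by rw [hE, Matrix.single_mul_single_same, mul_one]
  have hPE : Matrix.single i j a * E = Matrix.single i j a := by
    rw [hE, Matrix.single_mul_single_same, mul_one]
  have hEP : E * Matrix.single i j a = 0 := by
    rw [hE]
    exact Matrix.single_mul_single_of_ne _ _ _ _ (Ne.symm hij) _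
  have hEQ : E * Matrix.single j i a = Matrix.single j i a := by
    rw [hE, Matrix.single_mul_single_same, one_mul]
  have hQE : Matrix.single j i a * E = 0 := by
    rw [hE]
    exact Matrix.single_mul_single_of_ne _ _ _ _ hij _
  have hmem : fromBlocks (1 - E) E (-E) (1 - E) ∈ Matrix.symplecticGroup (Fin m) K := by
    rw [SymplecticGroup.fromBlocks_mem_iff]
    refine ⟨?_, ?_, ?_⟩
    · simp only [Matrix.transpose_sub, Matrix.transpose_one, Matrix.transpose_neg, hET,
        Matrix.sub_mul, Matrix.mul_sub, Matrix.mul_neg, Matrix.neg_mul, Matrix.one_mul,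
        Matrix.mul_one, hEE]
      abel
    · simp only [Matrix.transpose_sub, Matrix.transpose_one, hET,
        Matrix.sub_mul, Matrix.mul_sub, Matrix.one_mul, Matrix.mul_one, hEE]
    · simp only [Matrix.transpose_sub, Matrix.transpose_one, Matrix.transpose_neg, hET,
        Matrix.sub_mul, Matrix.mul_sub, Matrix.mul_neg, Matrix.neg_mul, Matrix.one_mul,
        Matrix.mul_one, hEE]
      abel
  refine ⟨⟨fromBlocks (1 - E) E (-E) (1 - E), hmem⟩, ?_⟩
  rw [mul_inv_eq_iff_eq_mul]
  apply Subtype.ext
  have hx : (slphi m K (SpecialLinearGroup.transvection hij a)).1 =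
      fromBlocks (1 + Matrix.single i j a) 0 0 (1 - Matrix.single j i a) := by
    rw [slphi_apply, sphi_coe]
    have h1 : (SpecialLinearGroup.toGL (SpecialLinearGroup.transvection hij a)).1 =
        1 + Matrix.single i j a := rfl
    have h2 : ((SpecialLinearGroup.toGL (SpecialLinearGroup.transvection hij a))⁻¹).1 =
        1 + Matrix.single i j (-a) := by
      rw [← map_inv, SpecialLinearGroup.transvection_inv]
      rfl
    rw [h1, h2, Matrix.transpose_add, Matrix.transpose_one, Matrix.transpose_single,
      ← Matrix.single_neg, ← sub_eq_add_neg]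
  change fromBlocks (1 - E) E (-E) (1 - E) *
      fromBlocks 1 (Matrix.single i j a + Matrix.single j i a) 0 1 =
    (slphi m K (SpecialLinearGroup.transvection hij a)).1 * fromBlocks (1 - E) E (-E) (1 - E)
  rw [hx]
  exact block_identity E _ _ hEE hPE hEP hEQ hQE

end Cfsg.Agent.Lib.Helper18.SpH1g
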