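import Mathlib
import Cfsg.Prelude.Def_GeometricClasses
import Cfsg.Prelude.Def_ClassicalGeometry
import Cfsg.Agent.Lib.Helper18.OrthSubfA
import Cfsg.Agent.Lib.Helper18.UnitaryFr
import Cfsg.Agent.Lib.Helper50.SubfMax
import Cfsg.Agent.Lib.Helper53.Hermitian

/-!
# Unitary subfield groups of odd prime degree in `SU_n(q)`, part A (helper18)

Set-up: `F` has `q^2` elements, `F₀` is a subfield with `|F| = |F₀|^r`, `r` odd.  Then
`|F₀| = s^2` and `x^q = x^s` on `F₀`, so the standard hermitian form of `F^n` restricts to the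
standard hermitian form of `F₀^n`.

* `exists_sqrt_card`: the arithmetic of the set-up.
* `lm`, `exists_lift`: isometries of `F₀^n` of determinant one, lifted to the subfield group.
* `subf_reduce`: reduction of the maximality statement to the standard rational structure.
-/

set_option autoImplicit false
set_option linter.unusedSectionVars false
set_option linter.unusedVariables false

namespace Cfsg.Agent.Lib.Helper18

open Matrix Module Cfsg.Agent.Lib.Helper7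

section SubfUA

variable {F : Type*} [Field F] [Fintype F] {q n : ℕ} {F₀ : Subfield F} {s r : ℕ}

theorem exists_sqrt_card (hF : Fintype.card F = q ^ 2) (F₀ : Subfield F) (r : ℕ) (hro : Odd r)
    (hcard : Fintype.card F = Nat.card F₀ ^ r) :
    ∃ s : ℕ, Nat.card F₀ = s ^ 2 ∧ ∀ x : F₀, (x : F) ^ q = (x : F) ^ s := by
  obtain ⟨m, rfl⟩ := hro
  obtain ⟨N, hN⟩ : ∃ N, N = Nat.card F₀ := ⟨_, rfl⟩
  rw [← hN] at hcard
  have hNpos : 0 < N := by rw [hN]; exact Nat.card_pos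
  have h1 : (N ^ m) ^ 2 * N = q ^ 2 := by rw [← hF, hcard]; ring
  have hdvd : N ^ m ∣ q := by
    have h2 : (N ^ m) ^ 2 ∣ q ^ 2 := Dvd.intro _ h1
    exact (Nat.pow_dvd_pow_iff (by norm_num)).mp h2
  obtain ⟨s, hs⟩ := hdvd
  refine ⟨s, ?_, ?_⟩
  · have h2 : (N ^ m) ^ 2 * N = (N ^ m) ^ 2 * s ^ 2 := by rw [h1, hs]; ring
    rw [← hN]
    exact Nat.eq_of_mul_eq_mul_left (by positivity) h2
  · intro x
    have hx : (x : F) ^ N = x := by
      rw [hN]; exact Cfsg.Agent.Lib.Helper50.pow_card_of_mem F₀ x.2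
    have hxm : ∀ j : ℕ, (x : F) ^ (N ^ j) = x := by
      intro j
      induction j with
      | zero => rw [pow_zero, pow_one]
      | succ j ih => rw [pow_succ, pow_mul, ih, hx]
    rw [hs, pow_mul, hxm]

/-- the data of the unitary subfield set-up -/
structure UD (F : Type*) [Field F] [Fintype F] (q n : ℕ) (F₀ : Subfield F) (s r : ℕ) :
    Prop where
  hF : Fintype.card F = q ^ 2
  hK : Nat.card F₀ = s ^ 2
  hpow : ∀ x : F₀, (x : F) ^ q = (x : F) ^ s
  hn : 13 ≤ n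
  hr : r.Prime
  hro : Odd r
  hcard : Fintype.card F = Nat.card F₀ ^ r

theorem UD.cardK (D : UD F q n F₀ s r) [Fintype F₀] : Fintype.card F₀ = s ^ 2 := by
  rw [← Nat.card_eq_fintype_card]; exact D.hK

theorem herm_cv_of (hpow : ∀ x : F₀, (x : F) ^ q = (x : F) ^ s) (u v : Fin n → F₀) :
    Cfsg.hermForm n F q (cv u) (cv v) = ((Cfsg.hermForm n F₀ s u v : F₀) : F) := by
  unfold Cfsg.hermForm cv
  push_cast
  refine Finset.sum_congr rfl fun i _ => ?_
  rw [hpow]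

theorem UD.herm_cv (D : UD F q n F₀ s r) (u v : Fin n → F₀) :
    Cfsg.hermForm n F q (cv u) (cv v) = ((Cfsg.hermForm n F₀ s u v : F₀) : F) :=
  herm_cv_of D.hpow u v

/-- entrywise inclusion of matrices over `F₀` -/
def lm (A : Matrix (Fin n) (Fin n) F₀) : Matrix (Fin n) (Fin n) F := A.map (fun x => (x : F))

theorem lm_apply (A : Matrix (Fin n) (Fin n) F₀) (i j : Fin n) : lm A i j = (A i j : F) := rfl

theorem lm_mulVec (A : Matrix (Fin n) (Fin n) F₀) (u : Fin n → F₀) :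
    lm A *ᵥ cv u = cv (A *ᵥ u) := by
  funext i
  simp only [lm, cv, Matrix.mulVec, dotProduct, Matrix.map_apply]
  push_cast
  rfl

theorem lm_eq_map (A : Matrix (Fin n) (Fin n) F₀) : lm A = (F₀.subtype).mapMatrix A := rfl

theorem lm_det (A : Matrix (Fin n) (Fin n) F₀) : (lm A).det = ((A.det : F₀) : F) := by
  rw [lm_eq_map, ← RingHom.map_det]
  rfl

theorem lm_mul (A B : Matrix (Fin n) (Fin n) F₀) : lm (A * B) = lm A * lm B := by
  rw [lm_eq_map, lm_eq_map, lm_eq_map, map_mul]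

theorem lm_one : lm (1 : Matrix (Fin n) (Fin n) F₀) = 1 := by
  rw [lm_eq_map, map_one]

theorem lm_transpose (A : Matrix (Fin n) (Fin n) F₀) : lm Aᵀ = (lm A)ᵀ := rfl

theorem ratM_lm (A : Matrix (Fin n) (Fin n) F₀) : Cfsg.Agent.Lib.Helper50.RatM F₀ (lm A) :=
  fun i j => (A i j).2

theorem cv_single (j : Fin n) :
    cv (Pi.single j (1 : F₀)) = (Pi.single j (1 : F) : Fin n → F) := by
  funext i
  by_cases h : i = j
  · subst h; simp [cv]
  · simp [cv, Pi.single_eq_of_ne h]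

theorem cv_zero : cv (0 : Fin n → F₀) = (0 : Fin n → F) := by
  funext i; simp [cv]

theorem cv_sub (u v : Fin n → F₀) : cv (u - v) = cv u - cv v := by
  funext i; simp [cv]

theorem cv_neg (u : Fin n → F₀) : cv (-u) = -cv u := by
  funext i; simp [cv]

theorem cv_ne_zero {u : Fin n → F₀} (hu : u ≠ 0) : cv u ≠ (0 : Fin n → F) := by
  intro h
  apply hu
  apply cv_inj
  rw [h, cv_zero]

/-- a matrix agreeing with `A` on rational vectors is the lift of `A` -/
theorem lm_ext (A : Matrix (Fin n) (Fin n) F₀) (B : Matrix (Fin n) (Fin n) F)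
    (h : ∀ x : Fin n → F₀, B *ᵥ cv x = cv (A *ᵥ x)) : B = lm A := by
  ext i j
  have h1 := congrFun (h (Pi.single j 1)) i
  rw [cv_single, Matrix.mulVec_single_one, Matrix.mulVec_single_one] at h1
  exact h1

/-- an isometry of `F₀^n` of determinant one gives an element of the subfield group in `SU` -/
theorem exists_lift (hF : Fintype.card F = q ^ 2) (hK : Nat.card F₀ = s ^ 2)
    (hpow : ∀ x : F₀, (x : F) ^ q = (x : F) ^ s)
    (A : Matrix (Fin n) (Fin n) F₀) (hdet : A.det = 1)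
    (hpres : ∀ x y, Cfsg.hermForm n F₀ s (A *ᵥ x) (A *ᵥ y) = Cfsg.hermForm n F₀ s x y) :
    ∃ X : GL (Fin n) F, X ∈ Cfsg.Agent.Lib.Helper50.H1 (Fin n) F₀ ⊓
      (Cfsg.GU n F q ⊓ Cfsg.Geo.specialLinear (Fin n) F) ∧
      (X : Matrix (Fin n) (Fin n) F) = lm A := by
  classical
  have : Fintype F₀ := Fintype.ofFinite F₀
  have hK' : Fintype.card F₀ = s ^ 2 := by rw [← Nat.card_eq_fintype_card]; exact hK
  have hd : (lm A : Matrix (Fin n) (Fin n) F).det = 1 := by rw [lm_det, hdet]; rfl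
  have hGU : Matrix.GeneralLinearGroup.mkOfDetNeZero (lm A : Matrix (Fin n) (Fin n) F)
      (by rw [hd]; exact one_ne_zero) ∈ Cfsg.GU n F q := by
    rw [mem_GU_iff]
    apply preserves_of_isFr hF
    intro i j
    show Cfsg.hermForm n F q (cv (colFr A i)) (cv (colFr A j)) = _
    rw [herm_cv_of hpow, isFr_of_preserves hK' A hpres i j]
    split_ifs <;> simp
  exact ⟨Matrix.GeneralLinearGroup.mkOfDetNeZero (lm A) (by rw [hd]; exact one_ne_zero),
    ⟨Cfsg.Agent.Lib.Helper50.mem_H1_of F₀ _ 1 one_ne_zero (lm A) (ratM_lm A)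
      (by rw [one_smul]; rfl), hGU,
      (Cfsg.Agent.Lib.Helper97.mem_specialLinear_iff _).2 hd⟩, rfl⟩

theorem map_conj_of_mem {G : Type*} [Group G] (H : Subgroup G) (g : G) (hg : g ∈ H) :
    H.map (MulAut.conj g).toMonoidHom = H := by
  apply le_antisymm
  · rintro _ ⟨y, hy, rfl⟩
    exact H.mul_mem (H.mul_mem hg hy) (H.inv_mem hg)
  · intro x hx
    refine ⟨g⁻¹ * x * g, H.mul_mem (H.mul_mem (H.inv_mem hg) hx) hg, ?_⟩
    show g * (g⁻¹ * x * g) * g⁻¹ = x
    group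

/-- Gram–Schmidt: a rational change of basis making the rational structure orthonormal -/
theorem exists_orthonormal_P (hF : Fintype.card F = q ^ 2) (hK : Nat.card F₀ = s ^ 2)
    (hpow : ∀ x : F₀, (x : F) ^ q = (x : F) ^ s) (P : GL (Fin n) F)
    (hP : Cfsg.Geo.IsFormRationalStructure (Cfsg.hermForm n F q) F₀ 1 P) :
    ∃ C : Matrix (Fin n) (Fin n) F₀,
      IsFr q n n (colFr ((P : Matrix (Fin n) (Fin n) F) * lm C)) := by
  classical
  have : Fintype F₀ := Fintype.ofFinite F₀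
  have hK' : Fintype.card F₀ = s ^ 2 := by rw [← Nat.card_eq_fintype_card]; exact hK
  obtain ⟨σ₀, hσ₀⟩ := Cfsg.Agent.Lib.Helper44.frob_equiv_exists hK'
  have hσ1 : σ₀ ≠ 1 := by
    obtain ⟨θ, hθ⟩ := Cfsg.Agent.S0782.exists_not_fixed hK'
    intro h
    apply hθ
    rw [← hσ₀, h]
    rfl
  have hσ2 : ∀ x, σ₀ (σ₀ x) = x := fun x => by rw [hσ₀, hσ₀, herm_pow_pow hK']
  have hσF : ∀ x : F₀, ((σ₀ x : F₀) : F) = (x : F) ^ q := by
    intro x
    rw [hσ₀, hpow]
    push_cast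
    rfl
  obtain ⟨G, hG⟩ : ∃ G : Matrix (Fin n) (Fin n) F,
      G = (P : Matrix (Fin n) (Fin n) F)ᵀ * (P : Matrix (Fin n) (Fin n) F).map (· ^ q) :=
    ⟨_, rfl⟩
  have hGh : ∀ i j, G i j = Cfsg.hermForm n F q
      ((P : Matrix (Fin n) (Fin n) F) *ᵥ Pi.single i 1)
      ((P : Matrix (Fin n) (Fin n) F) *ᵥ Pi.single j 1) := by
    intro i j
    rw [hG, Matrix.mul_apply, Matrix.mulVec_single_one, Matrix.mulVec_single_one]
    rfl
  have hGmem : ∀ i j, G i j ∈ F₀ := by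
    intro i j
    have h1 := hP (Pi.single i 1) (Pi.single j 1)
      (fun k => by
        by_cases h : k = i
        · subst h; rw [Pi.single_eq_same]; exact F₀.one_mem
        · rw [Pi.single_eq_of_ne h]; exact F₀.zero_mem)
      (fun k => by
        by_cases h : k = j
        · subst h; rw [Pi.single_eq_same]; exact F₀.one_mem
        · rw [Pi.single_eq_of_ne h]; exact F₀.zero_mem)
    rw [one_mul] at h1
    rw [hGh]
    exact h1
  obtain ⟨G₀, hG₀⟩ : ∃ G₀ : Matrix (Fin n) (Fin n) F₀, G₀ = fun i j => ⟨G i j, hGmem i j⟩ :=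
    ⟨_, rfl⟩
  have hlG : lm G₀ = G := by
    ext i j
    rw [lm_apply, hG₀]
  have hH : ∀ i j, σ₀ (G₀ j i) = G₀ i j := by
    intro i j
    apply Subtype.ext
    rw [hσF, ← lm_apply, ← lm_apply, hlG, hGh, hGh]
    exact (hf_conj hF n _ _).symm
  have hPdet : (P : Matrix (Fin n) (Fin n) F).det ≠ 0 :=
    ((Matrix.isUnit_iff_isUnit_det _).mp P.isUnit).ne_zero
  have hdet : G₀.det ≠ 0 := by
    intro h0
    have h1 : G.det = 0 := by rw [← hlG, lm_det, h0]; rfl
    rw [hG, Matrix.det_mul, Matrix.det_transpose] at h1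
    have h3 : ((P : Matrix (Fin n) (Fin n) F).map (· ^ q)).det =
        (P : Matrix (Fin n) (Fin n) F).det ^ q := (RingHom.map_det (frobq hF) _).symm
    rw [h3] at h1
    rcases mul_eq_zero.mp h1 with h | h
    · exact hPdet h
    · exact hPdet ((pow_eq_zero_iff (herm_q_ne_zero hF)).mp h)
  obtain ⟨B, hBdet, hB⟩ := Cfsg.Agent.Lib.Helper53.Herm.exists_factor σ₀ hσ1 hσ2 G₀ hH hdet
  obtain ⟨C, hC⟩ : ∃ C : Matrix (Fin n) (Fin n) F₀, C = B⁻¹ := ⟨_, rfl⟩
  have hCB : C * B = 1 := by rw [hC]; exact Matrix.nonsing_inv_mul B hBdet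
  have hCG : C * G₀ * (C.map σ₀)ᵀ = 1 := by
    rw [hB, ← Matrix.mul_assoc, hCB, Matrix.one_mul, ← Matrix.transpose_mul, ← Matrix.map_mul,
      hCB, Matrix.map_one _ (map_zero σ₀) (map_one σ₀), Matrix.transpose_one]
  have hmapq : (lm Cᵀ : Matrix (Fin n) (Fin n) F).map (· ^ q) = lm (C.map σ₀)ᵀ := by
    ext i j
    simp only [Matrix.map_apply, lm_apply, Matrix.transpose_apply]
    rw [hσF]
  refine ⟨Cᵀ, ?_⟩
  rw [isFr_iff_mul]
  have hmm : ((P : Matrix (Fin n) (Fin n) F) * lm Cᵀ).map (· ^ q) =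
      (P : Matrix (Fin n) (Fin n) F).map (· ^ q) * (lm Cᵀ).map (· ^ q) :=
    Matrix.map_mul (f := frobq hF)
  rw [hmm, Matrix.transpose_mul, hmapq, lm_transpose, Matrix.transpose_transpose,
    Matrix.mul_assoc, ← Matrix.mul_assoc _ _ (lm (C.map σ₀)ᵀ), ← hG, ← hlG, ← lm_mul, ← lm_mul,
    ← Matrix.mul_assoc, hCG, lm_one]

/-- reduction of the maximality statement to the standard rational structure -/
theorem subf_reduce (hF : Fintype.card F = q ^ 2) (hK : Nat.card F₀ = s ^ 2)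
    (hpow : ∀ x : F₀, (x : F) ^ q = (x : F) ^ s) (P : GL (Fin n) F)
    (hP : Cfsg.Geo.IsFormRationalStructure (Cfsg.hermForm n F q) F₀ 1 P)
    (hmax : Cfsg.Geo.IsMaximalIn (Cfsg.GU n F q ⊓ Cfsg.Geo.specialLinear (Fin n) F)
      (Cfsg.Agent.Lib.Helper50.H1 (Fin n) F₀ ⊓
        (Cfsg.GU n F q ⊓ Cfsg.Geo.specialLinear (Fin n) F))) :
    Cfsg.Geo.IsMaximalIn (Cfsg.GU n F q ⊓ Cfsg.Geo.specialLinear (Fin n) F)
      (Cfsg.Geo.subfieldSubgroup F₀ P ⊓
        (Cfsg.GU n F q ⊓ Cfsg.Geo.specialLinear (Fin n) F)) := by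
  obtain ⟨C, hfr⟩ := exists_orthonormal_P hF hK hpow P hP
  obtain ⟨P', hP'⟩ := isUnit_of_preserves hF _ (preserves_of_isFr hF _ hfr)
  have hP'U : P' ∈ Cfsg.GU n F q := by
    rw [mem_GU_iff_isFr hF, hP']
    exact hfr
  obtain ⟨A, hA⟩ : ∃ A : GL (Fin n) F, A = P⁻¹ * P' := ⟨_, rfl⟩
  have hAval : (A : Matrix (Fin n) (Fin n) F) = lm C := by
    rw [hA, Units.val_mul, hP', ← Matrix.mul_assoc, ← Units.val_mul, inv_mul_cancel,
      Units.val_one, Matrix.one_mul]
  have hAH : A ∈ Cfsg.Agent.Lib.Helper50.H1 (Fin n) F₀ :=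
    Cfsg.Agent.Lib.Helper50.mem_H1_of F₀ A 1 one_ne_zero (lm C) (ratM_lm C)
      (by rw [one_smul]; exact hAval)
  have hPA : P' = P * A := by rw [hA]; group
  have hmap : Cfsg.Geo.subfieldSubgroup F₀ P =
      (Cfsg.Agent.Lib.Helper50.H1 (Fin n) F₀).map (MulAut.conj P').toMonoidHom := by
    have h0 : Cfsg.Geo.subfieldSubgroup F₀ P =
        (Cfsg.Agent.Lib.Helper50.H1 (Fin n) F₀).map (MulAut.conj P).toMonoidHom := rfl
    rw [h0]
    apply le_antisymm
    · rintro _ ⟨x, hx, rfl⟩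
      refine ⟨A⁻¹ * x * A, Subgroup.mul_mem _ (Subgroup.mul_mem _ (Subgroup.inv_mem _ hAH) hx)
        hAH, ?_⟩
      show P' * (A⁻¹ * x * A) * P'⁻¹ = P * x * P⁻¹
      rw [hPA]
      group
    · rintro _ ⟨x, hx, rfl⟩
      refine ⟨A * x * A⁻¹, Subgroup.mul_mem _ (Subgroup.mul_mem _ hAH hx)
        (Subgroup.inv_mem _ hAH), ?_⟩
      show P * (A * x * A⁻¹) * P⁻¹ = P' * x * P'⁻¹
      rw [hPA]
      group
  have h := Cfsg.Agent.Lib.Helper50.isMaximalIn_map (MulAut.conj P') hmax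
  have hKm : (Cfsg.GU n F q ⊓ Cfsg.Geo.specialLinear (Fin n) F).map
      (MulAut.conj P').toMonoidHom = Cfsg.GU n F q ⊓ Cfsg.Geo.specialLinear (Fin n) F := by
    rw [Subgroup.map_inf_eq _ _ _ (MulAut.conj P').injective, map_conj_of_mem _ _ hP'U,
      Cfsg.Agent.Lib.Helper50.sl_map_conj]
  rw [hKm, Subgroup.map_inf_eq _ _ _ (MulAut.conj P').injective, hKm, ← hmap] at h
  exact h

end SubfUA

end Cfsg.Agent.Lib.Helper18
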