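import Mathlib
import Cfsg.Prelude.Def_GeometricClasses
import Cfsg.Prelude.Def_ClassicalGeometry
import Cfsg.Agent.Lib.Helper18.OrthSubfB
import Cfsg.Agent.Lib.Helper18.SubfUA

/-!
# Unitary subfield groups of odd prime degree in `SU_n(q)`, part B (helper18)

Root elements: identities for the Heisenberg-type elements `heis`, the parameter predicate
`LU q M u w` ("some `heis u w a` lies in `M`"), rational root elements, and the parameter
sets `SP q M u z` of a subgroup `M` containing the subfield group.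
-/

set_option autoImplicit false
set_option linter.unusedSectionVars false
set_option linter.unusedVariables false

namespace Cfsg.Agent.Lib.Helper18

open Matrix Module Cfsg.Agent.Lib.Helper7

section SubfUB

variable {F : Type*} [Field F] [Fintype F] {q n : ℕ} {F₀ : Subfield F} {s r : ℕ}

/-! ### Identities for `heis` -/

theorem heis_zero_w (hF : Fintype.card F = q ^ 2) (e : Fin n → F) (a : F) :
    heis q n e 0 a = Cfsg.unitaryTransvection n q e a := by
  apply Matrix.mulVec_injective
  funext x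
  rw [heis_mulVec, unitaryTransvection_mulVec, hf_zero_right hF]
  simp

theorem heis_zero_zero (hF : Fintype.card F = q ^ 2) (e : Fin n → F) :
    heis q n e 0 0 = 1 := by
  rw [heis_zero_w hF, ut_zero]

/-- shifting the vector by a multiple of the centre -/
theorem heis_shift (hF : Fintype.card F = q ^ 2) (e w : Fin n → F) (a c : F) :
    heis q n e (w + c • e) a = heis q n e w (a + c - c ^ q) := by
  apply Matrix.mulVec_injective
  funext x
  rw [heis_mulVec, heis_mulVec, hf_add_right hF, hf_smul_right]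
  module

/-- scaling the centre -/
theorem heis_smul_centre (hF : Fintype.card F = q ^ 2) (e w : Fin n → F) (a c : F) :
    heis q n (c • e) w a = heis q n e (c ^ q • w) (c * c ^ q * a) := by
  apply Matrix.mulVec_injective
  funext x
  rw [heis_mulVec, heis_mulVec, hf_smul_right, hf_smul_right, herm_pow_pow hF]
  module

/-- the Siegel element of two vectors is symmetric up to sign -/
theorem heis_swap (hF : Fintype.card F = q ^ 2) (e w : Fin n → F) :
    heis q n e w 0 = heis q n w (-e) 0 := by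
  apply Matrix.mulVec_injective
  funext x
  rw [heis_mulVec, heis_mulVec, hf_neg_right hF]
  module

theorem heis_fix (hF : Fintype.card F = q ^ 2) (e w x : Fin n → F) (a : F)
    (hxe : Cfsg.hermForm n F q x e = 0) (hxw : Cfsg.hermForm n F q x w = 0) :
    heis q n e w a *ᵥ x = x := by
  rw [heis_mulVec, hxe, hxw]
  simp

theorem gl_inv_val_of_mul_eq_one (X : GL (Fin n) F) (B : Matrix (Fin n) (Fin n) F)
    (h : (X : Matrix (Fin n) (Fin n) F) * B = 1) :
    ((X⁻¹ : GL (Fin n) F) : Matrix (Fin n) (Fin n) F) = B := by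
  have h1 : ((X⁻¹ : GL (Fin n) F) : Matrix (Fin n) (Fin n) F) =
      ((X⁻¹ : GL (Fin n) F) : Matrix (Fin n) (Fin n) F) *
        ((X : Matrix (Fin n) (Fin n) F) * B) := by rw [h, mul_one]
  rw [← mul_assoc, ← Units.val_mul, inv_mul_cancel, Units.val_one, one_mul] at h1
  exact h1

/-! ### The parameter predicate -/

/-- some `heis u w a` lies in `M` -/
def LU (q : ℕ) (M : Subgroup (GL (Fin n) F)) (u w : Fin n → F) : Prop :=
  ∃ a : F, a + a ^ q + Cfsg.hermForm n F q w w = 0 ∧
    ∃ X : GL (Fin n) F, X ∈ M ∧ (X : Matrix (Fin n) (Fin n) F) = heis q n u w a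

theorem LU_add (hF : Fintype.card F = q ^ 2) {M : Subgroup (GL (Fin n) F)} {u w w' : Fin n → F}
    (huu : Cfsg.hermForm n F q u u = 0) (hwu : Cfsg.hermForm n F q w u = 0)
    (hwu' : Cfsg.hermForm n F q w' u = 0) (h : LU q M u w) (h' : LU q M u w') :
    LU q M u (w + w') := by
  obtain ⟨a, ha, X, hXM, hX⟩ := h
  obtain ⟨a', ha', X', hXM', hX'⟩ := h'
  refine ⟨a + a' - Cfsg.hermForm n F q w' w, ?_, X * X', M.mul_mem hXM hXM', ?_⟩
  · simp only [hf_add_left, hf_add_right hF]
    rw [herm_sub_pow hF, herm_add_pow hF, ← hf_conj hF n w' w]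
    linear_combination ha + ha'
  · rw [Units.val_mul, hX, hX', heis_mul hF n u w w' a a' huu hwu hwu']

theorem LU_neg (hF : Fintype.card F = q ^ 2) {M : Subgroup (GL (Fin n) F)} {u w : Fin n → F}
    (huu : Cfsg.hermForm n F q u u = 0) (hwu : Cfsg.hermForm n F q w u = 0)
    (h : LU q M u w) : LU q M u (-w) := by
  obtain ⟨a, ha, X, hXM, hX⟩ := h
  refine ⟨a ^ q, ?_, X⁻¹, M.inv_mem hXM, ?_⟩
  · rw [hf_neg_left, hf_neg_right hF, herm_pow_pow hF]
    linear_combination ha
  · apply gl_inv_val_of_mul_eq_one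
    rw [hX, heis_mul hF n u w (-w) a (a ^ q) huu hwu (by rw [hf_neg_left, hwu, neg_zero]),
      hf_neg_left]
    have h1 : a + a ^ q - -Cfsg.hermForm n F q w w = 0 := by linear_combination ha
    rw [h1, add_neg_cancel, heis_zero_zero hF]

theorem LU_sub (hF : Fintype.card F = q ^ 2) {M : Subgroup (GL (Fin n) F)} {u w w' : Fin n → F}
    (huu : Cfsg.hermForm n F q u u = 0) (hwu : Cfsg.hermForm n F q w u = 0)
    (hwu' : Cfsg.hermForm n F q w' u = 0) (h : LU q M u w) (h' : LU q M u w') :
    LU q M u (w - w') := by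
  rw [sub_eq_add_neg]
  exact LU_add hF huu hwu (by rw [hf_neg_left, hwu', neg_zero]) h (LU_neg hF huu hwu' h')

theorem LU_conj {M : Subgroup (GL (Fin n) F)} {u w : Fin n → F} (k : GL (Fin n) F)
    (hkM : k ∈ M) (hkU : k ∈ Cfsg.GU n F q)
    (hku : (k : Matrix (Fin n) (Fin n) F) *ᵥ u = u) (h : LU q M u w) :
    LU q M u ((k : Matrix (Fin n) (Fin n) F) *ᵥ w) := by
  obtain ⟨a, ha, X, hXM, hX⟩ := h
  refine ⟨a, ?_, k * X * k⁻¹, M.mul_mem (M.mul_mem hkM hXM) (M.inv_mem hkM), ?_⟩
  · rw [gu_pres k hkU]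
    exact ha
  · rw [conj_heis_GL k X hkU u w a hX, hku]

theorem LU_smul_u (hF : Fintype.card F = q ^ 2) (M : Subgroup (GL (Fin n) F)) {u : Fin n → F}
    (huu : Cfsg.hermForm n F q u u = 0) (c : F) : LU q M u (c • u) := by
  refine ⟨c ^ q - c, ?_, 1, M.one_mem, ?_⟩
  · rw [hf_smul_left, hf_smul_right, huu, herm_sub_pow hF, herm_pow_pow hF]
    ring
  · rw [heis_smul_e, Units.val_one]
    have h1 : c ^ q - c + c - c ^ q = 0 := by ring
    rw [h1, ut_zero]

theorem LU_congr {M : Subgroup (GL (Fin n) F)} {u w w' : Fin n → F} (h : LU q M u w)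
    (hw : w = w') : LU q M u w' := hw ▸ h

end SubfUB

end Cfsg.Agent.Lib.Helper18
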