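import Mathlib
import Cfsg.Prelude.Def_GeometricClasses
import Cfsg.Prelude.Def_ClassicalGeometry
import Cfsg.Agent.Lib.Helper18.SubfUB

/-!
# Unitary subfield groups of odd prime degree in `SU_n(q)`, part C (helper18)

Rational root elements, rational Witt maps, and the parameter sets `SP q M u z` attached to
pairs `(u, z)` of independent orthogonal isotropic rational vectors.  The parameter set does not
depend on the pair and is a subfield between `F₀` and `F` (`SP_dichotomy`).
-/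

set_option autoImplicit false
set_option linter.unusedSectionVars false
set_option linter.unusedVariables false

namespace Cfsg.Agent.Lib.Helper18

open Matrix Module Cfsg.Agent.Lib.Helper7

section UnitaryHyp3

variable {F : Type*} [Field F] [Fintype F] {q : ℕ}

/-- a hyperbolic `3`-frame -/
theorem exists_hyp3 (hF : Fintype.card F = q ^ 2) {n : ℕ} (hn : 6 ≤ n) :
    ∃ x f : Fin 3 → Fin n → F, IsHypFr q n 3 x f := by
  classical
  obtain ⟨ω, hω0, hω⟩ := exists_omega hF
  obtain ⟨x, hx⟩ : ∃ x : Fin 3 → Fin n → F, x = fun i =>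
      pv ω ⟨2 * i.val, by have := i.isLt; omega⟩ ⟨2 * i.val + 1, by have := i.isLt; omega⟩ :=
    ⟨_, rfl⟩
  have hiso : ∀ i j, Cfsg.hermForm n F q (x i) (x j) = 0 := by
    intro i j
    rw [hx]
    by_cases hij : i = j
    · subst hij
      exact pv_iso ω hω (by simp [Fin.ext_iff])
    · have hv : i.val ≠ j.val := fun h => hij (Fin.ext h)
      exact pv_orth hF ω (by simp only [ne_eq, Fin.mk.injEq]; omega)
        (by simp only [ne_eq, Fin.mk.injEq]; omega) (by simp only [ne_eq, Fin.mk.injEq]; omega)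
        (by simp only [ne_eq, Fin.mk.injEq]; omega)
  have hli : LinearIndependent F x := by
    apply linearIndependent_of_herm_dual (q := q) x
      (fun j => Pi.single ⟨2 * j.val, by have := j.isLt; omega⟩ 1)
    intro i j
    rw [hf_single_right hF, hx]
    by_cases hij : i = j
    · subst hij
      rw [if_pos rfl]
      exact pv_apply_left ω (by simp [Fin.ext_iff])
    · have hv : i.val ≠ j.val := fun h => hij (Fin.ext h)
      rw [if_neg hij]
      exact pv_apply_ne ω (by simp only [ne_eq, Fin.mk.injEq]; omega)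
        (by simp only [ne_eq, Fin.mk.injEq]; omega)
  obtain ⟨f, hxf, hff⟩ := exists_herm_partner_family hF x hli hiso
  exact ⟨x, f, hiso, hff, hxf⟩

end UnitaryHyp3

section SubfUC

variable {F : Type*} [Field F] [Fintype F] {q n : ℕ} {F₀ : Subfield F} {s r : ℕ}

/-- the subfield group of the standard rational structure, inside `SU_n(q)` -/
abbrev UH (F₀ : Subfield F) (n q : ℕ) : Subgroup (GL (Fin n) F) :=
  Cfsg.Agent.Lib.Helper50.H1 (Fin n) F₀ ⊓
    (Cfsg.GU n F q ⊓ Cfsg.Geo.specialLinear (Fin n) F)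

theorem UD.hcv0 (D : UD F q n F₀ s r) {a b : Fin n → F₀}
    (h : Cfsg.hermForm n F₀ s a b = 0) : Cfsg.hermForm n F q (cv a) (cv b) = 0 := by
  rw [D.herm_cv, h]
  rfl

theorem UD.hcv1 (D : UD F q n F₀ s r) {a b : Fin n → F₀}
    (h : Cfsg.hermForm n F₀ s a b = 1) : Cfsg.hermForm n F q (cv a) (cv b) = 1 := by
  rw [D.herm_cv, h]
  rfl

theorem UD.heis_lm (D : UD F q n F₀ s r) (e w : Fin n → F₀) (a : F₀) :
    lm (heis s n e w a) = heis q n (cv e) (cv w) (a : F) := by
  classical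
  have : Fintype F₀ := Fintype.ofFinite F₀
  symm
  apply lm_ext
  intro x
  rw [heis_mulVec, heis_mulVec, D.herm_cv, D.herm_cv, cv_add, cv_add, cv_smul, cv_smul]
  push_cast
  rfl

/-- rational Heisenberg elements lie in the subfield group -/
theorem UD.heis_rat (D : UD F q n F₀ s r) (e w : Fin n → F₀) (a : F₀)
    (hee : Cfsg.hermForm n F₀ s e e = 0) (hwe : Cfsg.hermForm n F₀ s w e = 0)
    (ha : a + a ^ s + Cfsg.hermForm n F₀ s w w = 0) :
    ∃ X : GL (Fin n) F, X ∈ UH F₀ n q ∧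
      (X : Matrix (Fin n) (Fin n) F) = heis q n (cv e) (cv w) (a : F) := by
  classical
  have : Fintype F₀ := Fintype.ofFinite F₀
  have hK' : Fintype.card F₀ = s ^ 2 := D.cardK
  obtain ⟨X, hXH, hX⟩ := exists_lift D.hF D.hK D.hpow (heis s n e w a)
    (heis_det hK' n e w a hee hwe) (heis_preserves hK' n e w a hee hwe ha)
  exact ⟨X, hXH, by rw [hX, D.heis_lm]⟩

/-- rational Witt maps lie in the subfield group -/
theorem UD.exists_rat_map (D : UD F q n F₀ s r) {k : ℕ} (hk : k + k < n)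
    (x x' : Fin k → Fin n → F₀) (hli : LinearIndependent F₀ x) (hli' : LinearIndependent F₀ x')
    (hiso : ∀ i j, Cfsg.hermForm n F₀ s (x i) (x j) = 0)
    (hiso' : ∀ i j, Cfsg.hermForm n F₀ s (x' i) (x' j) = 0) :
    ∃ X : GL (Fin n) F, X ∈ UH F₀ n q ∧
      ∀ i, (X : Matrix (Fin n) (Fin n) F) *ᵥ cv (x i) = cv (x' i) := by
  classical
  have : Fintype F₀ := Fintype.ofFinite F₀
  have hK' : Fintype.card F₀ = s ^ 2 := D.cardK
  obtain ⟨A, hdet, hpres, hA⟩ := witt_iso_SU hK' hk x x' hli hli' hiso hiso'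
  obtain ⟨X, hXH, hX⟩ := exists_lift D.hF D.hK D.hpow A hdet hpres
  exact ⟨X, hXH, fun i => by rw [hX, lm_mulVec, hA i]⟩

/-- rational vectors orthogonal to a rational isotropic vector are parameters -/
theorem UD.LU_rat (D : UD F q n F₀ s r) {M : Subgroup (GL (Fin n) F)} (hHM : UH F₀ n q ≤ M)
    (u w : Fin n → F₀) (huu : Cfsg.hermForm n F₀ s u u = 0)
    (hwu : Cfsg.hermForm n F₀ s w u = 0) : LU q M (cv u) (cv w) := by
  classical
  have : Fintype F₀ := Fintype.ofFinite F₀
  have hK' : Fintype.card F₀ = s ^ 2 := D.cardK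
  obtain ⟨l, hl⟩ := exists_trace_one hK'
  have ha : -(l * Cfsg.hermForm n F₀ s w w) + (-(l * Cfsg.hermForm n F₀ s w w)) ^ s +
      Cfsg.hermForm n F₀ s w w = 0 := by
    rw [herm_neg_pow hK', mul_pow, hf_self_pow hK']
    linear_combination (-Cfsg.hermForm n F₀ s w w) * hl
  obtain ⟨X, hXH, hX⟩ := D.heis_rat u w (-(l * Cfsg.hermForm n F₀ s w w)) huu hwu ha
  refine ⟨((-(l * Cfsg.hermForm n F₀ s w w) : F₀) : F), ?_, X, hHM hXH, hX⟩
  rw [D.herm_cv, D.hpow]
  have h1 := congrArg (fun x : F₀ => (x : F)) ha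
  push_cast at h1
  push_cast
  exact h1

/-- pairs of independent orthogonal isotropic rational vectors -/
def TIP (s : ℕ) (u z : Fin n → F₀) : Prop :=
  Cfsg.hermForm n F₀ s u u = 0 ∧ Cfsg.hermForm n F₀ s z z = 0 ∧
    Cfsg.hermForm n F₀ s u z = 0 ∧ LinearIndependent F₀ ![u, z]

/-- the parameters of `M` at the pair `(u, z)` -/
def SP (q : ℕ) (M : Subgroup (GL (Fin n) F)) (u z : Fin n → F₀) (c : F) : Prop :=
  LU q M (cv u) (c • cv z)

theorem UD.TIP_perp (D : UD F q n F₀ s r) {u z : Fin n → F₀} (hp : TIP s u z) (c : F) :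
    Cfsg.hermForm n F q (c • cv z) (cv u) = 0 := by
  classical
  have : Fintype F₀ := Fintype.ofFinite F₀
  have hK' : Fintype.card F₀ = s ^ 2 := D.cardK
  rw [hf_smul_left, D.hcv0 (hf_eq_zero_symm hK' n _ _ hp.2.2.1), mul_zero]

theorem UD.SP_rat (D : UD F q n F₀ s r) {M : Subgroup (GL (Fin n) F)} (hHM : UH F₀ n q ≤ M)
    {u z : Fin n → F₀} (hp : TIP s u z) (c : F₀) : SP q M u z (c : F) := by
  classical
  have : Fintype F₀ := Fintype.ofFinite F₀
  have hK' : Fintype.card F₀ = s ^ 2 := D.cardK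
  have h1 := D.LU_rat hHM u (c • z) hp.1 (by
    rw [hf_smul_left, hf_eq_zero_symm hK' n _ _ hp.2.2.1, mul_zero])
  rw [cv_smul] at h1
  exact h1

theorem UD.SP_add (D : UD F q n F₀ s r) {M : Subgroup (GL (Fin n) F)}
    {u z : Fin n → F₀} (hp : TIP s u z) {c c' : F} (h : SP q M u z c) (h' : SP q M u z c') :
    SP q M u z (c + c') := by
  unfold SP
  rw [add_smul]
  exact LU_add D.hF (D.hcv0 hp.1) (D.TIP_perp hp c) (D.TIP_perp hp c') h h'

theorem UD.SP_neg (D : UD F q n F₀ s r) {M : Subgroup (GL (Fin n) F)}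
    {u z : Fin n → F₀} (hp : TIP s u z) {c : F} (h : SP q M u z c) : SP q M u z (-c) := by
  unfold SP
  rw [neg_smul]
  exact LU_neg D.hF (D.hcv0 hp.1) (D.TIP_perp hp c) h

/-- the parameter set does not depend on the pair -/
theorem UD.SP_trans (D : UD F q n F₀ s r) {M : Subgroup (GL (Fin n) F)} (hHM : UH F₀ n q ≤ M)
    {u z u' z' : Fin n → F₀} (hp : TIP s u z) (hp' : TIP s u' z') {c : F}
    (h : SP q M u z c) : SP q M u' z' c := by
  classical
  have : Fintype F₀ := Fintype.ofFinite F₀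
  have hK' : Fintype.card F₀ = s ^ 2 := D.cardK
  have hn := D.hn
  obtain ⟨X, hXH, hX⟩ := D.exists_rat_map (show 2 + 2 < n by omega) ![u, z] ![u', z'] hp.2.2.2
    hp'.2.2.2 (by
      intro i j
      fin_cases i <;> fin_cases j
      · exact hp.1
      · exact hp.2.2.1
      · exact hf_eq_zero_symm hK' n _ _ hp.2.2.1
      · exact hp.2.1) (by
      intro i j
      fin_cases i <;> fin_cases j
      · exact hp'.1
      · exact hp'.2.2.1
      · exact hf_eq_zero_symm hK' n _ _ hp'.2.2.1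
      · exact hp'.2.1)
  have h0 := hX 0
  have h1 := hX 1
  simp only [Matrix.cons_val_zero, Matrix.cons_val_one] at h0 h1
  obtain ⟨a, ha, Y, hYM, hY⟩ := h
  have hzz : Cfsg.hermForm n F q (c • cv z) (c • cv z) = 0 := by
    rw [hf_smul_left, hf_smul_right, D.hcv0 hp.2.1]
    ring
  have hzz' : Cfsg.hermForm n F q (c • cv z') (c • cv z') = 0 := by
    rw [hf_smul_left, hf_smul_right, D.hcv0 hp'.2.1]
    ring
  refine ⟨a, ?_, X * Y * X⁻¹, M.mul_mem (M.mul_mem (hHM hXH) hYM) (M.inv_mem (hHM hXH)), ?_⟩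
  · rw [hzz']
    rw [hzz] at ha
    exact ha
  · rw [conj_heis_GL X Y hXH.2.1 (cv u) (c • cv z) a hY, h0, Matrix.mulVec_smul, h1]

/-- multiplicativity of the parameter sets, for a rational hyperbolic configuration -/
theorem UD.SP_mul (D : UD F q n F₀ s r) {M : Subgroup (GL (Fin n) F)}
    (hMK : M ≤ Cfsg.GU n F q ⊓ Cfsg.Geo.specialLinear (Fin n) F)
    {u f w₁ w₂ : Fin n → F₀} (huu : Cfsg.hermForm n F₀ s u u = 0)
    (hfu : Cfsg.hermForm n F₀ s f u = 0) (huf : Cfsg.hermForm n F₀ s u f = 0)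
    (hw₁u : Cfsg.hermForm n F₀ s w₁ u = 0) (hw₁f : Cfsg.hermForm n F₀ s w₁ f = 0)
    (huw₂ : Cfsg.hermForm n F₀ s u w₂ = 0)
    (hw₁w₂ : Cfsg.hermForm n F₀ s w₁ w₂ = 1) {c c' : F}
    (h : LU q M (cv u) (c • cv w₁)) (h' : LU q M (cv f) (c' • cv w₂)) :
    LU q M (cv u) ((c * c' ^ q) • cv f) := by
  obtain ⟨a', ha', k, hkM, hk⟩ := h'
  have hkU := (hMK hkM).1
  have hku : (k : Matrix (Fin n) (Fin n) F) *ᵥ cv u = cv u := by
    rw [hk]
    apply heis_fix D.hF
    · exact D.hcv0 huf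
    · rw [hf_smul_right, D.hcv0 huw₂, mul_zero]
  have hkw : (k : Matrix (Fin n) (Fin n) F) *ᵥ (c • cv w₁) =
      c • cv w₁ - (c * c' ^ q) • cv f := by
    rw [hk, heis_mulVec, hf_smul_left, D.hcv0 hw₁f, hf_smul_left, hf_smul_right,
      D.hcv1 hw₁w₂]
    module
  have h1 := LU_conj k hkM hkU hku h
  rw [hkw] at h1
  have hcu : Cfsg.hermForm n F q (c • cv w₁) (cv u) = 0 := by
    rw [hf_smul_left, D.hcv0 hw₁u, mul_zero]
  have h2 := LU_sub D.hF (D.hcv0 huu) hcu (by
    rw [hf_sub_left, hcu, hf_smul_left, D.hcv0 hfu]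
    ring) h h1
  exact LU_congr h2 (by abel)

/-- **The parameter field.** The parameters of `M` form a subfield between `F₀` and `F`; as the
degree is prime, it is `F₀` or `F`. -/
theorem UD.SP_dichotomy (D : UD F q n F₀ s r) {M : Subgroup (GL (Fin n) F)}
    (hHM : UH F₀ n q ≤ M)
    (hMK : M ≤ Cfsg.GU n F q ⊓ Cfsg.Geo.specialLinear (Fin n) F) :
    (∀ u z : Fin n → F₀, TIP s u z → ∀ c, SP q M u z c → c ∈ F₀) ∨
      (∀ u z : Fin n → F₀, TIP s u z → ∀ c, SP q M u z c) := by
  classical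
  have : Fintype F₀ := Fintype.ofFinite F₀
  have hK' : Fintype.card F₀ = s ^ 2 := D.cardK
  have hn := D.hn
  obtain ⟨x, f, hxx, hff, hxf⟩ := exists_hyp3 hK' (show 6 ≤ n by omega)
  have hfx := IsHypFr.fx hK' (show IsHypFr s n 3 x f from ⟨hxx, hff, hxf⟩)
  have hp01 : TIP s (x 0) (x 1) := by
    refine ⟨hxx 0 0, hxx 1 1, hxx 0 1,
      linearIndependent_of_herm_dual (q := s) ![x 0, x 1] ![f 0, f 1] ?_⟩
    intro i j
    fin_cases i <;> fin_cases j <;> simp [hxf]
  have hp02 : TIP s (x 0) (x 2) := by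
    refine ⟨hxx 0 0, hxx 2 2, hxx 0 2,
      linearIndependent_of_herm_dual (q := s) ![x 0, x 2] ![f 0, f 2] ?_⟩
    intro i j
    fin_cases i <;> fin_cases j <;> simp [hxf]
  have hp1f : TIP s (x 1) (f 2) := by
    refine ⟨hxx 1 1, hff 2 2, by simpa using hxf 1 2,
      linearIndependent_of_herm_dual (q := s) ![x 1, f 2] ![f 1, x 2] ?_⟩
    intro i j
    fin_cases i <;> fin_cases j <;> simp [hxf, hxx, hff, hfx]
  have hmul : ∀ c c' : F, SP q M (x 0) (x 2) c → SP q M (x 1) (f 2) c' →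
      SP q M (x 0) (x 1) (c * c' ^ q) := fun c c' h h' =>
    D.SP_mul hMK (hxx 0 0) (hxx 1 0) (hxx 0 1) (hxx 2 0) (hxx 2 1) (by simpa using hxf 0 2)
      (by simpa using hxf 2 2) h h'
  have hone : ∀ {u z : Fin n → F₀}, TIP s u z → SP q M u z 1 := by
    intro u z hp
    have h1 := D.SP_rat hHM hp 1
    simpa using h1
  have hzero : ∀ {u z : Fin n → F₀}, TIP s u z → SP q M u z 0 := by
    intro u z hp
    have h1 := D.SP_rat hHM hp 0
    simpa using h1
  have hpow : ∀ c : F, SP q M (x 0) (x 1) c → SP q M (x 0) (x 1) (c ^ q) := by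
    intro c hc
    have h1 := hmul 1 c (hone hp02) (D.SP_trans hHM hp01 hp1f hc)
    rwa [one_mul] at h1
  let R : Subring F :=
    { carrier := {c | SP q M (x 0) (x 1) c}
      mul_mem' := by
        intro c c' hc hc'
        have h1 := hmul c (c' ^ q) (D.SP_trans hHM hp01 hp02 hc)
          (D.SP_trans hHM hp01 hp1f (hpow c' hc'))
        rwa [herm_pow_pow D.hF] at h1
      one_mem' := hone hp01
      add_mem' := fun ha hb => D.SP_add hp01 ha hb
      zero_mem' := hzero hp01
      neg_mem' := fun ha => D.SP_neg hp01 ha }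
  let K : Subfield F :=
    { R with
      inv_mem' := by
        intro c hc
        by_cases h0 : c = 0
        · subst h0; rw [_root_.inv_zero]; exact R.zero_mem
        · have h1 : c⁻¹ = c ^ (Fintype.card F - 2) := by
            have h2 := FiniteField.pow_card_sub_one_eq_one c h0
            have h4 : Fintype.card F - 1 = (Fintype.card F - 2) + 1 := by
              have := Fintype.one_lt_card (α := F); omega
            rw [h4, pow_succ] at h2
            exact inv_eq_of_mul_eq_one_left h2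
          rw [h1]; exact R.pow_mem hc _ }
  have hle : ∀ y : F₀, algebraMap F₀ F y ∈ K := fun y => D.SP_rat hHM hp01 y
  let E : IntermediateField F₀ F := Subfield.toIntermediateField K hle
  have hfin : Module.finrank F₀ F = r := Cfsg.Agent.Lib.Helper50.finrank_of_card F₀ r D.hcard
  have hso := IntermediateField.isSimpleOrder_of_finrank_prime F₀ F (by rw [hfin]; exact D.hr)
  rcases eq_bot_or_eq_top E with hE | hE
  · left
    intro u z hp c hc
    have h1 : c ∈ E := D.SP_trans hHM hp hp01 hc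
    rw [hE, IntermediateField.mem_bot] at h1
    obtain ⟨y, rfl⟩ := h1
    exact y.2
  · right
    intro u z hp c
    have h1 : c ∈ E := by rw [hE]; exact IntermediateField.mem_top
    exact D.SP_trans hHM hp01 hp h1

end SubfUC

end Cfsg.Agent.Lib.Helper18
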