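import Mathlib
import Cfsg.Prelude.Def_GeometricClasses
import Cfsg.Prelude.Def_ClassicalGeometry
import Cfsg.Agent.Lib.Helper18.SubfUC

/-!
# Unitary subfield groups of odd prime degree in `SU_n(q)`, part D (helper18)

If the parameter field of `M` is `F₀`, then `M` has no new root elements: every Heisenberg
element of `M` with rational isotropic centre lies in the subfield group (`UD.no_new`).
-/

set_option autoImplicit false
set_option linter.unusedSectionVars false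
set_option linter.unusedVariables false

namespace Cfsg.Agent.Lib.Helper18

open Matrix Module Cfsg.Agent.Lib.Helper7

section SubfUD

variable {F : Type*} [Field F] [Fintype F] {q n : ℕ} {F₀ : Subfield F} {s r : ℕ}

/-- a Heisenberg element with rational isotropic centre in the subfield group is a rational
matrix, and its vector is rational modulo the centre -/
theorem UD.heis_H1 (D : UD F q n F₀ s r) (u₀ : Fin n → F₀) (hu0 : u₀ ≠ 0)
    (huu : Cfsg.hermForm n F₀ s u₀ u₀ = 0) (w : Fin n → F) (a : F)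
    (hwu : Cfsg.hermForm n F q w (cv u₀) = 0) (Z : GL (Fin n) F)
    (hZH : Z ∈ Cfsg.Agent.Lib.Helper50.H1 (Fin n) F₀)
    (hZ : (Z : Matrix (Fin n) (Fin n) F) = heis q n (cv u₀) w a) :
    Cfsg.Agent.Lib.Helper50.RatM F₀ (Z : Matrix (Fin n) (Fin n) F) ∧
      ∃ (r₀ : Fin n → F₀) (φ : F), w = cv r₀ + φ • cv u₀ := by
  classical
  have : Fintype F₀ := Fintype.ofFinite F₀
  have hK' : Fintype.card F₀ = s ^ 2 := D.cardK
  obtain ⟨c₁, hc₁, A, hA, hZA⟩ := Cfsg.Agent.Lib.Helper50.exists_of_mem_H1 F₀ Z hZH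
  have hZu : (Z : Matrix (Fin n) (Fin n) F) *ᵥ cv u₀ = cv u₀ := by
    rw [hZ]
    exact heis_fix D.hF _ _ _ _ (D.hcv0 huu) (hf_eq_zero_symm D.hF n _ _ hwu)
  rw [hZA, Matrix.smul_mulVec] at hZu
  have hAu : Cfsg.Agent.Lib.Helper50.RatV F₀ (A *ᵥ cv u₀) :=
    Cfsg.Agent.Lib.Helper50.ratM_mulVec hA (fun i => (u₀ i).2)
  obtain ⟨i, hi⟩ := Function.ne_iff.mp hu0
  have h1 := congrFun hZu i
  rw [Pi.smul_apply, smul_eq_mul] at h1
  have hi' : (cv u₀ i : F) ≠ 0 := fun h => hi (Subtype.ext h)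
  have hAi : (A *ᵥ cv u₀) i ≠ 0 := by
    intro h0
    rw [h0, mul_zero] at h1
    exact hi' h1.symm
  have hc₁m : c₁ ∈ F₀ := by
    have h2 : c₁ = cv u₀ i / (A *ᵥ cv u₀) i := by
      rw [eq_div_iff hAi]
      exact h1
    rw [h2]
    exact F₀.div_mem (u₀ i).2 (hAu i)
  have hZrat : Cfsg.Agent.Lib.Helper50.RatM F₀ (Z : Matrix (Fin n) (Fin n) F) := by
    rw [hZA]
    exact Cfsg.Agent.Lib.Helper50.ratM_smul hc₁m hA
  refine ⟨hZrat, ?_⟩
  obtain ⟨v₀, hvv, huv⟩ := exists_partner hK' u₀ hu0 huu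
  have hvu : Cfsg.hermForm n F₀ s v₀ u₀ = 1 := by rw [hf_conj hK' n u₀ v₀, huv, one_pow]
  have hZv : Cfsg.Agent.Lib.Helper50.RatV F₀ ((Z : Matrix (Fin n) (Fin n) F) *ᵥ cv v₀) :=
    Cfsg.Agent.Lib.Helper50.ratM_mulVec hZrat (fun i => (v₀ i).2)
  obtain ⟨y₀, hy₀⟩ := exists_cv ((Z : Matrix (Fin n) (Fin n) F) *ᵥ cv v₀) (fun i => hZv i)
  rw [hZ, heis_mulVec, D.hcv1 hvu] at hy₀
  refine ⟨y₀ - v₀, -(a * 1 - Cfsg.hermForm n F q (cv v₀) w), ?_⟩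
  rw [cv_sub, hy₀]
  module

variable {M : Subgroup (GL (Fin n) F)}

/-- parameters pair rationally with rational isotropic vectors orthogonal to the centre -/
theorem UD.par_iso (D : UD F q n F₀ s r) (hHM : UH F₀ n q ≤ M)
    (hS : ∀ u z : Fin n → F₀, TIP s u z → ∀ c, SP q M u z c → c ∈ F₀)
    (u₀ : Fin n → F₀) (hu0 : u₀ ≠ 0) (huu : Cfsg.hermForm n F₀ s u₀ u₀ = 0) (w : Fin n → F)
    (hwu : Cfsg.hermForm n F q w (cv u₀) = 0) (hL : LU q M (cv u₀) w)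
    (z₀ : Fin n → F₀) (hzz : Cfsg.hermForm n F₀ s z₀ z₀ = 0)
    (hzu : Cfsg.hermForm n F₀ s z₀ u₀ = 0) : Cfsg.hermForm n F q w (cv z₀) ∈ F₀ := by
  classical
  have : Fintype F₀ := Fintype.ofFinite F₀
  have hK' : Fintype.card F₀ = s ^ 2 := D.cardK
  have huz : Cfsg.hermForm n F₀ s u₀ z₀ = 0 := hf_eq_zero_symm hK' n _ _ hzu
  by_cases hli : LinearIndependent F₀ ![u₀, z₀]
  · have hp : TIP s u₀ z₀ := ⟨huu, hzz, huz, hli⟩
    obtain ⟨b, hb0, hb⟩ := exists_trace_zero hK'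
    obtain ⟨T, hTH, hT⟩ := D.heis_rat z₀ 0 b hzz (hf_zero_left n z₀) (by
      rw [hf_zero_left, add_zero]; exact hb)
    rw [cv_zero] at hT
    have hTM := hHM hTH
    have hTU := hTH.2.1
    have hTu : (T : Matrix (Fin n) (Fin n) F) *ᵥ cv u₀ = cv u₀ := by
      rw [hT]
      exact heis_fix D.hF _ _ _ _ (D.hcv0 huz) (hf_zero_right D.hF n _)
    have hTw : (T : Matrix (Fin n) (Fin n) F) *ᵥ w =
        w + ((b : F) * Cfsg.hermForm n F q w (cv z₀)) • cv z₀ := by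
      rw [hT, heis_mulVec, hf_zero_right D.hF]
      module
    have h1 := LU_conj T hTM hTU hTu hL
    rw [hTw] at h1
    have h2 := LU_sub D.hF (D.hcv0 huu) (by
      rw [hf_add_left, hf_smul_left, hwu, D.hcv0 hzu]
      ring) hwu h1 hL
    have h3 : SP q M u₀ z₀ ((b : F) * Cfsg.hermForm n F q w (cv z₀)) := LU_congr h2 (by abel)
    have h4 := hS u₀ z₀ hp _ h3
    have hb' : (b : F) ≠ 0 := fun h => hb0 (Subtype.ext h)
    have h5 : Cfsg.hermForm n F q w (cv z₀) =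
        ((b : F) * Cfsg.hermForm n F q w (cv z₀)) / (b : F) := by
      field_simp
    rw [h5]
    exact F₀.div_mem h4 b.2
  · rw [LinearIndependent.pair_iff' hu0] at hli
    push Not at hli
    obtain ⟨lam, hlam⟩ := hli
    rw [← hlam, cv_smul, hf_smul_right, hwu, mul_zero]
    exact F₀.zero_mem

/-- parameters pair rationally with all rational vectors orthogonal to the centre -/
theorem UD.par_all (D : UD F q n F₀ s r) (hHM : UH F₀ n q ≤ M)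
    (hS : ∀ u z : Fin n → F₀, TIP s u z → ∀ c, SP q M u z c → c ∈ F₀)
    (u₀ : Fin n → F₀) (hu0 : u₀ ≠ 0) (huu : Cfsg.hermForm n F₀ s u₀ u₀ = 0) (w : Fin n → F)
    (hwu : Cfsg.hermForm n F q w (cv u₀) = 0) (hL : LU q M (cv u₀) w)
    (r₀ : Fin n → F₀) (hru : Cfsg.hermForm n F₀ s r₀ u₀ = 0) :
    Cfsg.hermForm n F q w (cv r₀) ∈ F₀ := by
  classical
  have : Fintype F₀ := Fintype.ofFinite F₀
  have hK' : Fintype.card F₀ = s ^ 2 := D.cardK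
  have hn := D.hn
  by_cases hrr : Cfsg.hermForm n F₀ s r₀ r₀ = 0
  · exact D.par_iso hHM hS u₀ hu0 huu w hwu hL r₀ hrr hru
  · obtain ⟨s₀, hss, hsu, hrs⟩ := exists_iso_perp_one hK' (show 4 ≤ n by omega) u₀ r₀ hu0 huu
      hru hrr
    obtain ⟨l, hl⟩ := exists_trace_one hK'
    obtain ⟨α, hα⟩ : ∃ α : F₀, α = Cfsg.hermForm n F₀ s r₀ r₀ := ⟨_, rfl⟩
    have hαs : α ^ s = α := by rw [hα]; exact hf_self_pow hK' n r₀
    have hsr : Cfsg.hermForm n F₀ s s₀ r₀ = 1 := by rw [hf_conj hK' n r₀ s₀, hrs, one_pow]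
    have h1 : Cfsg.hermForm n F₀ s (r₀ - (l * α) • s₀) (r₀ - (l * α) • s₀) = 0 := by
      simp only [hf_sub_left, hf_sub_right hK', hf_smul_left, hf_smul_right, hss, hrs, hsr,
        ← hα]
      rw [mul_pow, hαs]
      linear_combination (-α) * hl
    have h2 : Cfsg.hermForm n F₀ s (r₀ - (l * α) • s₀) u₀ = 0 := by
      rw [hf_sub_left, hf_smul_left, hru, hsu]
      ring
    have h3 : Cfsg.hermForm n F₀ s ((l * α) • s₀) ((l * α) • s₀) = 0 := by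
      rw [hf_smul_left, hf_smul_right, hss]
      ring
    have h4 : Cfsg.hermForm n F₀ s ((l * α) • s₀) u₀ = 0 := by
      rw [hf_smul_left, hsu]
      ring
    have h5 : cv r₀ = cv (r₀ - (l * α) • s₀) + cv ((l * α) • s₀) := by
      rw [← cv_add]
      congr 1
      abel
    rw [h5, hf_add_right D.hF]
    exact F₀.add_mem (D.par_iso hHM hS u₀ hu0 huu w hwu hL _ h1 h2)
      (D.par_iso hHM hS u₀ hu0 huu w hwu hL _ h3 h4)

/-- parameters are rational modulo the centre -/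
theorem UD.par_dec (D : UD F q n F₀ s r) (hHM : UH F₀ n q ≤ M)
    (hS : ∀ u z : Fin n → F₀, TIP s u z → ∀ c, SP q M u z c → c ∈ F₀)
    (u₀ : Fin n → F₀) (hu0 : u₀ ≠ 0) (huu : Cfsg.hermForm n F₀ s u₀ u₀ = 0) (w : Fin n → F)
    (hwu : Cfsg.hermForm n F q w (cv u₀) = 0) (hL : LU q M (cv u₀) w) :
    ∃ (w₀ : Fin n → F₀) (φ : F), Cfsg.hermForm n F₀ s w₀ u₀ = 0 ∧ w = cv w₀ + φ • cv u₀ := by
  classical
  have : Fintype F₀ := Fintype.ofFinite F₀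
  have hK' : Fintype.card F₀ = s ^ 2 := D.cardK
  obtain ⟨v₀, hvv, huv⟩ := exists_partner hK' u₀ hu0 huu
  have hvu : Cfsg.hermForm n F₀ s v₀ u₀ = 1 := by rw [hf_conj hK' n u₀ v₀, huv, one_pow]
  obtain ⟨φ, hφ⟩ : ∃ φ : F, φ = Cfsg.hermForm n F q w (cv v₀) := ⟨_, rfl⟩
  obtain ⟨w₁, hw₁⟩ : ∃ w₁ : Fin n → F, w₁ = w - φ • cv u₀ := ⟨_, rfl⟩
  have hw₁u : Cfsg.hermForm n F q w₁ (cv u₀) = 0 := by
    rw [hw₁, hf_sub_left, hf_smul_left, hwu, D.hcv0 huu]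
    ring
  have hw₁v : Cfsg.hermForm n F q w₁ (cv v₀) = 0 := by
    rw [hw₁, hf_sub_left, hf_smul_left, ← hφ, D.hcv1 huv]
    ring
  have key : ∀ i, w₁ i ∈ F₀ := by
    intro i
    obtain ⟨e₀, he₀⟩ : ∃ e₀ : Fin n → F₀, e₀ = Pi.single i 1 := ⟨_, rfl⟩
    obtain ⟨c₁, hc₁⟩ : ∃ c₁ : F₀, c₁ = Cfsg.hermForm n F₀ s e₀ v₀ := ⟨_, rfl⟩
    obtain ⟨c₂, hc₂⟩ : ∃ c₂ : F₀, c₂ = Cfsg.hermForm n F₀ s e₀ u₀ := ⟨_, rfl⟩
    obtain ⟨e', he'⟩ : ∃ e' : Fin n → F₀, e' = e₀ - c₁ • u₀ - c₂ • v₀ := ⟨_, rfl⟩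
    have he'u : Cfsg.hermForm n F₀ s e' u₀ = 0 := by
      rw [he']
      simp only [hf_sub_left, hf_smul_left, huu, hvu, ← hc₂]
      ring
    have h1 : w₁ i = Cfsg.hermForm n F q w₁ (cv e₀) := by
      rw [he₀, cv_single, hf_single_right D.hF]
    have h2 : cv e₀ = cv e' + (c₁ : F) • cv u₀ + (c₂ : F) • cv v₀ := by
      rw [← cv_smul, ← cv_smul, ← cv_add, ← cv_add]
      congr 1
      rw [he']
      abel
    rw [h1, h2, hf_add_right D.hF, hf_add_right D.hF, hf_smul_right, hf_smul_right, hw₁u, hw₁v,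
      mul_zero, mul_zero, add_zero, add_zero, hw₁, hf_sub_left, hf_smul_left,
      D.hcv0 (hf_eq_zero_symm hK' n _ _ he'u), mul_zero, sub_zero]
    exact D.par_all hHM hS u₀ hu0 huu w hwu hL e' he'u
  obtain ⟨w₀, hw₀⟩ := exists_cv w₁ (fun i => key i)
  refine ⟨w₀, φ, ?_, ?_⟩
  · rw [← hw₀, D.herm_cv] at hw₁u
    exact Subtype.ext hw₁u
  · rw [hw₀, hw₁]
    abel

/-- transvections of `M` with rational isotropic centre have rational parameter -/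
theorem UD.tv_par (D : UD F q n F₀ s r) (hHM : UH F₀ n q ≤ M)
    (hMK : M ≤ Cfsg.GU n F q ⊓ Cfsg.Geo.specialLinear (Fin n) F)
    (hS : ∀ u z : Fin n → F₀, TIP s u z → ∀ c, SP q M u z c → c ∈ F₀)
    (u₀ : Fin n → F₀) (hu0 : u₀ ≠ 0) (huu : Cfsg.hermForm n F₀ s u₀ u₀ = 0) (τ : F)
    (hτ : τ + τ ^ q = 0) (T : GL (Fin n) F) (hTM : T ∈ M)
    (hT : (T : Matrix (Fin n) (Fin n) F) = heis q n (cv u₀) 0 τ) : τ ∈ F₀ := by
  classical
  have : Fintype F₀ := Fintype.ofFinite F₀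
  have hK' : Fintype.card F₀ = s ^ 2 := D.cardK
  have hn := D.hn
  have hs0 : s ≠ 0 := herm_q_ne_zero hK'
  obtain ⟨v₀, hvv, huv⟩ := exists_partner hK' u₀ hu0 huu
  have hvu : Cfsg.hermForm n F₀ s v₀ u₀ = 1 := by rw [hf_conj hK' n u₀ v₀, huv, one_pow]
  obtain ⟨z₀, hz0, hzz, hzu, hzv⟩ := exists_iso_perp_hyp hK' (show 4 ≤ n by omega) u₀ v₀ huu
    hvv huv
  have hvz : Cfsg.hermForm n F₀ s v₀ z₀ = 0 := hf_eq_zero_symm hK' n _ _ hzv
  have hp : TIP s z₀ u₀ := by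
    refine ⟨hzz, huu, hzu, ?_⟩
    rw [LinearIndependent.pair_iff]
    intro a b hab
    have h1 : Cfsg.hermForm n F₀ s (a • z₀ + b • u₀) v₀ = b := by
      rw [hf_add_left, hf_smul_left, hf_smul_left, hzv, huv]
      ring
    rw [hab, hf_zero_left] at h1
    have hb : b = 0 := h1.symm
    rw [hb, zero_smul, add_zero] at hab
    rcases smul_eq_zero.mp hab with h | h
    · exact ⟨h, hb⟩
    · exact absurd h hz0
  obtain ⟨Y, hYH, hY⟩ := D.heis_rat v₀ z₀ 0 hvv hzv (by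
    rw [hzz, zero_pow hs0]; ring)
  have hYM := hHM hYH
  have hTU := (hMK hTM).1
  have h0 : ((0 : F₀) : F) = 0 := rfl
  rw [h0] at hY
  have hTv : (T : Matrix (Fin n) (Fin n) F) *ᵥ cv v₀ = cv v₀ + τ • cv u₀ := by
    rw [hT, heis_mulVec, hf_zero_right D.hF, D.hcv1 hvu]
    module
  have hTz : (T : Matrix (Fin n) (Fin n) F) *ᵥ cv z₀ = cv z₀ := by
    rw [hT]
    exact heis_fix D.hF _ _ _ _ (D.hcv0 hzu) (hf_zero_right D.hF n _)
  have hW : ((T * Y * T⁻¹ : GL (Fin n) F) : Matrix (Fin n) (Fin n) F) =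
      heis q n (cv z₀) (-(cv v₀ + τ • cv u₀)) 0 := by
    rw [conj_heis_GL T Y hTU _ _ _ hY, hTv, hTz, heis_swap D.hF]
  have hY' : (Y : Matrix (Fin n) (Fin n) F) = heis q n (cv z₀) (-cv v₀) 0 := by
    rw [hY, heis_swap D.hF]
  have hzzF := D.hcv0 hzz
  have hvzF := D.hcv0 hvz
  have hYi : ((Y⁻¹ : GL (Fin n) F) : Matrix (Fin n) (Fin n) F) = heis q n (cv z₀) (cv v₀) 0 := by
    apply gl_inv_val_of_mul_eq_one
    rw [hY', heis_mul D.hF n _ _ _ _ _ hzzF (by rw [hf_neg_left, hvzF, neg_zero]) hvzF,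
      neg_add_cancel, hf_neg_right D.hF, D.hcv0 hvv]
    have h1 : (0 : F) + 0 - -0 = 0 := by ring
    rw [h1, heis_zero_zero D.hF]
  have hprod : ((Y⁻¹ * (T * Y * T⁻¹) : GL (Fin n) F) : Matrix (Fin n) (Fin n) F) =
      heis q n (cv z₀) ((-τ) • cv u₀) τ := by
    rw [Units.val_mul, hYi, hW, heis_mul D.hF n _ _ _ _ _ hzzF hvzF (by
      rw [hf_neg_left, hf_add_left, hf_smul_left, hvzF, D.hcv0 (hf_eq_zero_symm hK' n _ _ hzu)]
      ring)]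
    rw [hf_neg_left, hf_add_left, hf_smul_left, D.hcv0 hvv, D.hcv1 huv]
    have h1 : cv v₀ + -(cv v₀ + τ • cv u₀) = (-τ) • cv u₀ := by module
    have h2 : (0 : F) + 0 - -(0 + τ * 1) = τ := by ring
    rw [h1, h2]
  have hSP : SP q M z₀ u₀ (-τ) := by
    refine ⟨τ, ?_, Y⁻¹ * (T * Y * T⁻¹), M.mul_mem (M.inv_mem hYM)
      (M.mul_mem (M.mul_mem hTM hYM) (M.inv_mem hTM)), hprod⟩
    rw [hf_smul_left, hf_smul_right, D.hcv0 huu]
    linear_combination hτ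
  have h6 := hS z₀ u₀ hp _ hSP
  have h7 := F₀.neg_mem h6
  rwa [neg_neg] at h7

/-- **No new root elements.** If the parameter field of `M` is `F₀`, every Heisenberg element
of `M` with rational isotropic centre lies in the subfield group. -/
theorem UD.no_new (D : UD F q n F₀ s r) (hHM : UH F₀ n q ≤ M)
    (hMK : M ≤ Cfsg.GU n F q ⊓ Cfsg.Geo.specialLinear (Fin n) F)
    (hS : ∀ u z : Fin n → F₀, TIP s u z → ∀ c, SP q M u z c → c ∈ F₀)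
    (u₀ : Fin n → F₀) (hu0 : u₀ ≠ 0) (huu : Cfsg.hermForm n F₀ s u₀ u₀ = 0) (w : Fin n → F)
    (a : F) (hwu : Cfsg.hermForm n F q w (cv u₀) = 0)
    (ha : a + a ^ q + Cfsg.hermForm n F q w w = 0) (X : GL (Fin n) F) (hXM : X ∈ M)
    (hX : (X : Matrix (Fin n) (Fin n) F) = heis q n (cv u₀) w a) :
    X ∈ Cfsg.Agent.Lib.Helper50.H1 (Fin n) F₀ := by
  classical
  have : Fintype F₀ := Fintype.ofFinite F₀
  have hK' : Fintype.card F₀ = s ^ 2 := D.cardK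
  have hL : LU q M (cv u₀) w := ⟨a, ha, X, hXM, hX⟩
  obtain ⟨w₀, φ, hw₀u, hw⟩ := D.par_dec hHM hS u₀ hu0 huu w hwu hL
  have huuF := D.hcv0 huu
  have hw₀uF := D.hcv0 hw₀u
  have huw₀F := D.hcv0 (hf_eq_zero_symm hK' n _ _ hw₀u)
  obtain ⟨a₁, ha₁⟩ : ∃ a₁ : F, a₁ = a + φ - φ ^ q := ⟨_, rfl⟩
  have hX1 : (X : Matrix (Fin n) (Fin n) F) = heis q n (cv u₀) (cv w₀) a₁ := by
    rw [hX, hw, heis_shift D.hF, ha₁]
  have ha₁c : a₁ + a₁ ^ q + Cfsg.hermForm n F q (cv w₀) (cv w₀) = 0 := by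
    have h1 : Cfsg.hermForm n F q w w = Cfsg.hermForm n F q (cv w₀) (cv w₀) := by
      rw [hw]
      simp only [hf_add_left, hf_add_right D.hF, hf_smul_left, hf_smul_right, huuF, hw₀uF,
        huw₀F]
      ring
    rw [h1] at ha
    rw [ha₁, herm_sub_pow D.hF, herm_add_pow D.hF, herm_pow_pow D.hF]
    linear_combination ha
  obtain ⟨l, hl⟩ := exists_trace_one hK'
  obtain ⟨a₀, ha₀⟩ : ∃ a₀ : F₀, a₀ = -(l * Cfsg.hermForm n F₀ s w₀ w₀) := ⟨_, rfl⟩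
  have ha₀c : a₀ + a₀ ^ s + Cfsg.hermForm n F₀ s w₀ w₀ = 0 := by
    rw [ha₀, herm_neg_pow hK', mul_pow, hf_self_pow hK']
    linear_combination (-Cfsg.hermForm n F₀ s w₀ w₀) * hl
  obtain ⟨X₀, hX₀H, hX₀⟩ := D.heis_rat u₀ w₀ a₀ huu hw₀u ha₀c
  have ha₀F : (a₀ : F) + (a₀ : F) ^ q + Cfsg.hermForm n F q (cv w₀) (cv w₀) = 0 := by
    rw [D.herm_cv, D.hpow]
    have h1 := congrArg (fun x : F₀ => (x : F)) ha₀c
    push_cast at h1
    exact h1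
  obtain ⟨τ, hτ⟩ : ∃ τ : F, τ = a₁ - (a₀ : F) := ⟨_, rfl⟩
  have hτc : τ + τ ^ q = 0 := by
    rw [hτ, herm_sub_pow D.hF]
    linear_combination ha₁c - ha₀F
  have hTval : ((X * X₀⁻¹ : GL (Fin n) F) : Matrix (Fin n) (Fin n) F) =
      heis q n (cv u₀) 0 τ := by
    have h1 : Cfsg.unitaryTransvection n q (cv u₀) τ * (X₀ : Matrix (Fin n) (Fin n) F) =
        (X : Matrix (Fin n) (Fin n) F) := by
      rw [hX₀, hX1, transvection_mul_heis D.hF n _ _ _ _ huuF hw₀uF, hτ]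
      congr 1
      ring
    rw [Units.val_mul, ← h1, Matrix.mul_assoc, ← Units.val_mul, mul_inv_cancel, Units.val_one,
      Matrix.mul_one, heis_zero_w D.hF]
  have hτm : τ ∈ F₀ := D.tv_par hHM hMK hS u₀ hu0 huu τ hτc (X * X₀⁻¹)
    (M.mul_mem hXM (M.inv_mem (hHM hX₀H))) hTval
  have ha₁m : a₁ ∈ F₀ := by
    have h1 : a₁ = τ + (a₀ : F) := by rw [hτ]; ring
    rw [h1]
    exact F₀.add_mem hτm a₀.2
  obtain ⟨a₁₀, ha₁₀⟩ : ∃ a₁₀ : F₀, (a₁₀ : F) = a₁ := ⟨⟨a₁, ha₁m⟩, rfl⟩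
  exact Cfsg.Agent.Lib.Helper50.mem_H1_of F₀ X 1 one_ne_zero (lm (heis s n u₀ w₀ a₁₀))
    (ratM_lm _) (by rw [one_smul, hX1, ← ha₁₀, D.heis_lm])

end SubfUD

end Cfsg.Agent.Lib.Helper18
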