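import Mathlib
import Cfsg.Prelude.Def_GeometricClasses
import Cfsg.Prelude.Def_ClassicalGeometry
import Cfsg.Agent.Lib.Helper18.SubfUD

/-!
# Unitary subfield groups of odd prime degree in `SU_n(q)`, part E (helper18)

Assume `M` has no new root elements (`NoNew`).  Then every element of `M` stabilising a rational
isotropic point lies in the subfield group (`UD.core`), and so does every element of `M` mapping
some rational isotropic vector into the orthogonal of a rational isotropic vector (`UD.ngp`).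
-/

set_option autoImplicit false
set_option linter.unusedSectionVars false
set_option linter.unusedVariables false

namespace Cfsg.Agent.Lib.Helper18

open Matrix Module Cfsg.Agent.Lib.Helper7

section SubfUE

variable {F : Type*} [Field F] [Fintype F] {q n : ℕ} {F₀ : Subfield F} {s r : ℕ}

/-- `M` has no new root elements -/
def NoNew (q s : ℕ) (F₀ : Subfield F) (M : Subgroup (GL (Fin n) F)) : Prop :=
  ∀ (u₀ : Fin n → F₀), u₀ ≠ 0 → Cfsg.hermForm n F₀ s u₀ u₀ = 0 → ∀ (w : Fin n → F) (a : F),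
    Cfsg.hermForm n F q w (cv u₀) = 0 → a + a ^ q + Cfsg.hermForm n F q w w = 0 →
    ∀ X : GL (Fin n) F, X ∈ M → (X : Matrix (Fin n) (Fin n) F) = heis q n (cv u₀) w a →
      X ∈ Cfsg.Agent.Lib.Helper50.H1 (Fin n) F₀

variable {M : Subgroup (GL (Fin n) F)}

/-- a matrix mapping rational vectors to rational vectors is rational -/
theorem ratM_of_cv (A : Matrix (Fin n) (Fin n) F)
    (h : ∀ x₀ : Fin n → F₀, ∃ y₀ : Fin n → F₀, A *ᵥ cv x₀ = cv y₀) :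
    Cfsg.Agent.Lib.Helper50.RatM F₀ A := by
  classical
  intro i j
  obtain ⟨y₀, hy₀⟩ := h (Pi.single j 1)
  have h1 := congrFun hy₀ i
  rw [cv_single, Matrix.mulVec_single_one] at h1
  have h2 : A i j = (y₀ i : F) := h1
  rw [h2]
  exact (y₀ i).2

/-- the action of an element of `M` stabilising a rational isotropic point on the orthogonal of
the point is rational modulo the point, up to a scalar -/
theorem UD.core_perp (D : UD F q n F₀ s r) (hHM : UH F₀ n q ≤ M)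
    (hMK : M ≤ Cfsg.GU n F q ⊓ Cfsg.Geo.specialLinear (Fin n) F) (hNR : NoNew q s F₀ M)
    (k : GL (Fin n) F) (hkM : k ∈ M) (u₀ : Fin n → F₀) (hu0 : u₀ ≠ 0)
    (huu : Cfsg.hermForm n F₀ s u₀ u₀ = 0) (c : F) (hc : c ≠ 0)
    (hku : (k : Matrix (Fin n) (Fin n) F) *ᵥ cv u₀ = c • cv u₀)
    (w₀ : Fin n → F₀) (hw₀u : Cfsg.hermForm n F₀ s w₀ u₀ = 0) :
    ∃ (r₀ : Fin n → F₀) (φ : F), Cfsg.hermForm n F₀ s r₀ u₀ = 0 ∧
      c ^ q • ((k : Matrix (Fin n) (Fin n) F) *ᵥ cv w₀) = cv r₀ + φ • cv u₀ := by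
  classical
  have : Fintype F₀ := Fintype.ofFinite F₀
  have hK' : Fintype.card F₀ = s ^ 2 := D.cardK
  have hkU := (hMK hkM).1
  have hcq : c ^ q ≠ 0 := pow_ne_zero _ hc
  have huuF := D.hcv0 huu
  obtain ⟨a, ha, X₀, hX₀M, hX₀⟩ := D.LU_rat hHM u₀ w₀ huu hw₀u
  have hperp : Cfsg.hermForm n F q ((k : Matrix (Fin n) (Fin n) F) *ᵥ cv w₀) (cv u₀) = 0 := by
    have h1 := gu_pres k hkU (cv w₀) (cv u₀)
    rw [hku, hf_smul_right, D.hcv0 hw₀u] at h1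
    exact (mul_eq_zero.mp h1).resolve_left hcq
  have hZval : ((k * X₀ * k⁻¹ : GL (Fin n) F) : Matrix (Fin n) (Fin n) F) =
      heis q n (cv u₀) (c ^ q • ((k : Matrix (Fin n) (Fin n) F) *ᵥ cv w₀)) (c * c ^ q * a) := by
    rw [conj_heis_GL k X₀ hkU _ _ _ hX₀, hku, heis_smul_centre D.hF]
  have hperp' : Cfsg.hermForm n F q (c ^ q • ((k : Matrix (Fin n) (Fin n) F) *ᵥ cv w₀))
      (cv u₀) = 0 := by rw [hf_smul_left, hperp, mul_zero]
  have hcond : c * c ^ q * a + (c * c ^ q * a) ^ q +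
      Cfsg.hermForm n F q (c ^ q • ((k : Matrix (Fin n) (Fin n) F) *ᵥ cv w₀))
        (c ^ q • ((k : Matrix (Fin n) (Fin n) F) *ᵥ cv w₀)) = 0 := by
    rw [hf_smul_left, hf_smul_right, gu_pres k hkU, mul_pow, mul_pow, herm_pow_pow D.hF]
    linear_combination (c * c ^ q) * ha
  have hZM : k * X₀ * k⁻¹ ∈ M := M.mul_mem (M.mul_mem hkM hX₀M) (M.inv_mem hkM)
  have hZH := hNR u₀ hu0 huu _ _ hperp' hcond _ hZM hZval
  obtain ⟨-, r₀, φ, hr⟩ := D.heis_H1 u₀ hu0 huu _ _ hperp' _ hZH hZval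
  refine ⟨r₀, φ, ?_, hr⟩
  have h1 : Cfsg.hermForm n F q (cv r₀) (cv u₀) = 0 := by
    have h2 : cv r₀ = c ^ q • ((k : Matrix (Fin n) (Fin n) F) *ᵥ cv w₀) - φ • cv u₀ := by
      rw [hr]; abel
    rw [h2, hf_sub_left, hperp', hf_smul_left, huuF]
    ring
  rw [D.herm_cv] at h1
  exact Subtype.ext h1

/-- **The parabolic lemma.** If `M` has no new root elements, an element of `M` stabilising a
rational isotropic point lies in the subfield group. -/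
theorem UD.core (D : UD F q n F₀ s r) (hHM : UH F₀ n q ≤ M)
    (hMK : M ≤ Cfsg.GU n F q ⊓ Cfsg.Geo.specialLinear (Fin n) F) (hNR : NoNew q s F₀ M)
    (k : GL (Fin n) F) (hkM : k ∈ M) (u₀ : Fin n → F₀) (hu0 : u₀ ≠ 0)
    (huu : Cfsg.hermForm n F₀ s u₀ u₀ = 0) (c : F)
    (hku : (k : Matrix (Fin n) (Fin n) F) *ᵥ cv u₀ = c • cv u₀) :
    k ∈ Cfsg.Agent.Lib.Helper50.H1 (Fin n) F₀ := by
  classical
  have : Fintype F₀ := Fintype.ofFinite F₀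
  have hK' : Fintype.card F₀ = s ^ 2 := D.cardK
  have hn := D.hn
  have hkU := (hMK hkM).1
  have hkS := (hMK hkM).2
  have hc : c ≠ 0 := by
    rintro rfl
    rw [zero_smul] at hku
    have h1 := gl_inv_mulVec k (cv u₀)
    rw [hku, Matrix.mulVec_zero] at h1
    exact cv_ne_zero hu0 h1.symm
  have hcq : c ^ q ≠ 0 := pow_ne_zero _ hc
  have huuF := D.hcv0 huu
  have stepi := D.core_perp hHM hMK hNR k hkM u₀ hu0 huu c hc hku
  obtain ⟨v₀, hvv, huv⟩ := exists_partner hK' u₀ hu0 huu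
  have hvu : Cfsg.hermForm n F₀ s v₀ u₀ = 1 := by rw [hf_conj hK' n u₀ v₀, huv, one_pow]
  have hvvF := D.hcv0 hvv
  have huvF := D.hcv1 huv
  have hvuF := D.hcv1 hvu
  -- the norm of `c` is rational
  obtain ⟨ν₀, hν⟩ : ∃ ν₀ : F₀, (ν₀ : F) = c * c ^ q := by
    obtain ⟨c₀, hcc, hcu, hcv⟩ := exists_unit_perp_pair hK' (show 3 ≤ n by omega) u₀ v₀ huu hvv
      huv
    obtain ⟨r₀, φ, hr₀u, hr⟩ := stepi c₀ hcu
    have h1 : Cfsg.hermForm n F q (c ^ q • ((k : Matrix (Fin n) (Fin n) F) *ᵥ cv c₀))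
        (c ^ q • ((k : Matrix (Fin n) (Fin n) F) *ᵥ cv c₀)) = c * c ^ q := by
      rw [hf_smul_left, hf_smul_right, herm_pow_pow D.hF, gu_pres k hkU, D.hcv1 hcc]
      ring
    rw [hr] at h1
    simp only [hf_add_left, hf_add_right D.hF, hf_smul_left, hf_smul_right, D.hcv0 hr₀u,
      D.hcv0 (hf_eq_zero_symm hK' n _ _ hr₀u), huuF, mul_zero, add_zero] at h1
    rw [D.herm_cv] at h1
    exact ⟨_, h1⟩
  -- the image of the partner
  obtain ⟨v', hv'⟩ : ∃ v' : Fin n → F,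
      v' = c ^ q • ((k : Matrix (Fin n) (Fin n) F) *ᵥ cv v₀) := ⟨_, rfl⟩
  have hv'u : Cfsg.hermForm n F q v' (cv u₀) = 1 := by
    have h1 := gu_pres k hkU (cv v₀) (cv u₀)
    rw [hku, hf_smul_right, hvuF] at h1
    rw [hv', hf_smul_left]
    exact h1
  have hv'v' : Cfsg.hermForm n F q v' v' = 0 := by
    rw [hv', hf_smul_left, hf_smul_right, gu_pres k hkU, hvvF]
    ring
  obtain ⟨d, hd⟩ : ∃ d : F, d = Cfsg.hermForm n F q (cv v₀) v' := ⟨_, rfl⟩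
  have hdq : Cfsg.hermForm n F q v' (cv v₀) = d ^ q := by rw [hd]; exact hf_conj D.hF n _ _
  have hwe : Cfsg.hermForm n F q (v' - cv v₀) (cv u₀) = 0 := by
    rw [hf_sub_left, hv'u, hvuF, sub_self]
  have hew : Cfsg.hermForm n F q (cv u₀) (v' - cv v₀) = 0 := hf_eq_zero_symm D.hF n _ _ hwe
  have hcond : d + d ^ q + Cfsg.hermForm n F q (v' - cv v₀) (v' - cv v₀) = 0 := by
    simp only [hf_sub_left, hf_sub_right D.hF, hv'v', hvvF, hdq, ← hd]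
    ring
  have hNdet : (heis q n (cv u₀) (v' - cv v₀) d).det = 1 := heis_det D.hF n _ _ _ huuF hwe
  obtain ⟨Ng, hNg⟩ : ∃ Ng : GL (Fin n) F,
      (Ng : Matrix (Fin n) (Fin n) F) = heis q n (cv u₀) (v' - cv v₀) d :=
    ⟨Matrix.GeneralLinearGroup.mkOfDetNeZero (heis q n (cv u₀) (v' - cv v₀) d)
      (by rw [hNdet]; exact one_ne_zero), rfl⟩
  have hNgU : Ng ∈ Cfsg.GU n F q := by
    refine (mem_GU_iff Ng).2 ?_
    rw [hNg]
    exact heis_preserves D.hF n _ _ _ huuF hwe hcond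
  have hNgS : Ng ∈ Cfsg.Geo.specialLinear (Fin n) F :=
    (Cfsg.Agent.Lib.Helper97.mem_specialLinear_iff _).2 (by rw [hNg]; exact hNdet)
  have hNgu : (Ng : Matrix (Fin n) (Fin n) F) *ᵥ cv u₀ = cv u₀ := by
    rw [hNg]
    exact heis_fix D.hF _ _ _ _ huuF hew
  have hNgv : (Ng : Matrix (Fin n) (Fin n) F) *ᵥ cv v₀ = v' := by
    rw [hNg, heis_mulVec, hvuF, hf_sub_right D.hF, hvvF, ← hd]
    module
  have hNiu : ((Ng⁻¹ : GL (Fin n) F) : Matrix (Fin n) (Fin n) F) *ᵥ cv u₀ = cv u₀ := by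
    have h1 := gl_inv_mulVec Ng (cv u₀)
    rwa [hNgu] at h1
  obtain ⟨k₂, hk₂⟩ : ∃ k₂ : GL (Fin n) F, k₂ = Ng⁻¹ * k := ⟨_, rfl⟩
  have hk₂U : k₂ ∈ Cfsg.GU n F q := by
    rw [hk₂]; exact Subgroup.mul_mem _ (Subgroup.inv_mem _ hNgU) hkU
  have hk₂S : k₂ ∈ Cfsg.Geo.specialLinear (Fin n) F := by
    rw [hk₂]; exact Subgroup.mul_mem _ (Subgroup.inv_mem _ hNgS) hkS
  have hk₂val : ∀ z : Fin n → F, (k₂ : Matrix (Fin n) (Fin n) F) *ᵥ z =
      ((Ng⁻¹ : GL (Fin n) F) : Matrix (Fin n) (Fin n) F) *ᵥ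
        ((k : Matrix (Fin n) (Fin n) F) *ᵥ z) := by
    intro z
    rw [hk₂, Units.val_mul, Matrix.mulVec_mulVec]
  obtain ⟨A, hA⟩ : ∃ A : Matrix (Fin n) (Fin n) F,
      A = c ^ q • (k₂ : Matrix (Fin n) (Fin n) F) := ⟨_, rfl⟩
  have hAz : ∀ z : Fin n → F, A *ᵥ z = ((Ng⁻¹ : GL (Fin n) F) : Matrix (Fin n) (Fin n) F) *ᵥ
      (c ^ q • ((k : Matrix (Fin n) (Fin n) F) *ᵥ z)) := by
    intro z
    rw [hA, Matrix.smul_mulVec, hk₂val, Matrix.mulVec_smul]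
  have hAu : A *ᵥ cv u₀ = cv (ν₀ • u₀) := by
    rw [hAz, hku, smul_smul, Matrix.mulVec_smul, hNiu, cv_smul, hν, mul_comm]
  have hAv : A *ᵥ cv v₀ = cv v₀ := by
    rw [hAz, ← hv', ← hNgv, gl_inv_mulVec]
  have hAw : ∀ w₀ : Fin n → F₀, Cfsg.hermForm n F₀ s w₀ u₀ = 0 →
      Cfsg.hermForm n F₀ s w₀ v₀ = 0 → ∃ y₀ : Fin n → F₀, A *ᵥ cv w₀ = cv y₀ := by
    intro w₀ hwu hwv
    obtain ⟨r₀, φ, hr₀u, hr⟩ := stepi w₀ hwu
    obtain ⟨β, hβ⟩ : ∃ β : F, β = -Cfsg.hermForm n F q (cv r₀) (v' - cv v₀) := ⟨_, rfl⟩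
    have hNr : (Ng : Matrix (Fin n) (Fin n) F) *ᵥ cv r₀ = cv r₀ + β • cv u₀ := by
      rw [hNg, heis_mulVec, D.hcv0 hr₀u, hβ]
      module
    have hNir : ((Ng⁻¹ : GL (Fin n) F) : Matrix (Fin n) (Fin n) F) *ᵥ cv r₀ =
        cv r₀ - β • cv u₀ := by
      have h1 := congrArg (fun z => ((Ng⁻¹ : GL (Fin n) F) : Matrix (Fin n) (Fin n) F) *ᵥ z) hNr
      beta_reduce at h1
      rw [gl_inv_mulVec, Matrix.mulVec_add, Matrix.mulVec_smul, hNiu] at h1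
      exact eq_sub_of_add_eq h1.symm
    have hAw' : A *ᵥ cv w₀ = cv r₀ + (φ - β) • cv u₀ := by
      rw [hAz, hr, Matrix.mulVec_add, Matrix.mulVec_smul, hNiu, hNir]
      module
    have h5 : Cfsg.hermForm n F q (A *ᵥ cv w₀) (A *ᵥ cv v₀) = 0 := by
      rw [hA, Matrix.smul_mulVec, Matrix.smul_mulVec, hf_smul_left, hf_smul_right,
        gu_pres k₂ hk₂U, D.hcv0 hwv]
      ring
    rw [hAv, hAw', hf_add_left, hf_smul_left, huvF, D.herm_cv] at h5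
    have hψ : φ - β = ((-Cfsg.hermForm n F₀ s r₀ v₀ : F₀) : F) := by
      push_cast
      linear_combination h5
    exact ⟨r₀ + (-Cfsg.hermForm n F₀ s r₀ v₀) • u₀, by rw [hAw', hψ, cv_add, cv_smul]⟩
  have hAx : ∀ x₀ : Fin n → F₀, ∃ y₀ : Fin n → F₀, A *ᵥ cv x₀ = cv y₀ := by
    intro x₀
    obtain ⟨c₁, hc₁⟩ : ∃ c₁ : F₀, c₁ = Cfsg.hermForm n F₀ s x₀ v₀ := ⟨_, rfl⟩
    obtain ⟨c₂, hc₂⟩ : ∃ c₂ : F₀, c₂ = Cfsg.hermForm n F₀ s x₀ u₀ := ⟨_, rfl⟩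
    obtain ⟨w₀, hw₀⟩ : ∃ w₀ : Fin n → F₀, w₀ = x₀ - c₁ • u₀ - c₂ • v₀ := ⟨_, rfl⟩
    have hw₀u : Cfsg.hermForm n F₀ s w₀ u₀ = 0 := by
      rw [hw₀]
      simp only [hf_sub_left, hf_smul_left, huu, hvu, ← hc₂]
      ring
    have hw₀v : Cfsg.hermForm n F₀ s w₀ v₀ = 0 := by
      rw [hw₀]
      simp only [hf_sub_left, hf_smul_left, huv, hvv, ← hc₁]
      ring
    obtain ⟨y₀, hy₀⟩ := hAw w₀ hw₀u hw₀v
    have hx₀ : cv x₀ = cv w₀ + (c₁ : F) • cv u₀ + (c₂ : F) • cv v₀ := by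
      rw [← cv_smul, ← cv_smul, ← cv_add, ← cv_add]
      congr 1
      rw [hw₀]
      abel
    refine ⟨y₀ + c₁ • (ν₀ • u₀) + c₂ • v₀, ?_⟩
    rw [hx₀, Matrix.mulVec_add, Matrix.mulVec_add, Matrix.mulVec_smul, Matrix.mulVec_smul, hy₀,
      hAu, hAv]
    simp only [cv_add, cv_smul]
  have hArat : Cfsg.Agent.Lib.Helper50.RatM F₀ A := ratM_of_cv A hAx
  have hk₂H : k₂ ∈ Cfsg.Agent.Lib.Helper50.H1 (Fin n) F₀ :=
    Cfsg.Agent.Lib.Helper50.mem_H1_of F₀ k₂ (c ^ q)⁻¹ (inv_ne_zero hcq) A hArat (by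
      rw [hA, smul_smul, inv_mul_cancel₀ hcq, one_smul])
  have hk₂M : k₂ ∈ M := hHM ⟨hk₂H, hk₂U, hk₂S⟩
  have hNgM : Ng ∈ M := by
    have h1 : Ng = k * k₂⁻¹ := by rw [hk₂]; group
    rw [h1]
    exact M.mul_mem hkM (M.inv_mem hk₂M)
  have hNgH := hNR u₀ hu0 huu _ _ hwe hcond Ng hNgM hNg
  have h1 : k = Ng * k₂ := by rw [hk₂]; group
  rw [h1]
  exact Subgroup.mul_mem _ hNgH hk₂H

/-- an element of the subfield group fixing a nonzero rational vector is a rational matrix -/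
theorem ratM_of_H1_fix (Z : GL (Fin n) F) (hZH : Z ∈ Cfsg.Agent.Lib.Helper50.H1 (Fin n) F₀)
    (e₀ : Fin n → F₀) (he0 : e₀ ≠ 0)
    (hZe : (Z : Matrix (Fin n) (Fin n) F) *ᵥ cv e₀ = cv e₀) :
    Cfsg.Agent.Lib.Helper50.RatM F₀ (Z : Matrix (Fin n) (Fin n) F) := by
  obtain ⟨c₁, hc₁, A, hA, hZA⟩ := Cfsg.Agent.Lib.Helper50.exists_of_mem_H1 F₀ Z hZH
  rw [hZA, Matrix.smul_mulVec] at hZe
  have hAu : Cfsg.Agent.Lib.Helper50.RatV F₀ (A *ᵥ cv e₀) :=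
    Cfsg.Agent.Lib.Helper50.ratM_mulVec hA (fun i => (e₀ i).2)
  obtain ⟨i, hi⟩ := Function.ne_iff.mp he0
  have h1 := congrFun hZe i
  rw [Pi.smul_apply, smul_eq_mul] at h1
  have hi' : (cv e₀ i : F) ≠ 0 := fun h => hi (Subtype.ext h)
  have hAi : (A *ᵥ cv e₀) i ≠ 0 := by
    intro h0
    rw [h0, mul_zero] at h1
    exact hi' h1.symm
  have hc₁m : c₁ ∈ F₀ := by
    have h2 : c₁ = cv e₀ i / (A *ᵥ cv e₀) i := by
      rw [eq_div_iff hAi]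
      exact h1
    rw [h2]
    exact F₀.div_mem (e₀ i).2 (hAu i)
  rw [hZA]
  exact Cfsg.Agent.Lib.Helper50.ratM_smul hc₁m hA

/-- **Elements not in general position.** If `M` has no new root elements, an element of `M`
mapping a rational isotropic vector into the orthogonal of a rational isotropic vector lies in
the subfield group. -/
theorem UD.ngp (D : UD F q n F₀ s r) (hHM : UH F₀ n q ≤ M)
    (hMK : M ≤ Cfsg.GU n F q ⊓ Cfsg.Geo.specialLinear (Fin n) F) (hNR : NoNew q s F₀ M)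
    (m : GL (Fin n) F) (hmM : m ∈ M) (e₀ z₀ : Fin n → F₀) (he0 : e₀ ≠ 0) (hz0 : z₀ ≠ 0)
    (hee : Cfsg.hermForm n F₀ s e₀ e₀ = 0) (hzz : Cfsg.hermForm n F₀ s z₀ z₀ = 0)
    (hmez : Cfsg.hermForm n F q ((m : Matrix (Fin n) (Fin n) F) *ᵥ cv e₀) (cv z₀) = 0) :
    m ∈ Cfsg.Agent.Lib.Helper50.H1 (Fin n) F₀ := by
  classical
  have : Fintype F₀ := Fintype.ofFinite F₀
  have hK' : Fintype.card F₀ = s ^ 2 := D.cardK
  have hn := D.hn
  have hmU := (hMK hmM).1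
  have hmiM := M.inv_mem hmM
  have hmiU := (hMK hmiM).1
  obtain ⟨b, hb0, hb⟩ := exists_trace_zero hK'
  have hb' : (b : F) ≠ 0 := fun h => hb0 (Subtype.ext h)
  obtain ⟨T, hTH, hT⟩ := D.heis_rat z₀ 0 b hzz (hf_zero_left n z₀) (by
    rw [hf_zero_left, add_zero]; exact hb)
  rw [cv_zero] at hT
  have hTM := hHM hTH
  obtain ⟨x', hx'⟩ : ∃ x' : Fin n → F,
      x' = ((m⁻¹ : GL (Fin n) F) : Matrix (Fin n) (Fin n) F) *ᵥ cv z₀ := ⟨_, rfl⟩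
  have hkval : ((m⁻¹ * T * (m⁻¹)⁻¹ : GL (Fin n) F) : Matrix (Fin n) (Fin n) F) =
      heis q n x' 0 (b : F) := by
    rw [conj_heis_GL m⁻¹ T hmiU _ _ _ hT, Matrix.mulVec_zero, ← hx']
  have hkM : m⁻¹ * T * (m⁻¹)⁻¹ ∈ M := M.mul_mem (M.mul_mem hmiM hTM) (M.inv_mem hmiM)
  have hex' : Cfsg.hermForm n F q (cv e₀) x' = 0 := by
    have h1 := gu_pres m hmU (cv e₀) x'
    rw [hx', gl_mulVec_inv, hmez] at h1
    rw [hx']
    exact h1.symm
  have hke1 : ((m⁻¹ * T * (m⁻¹)⁻¹ : GL (Fin n) F) : Matrix (Fin n) (Fin n) F) *ᵥ cv e₀ =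
      cv e₀ := by
    rw [hkval]
    exact heis_fix D.hF _ _ _ _ hex' (hf_zero_right D.hF n _)
  have hkH := D.core hHM hMK hNR _ hkM e₀ he0 hee 1 (by rw [one_smul]; exact hke1)
  have hkrat := ratM_of_H1_fix _ hkH e₀ he0 hke1
  have hx'0 : x' ≠ 0 := by
    intro h0
    have h1 := gl_mulVec_inv m (cv z₀)
    rw [← hx', h0, Matrix.mulVec_zero] at h1
    exact cv_ne_zero hz0 h1.symm
  obtain ⟨i, hi⟩ := Function.ne_iff.mp hx'0
  rw [Pi.zero_apply] at hi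
  obtain ⟨γ, hγ⟩ : ∃ γ : F, γ = (b : F) * x' i ^ q := ⟨_, rfl⟩
  have hγ0 : γ ≠ 0 := by rw [hγ]; exact mul_ne_zero hb' (pow_ne_zero _ hi)
  have hks : ((m⁻¹ * T * (m⁻¹)⁻¹ : GL (Fin n) F) : Matrix (Fin n) (Fin n) F) *ᵥ
      Pi.single i 1 = Pi.single i 1 + γ • x' := by
    rw [hkval, heis_mulVec, hf_zero_right D.hF, hf_single_left, hγ]
    module
  have hrat : ∀ j, (γ • x') j ∈ F₀ := by
    intro j
    have h1 : Cfsg.Agent.Lib.Helper50.RatV F₀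
        (((m⁻¹ * T * (m⁻¹)⁻¹ : GL (Fin n) F) : Matrix (Fin n) (Fin n) F) *ᵥ
          (Pi.single i 1 : Fin n → F)) :=
      Cfsg.Agent.Lib.Helper50.ratM_mulVec hkrat
        (Cfsg.Agent.Lib.Helper50.ratV_single F₀ i F₀.one_mem)
    have h2 : (γ • x') j = (((m⁻¹ * T * (m⁻¹)⁻¹ : GL (Fin n) F) :
        Matrix (Fin n) (Fin n) F) *ᵥ (Pi.single i 1 : Fin n → F)) j -
        (Pi.single i 1 : Fin n → F) j := by
      rw [hks]
      simp
    rw [h2]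
    exact F₀.sub_mem (h1 j) (Cfsg.Agent.Lib.Helper50.ratV_single F₀ i F₀.one_mem j)
  obtain ⟨y₀, hy₀⟩ := exists_cv (γ • x') (fun j => hrat j)
  have hx'y : x' = γ⁻¹ • cv y₀ := by
    rw [hy₀, smul_smul, inv_mul_cancel₀ hγ0, one_smul]
  have hy0 : y₀ ≠ 0 := by
    rintro rfl
    rw [cv_zero, smul_zero] at hx'y
    exact hx'0 hx'y
  have hyy : Cfsg.hermForm n F₀ s y₀ y₀ = 0 := by
    have h1 : Cfsg.hermForm n F q x' x' = 0 := by
      rw [hx', gu_pres m⁻¹ hmiU]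
      exact D.hcv0 hzz
    rw [hx'y, hf_smul_left, hf_smul_right, D.herm_cv] at h1
    have hg : γ⁻¹ ≠ 0 := inv_ne_zero hγ0
    have h2 := (mul_eq_zero.mp ((mul_eq_zero.mp h1).resolve_left hg)).resolve_left
      (pow_ne_zero _ hg)
    exact Subtype.ext h2
  obtain ⟨G, hGH, hG⟩ := D.exists_rat_map (show 1 + 1 < n by omega) (fun _ : Fin 1 => y₀)
    (fun _ : Fin 1 => z₀) (linearIndependent_unique_iff.mpr hy0)
    (linearIndependent_unique_iff.mpr hz0) (fun _ _ => hyy) (fun _ _ => hzz)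
  have hG0 := hG 0
  have hGM := hHM hGH
  have hm'M : G * m⁻¹ ∈ M := M.mul_mem hGM hmiM
  have hm'z : ((G * m⁻¹ : GL (Fin n) F) : Matrix (Fin n) (Fin n) F) *ᵥ cv z₀ =
      γ⁻¹ • cv z₀ := by
    rw [Units.val_mul, ← Matrix.mulVec_mulVec, ← hx', hx'y, Matrix.mulVec_smul, hG0]
  have hm'H := D.core hHM hMK hNR _ hm'M z₀ hz0 hzz γ⁻¹ hm'z
  have h1 : m = (G⁻¹ * (G * m⁻¹))⁻¹ := by group
  rw [h1]
  exact Subgroup.inv_mem _ (Subgroup.mul_mem _ (Subgroup.inv_mem _ hGH.1) hm'H)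

end SubfUE

end Cfsg.Agent.Lib.Helper18
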