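import Mathlib
import Cfsg.Prelude.Def_GeometricClasses
import Cfsg.Prelude.Def_ClassicalGeometry
import Cfsg.Agent.Lib.Helper18.SubfUE

/-!
# Unitary subfield groups of odd prime degree in `SU_n(q)`, part F (helper18)

The dihedral argument: if every element of `M` mapping some rational isotropic vector into the
orthogonal of a rational isotropic vector lies in the subfield group (`NGPin`), then `M` is
contained in the subfield group.
-/

set_option autoImplicit false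
set_option linter.unusedSectionVars false
set_option linter.unusedVariables false

namespace Cfsg.Agent.Lib.Helper18

open Matrix Module Cfsg.Agent.Lib.Helper7

section SubfUF

variable {F : Type*} [Field F] [Fintype F] {q n : ℕ} {F₀ : Subfield F} {s r : ℕ}

/-- elements of `M` not in general position lie in the subfield group -/
def NGPin (q s : ℕ) (F₀ : Subfield F) (M : Subgroup (GL (Fin n) F)) : Prop :=
  ∀ m : GL (Fin n) F, m ∈ M → ∀ e₀ z₀ : Fin n → F₀, e₀ ≠ 0 → z₀ ≠ 0 →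
    Cfsg.hermForm n F₀ s e₀ e₀ = 0 → Cfsg.hermForm n F₀ s z₀ z₀ = 0 →
    Cfsg.hermForm n F q ((m : Matrix (Fin n) (Fin n) F) *ᵥ cv e₀) (cv z₀) = 0 →
    m ∈ Cfsg.Agent.Lib.Helper50.H1 (Fin n) F₀

/-- an involution in the subfield group is a rational matrix -/
theorem ratM_of_invol (hsq : ∀ c : F, c ^ 2 ∈ F₀ → c ∈ F₀) (hn : 0 < n) (z : GL (Fin n) F)
    (hz : z ∈ Cfsg.Agent.Lib.Helper50.H1 (Fin n) F₀) (hzz : z * z = 1) :
    Cfsg.Agent.Lib.Helper50.RatM F₀ (z : Matrix (Fin n) (Fin n) F) := by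
  obtain ⟨c, hc0, A, hA, hzA⟩ := Cfsg.Agent.Lib.Helper50.exists_of_mem_H1 F₀ z hz
  have h1 : (c ^ 2) • (A * A) = 1 := by
    have h2 := congrArg Units.val hzz
    rw [Units.val_mul, hzA, Matrix.smul_mul, Matrix.mul_smul, smul_smul, Units.val_one] at h2
    rw [pow_two]; exact h2
  have h2 := congrFun (congrFun h1 ⟨0, hn⟩) ⟨0, hn⟩
  rw [Matrix.smul_apply, Matrix.one_apply_eq, smul_eq_mul] at h2
  have h3 : (c⁻¹) ^ 2 ∈ F₀ := by
    have h4 : (c⁻¹) ^ 2 = (A * A) ⟨0, hn⟩ ⟨0, hn⟩ := by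
      rw [inv_pow]; exact inv_eq_of_mul_eq_one_right h2
    rw [h4]; exact Cfsg.Agent.Lib.Helper50.ratM_mul hA hA _ _
  have h4 : c ∈ F₀ := by
    have h5 := F₀.inv_mem (hsq _ h3)
    rwa [inv_inv] at h5
  rw [hzA]; exact Cfsg.Agent.Lib.Helper50.ratM_smul h4 hA

/-- the two eigenspaces of a unitary involution are orthogonal -/
theorem inv_orth (hF : Fintype.card F = q ^ 2) (z : GL (Fin n) F) (hzU : z ∈ Cfsg.GU n F q)
    (hzz : z * z = 1) (u v : Fin n → F) :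
    Cfsg.hermForm n F q (((z : Matrix (Fin n) (Fin n) F) + 1) *ᵥ u)
      (((z : Matrix (Fin n) (Fin n) F) - 1) *ᵥ v) = 0 := by
  have hzz' : (z : Matrix (Fin n) (Fin n) F) *ᵥ ((z : Matrix (Fin n) (Fin n) F) *ᵥ v) = v := by
    rw [Matrix.mulVec_mulVec, ← Units.val_mul, hzz, Units.val_one, Matrix.one_mulVec]
  have h1 := gu_pres z hzU u v
  have h2 := gu_pres z hzU u ((z : Matrix (Fin n) (Fin n) F) *ᵥ v)
  rw [hzz'] at h2
  rw [Matrix.add_mulVec, Matrix.sub_mulVec, Matrix.one_mulVec, Matrix.one_mulVec, hf_add_left,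
    hf_sub_right hF, hf_sub_right hF, h1, h2]
  ring

/-- in characteristic two the image of `z - 1` is totally isotropic for a unitary involution -/
theorem inv_iso2 (hF : Fintype.card F = q ^ 2) (h2 : (2 : F) = 0) (z : GL (Fin n) F)
    (hzU : z ∈ Cfsg.GU n F q) (hzz : z * z = 1) (u v : Fin n → F) :
    Cfsg.hermForm n F q (((z : Matrix (Fin n) (Fin n) F) - 1) *ᵥ u)
      (((z : Matrix (Fin n) (Fin n) F) - 1) *ᵥ v) = 0 := by
  have h1 : (z : Matrix (Fin n) (Fin n) F) - 1 = (z : Matrix (Fin n) (Fin n) F) + 1 := by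
    have h3 : (-1 : Matrix (Fin n) (Fin n) F) = 1 := by
      have h4 : (1 : Matrix (Fin n) (Fin n) F) + 1 = 0 := by
        rw [← two_smul F (1 : Matrix (Fin n) (Fin n) F), h2, zero_smul]
      exact neg_eq_of_add_eq_zero_left h4
    rw [sub_eq_add_neg, h3]
  nth_rewrite 1 [h1]
  exact inv_orth hF z hzU hzz u v

theorem cv_pv (ω : F₀) (i j : Fin n) : cv (pv ω i j) = pv (ω : F) i j := by
  unfold pv
  rw [cv_add, cv_smul, cv_single, cv_single]

/-- a non-zero vector supported on the coordinates `t, t+1, t+2` whose image under `g` has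
vanishing coordinates 0 and 1 -/
theorem exists_x0_off (t : ℕ) (hn : t + 3 ≤ n) (h2n : 2 ≤ n) (g : Matrix (Fin n) (Fin n) F) :
    ∃ x0 : Fin n → F, x0 ≠ 0 ∧ (∀ k : Fin n, (k.val < t ∨ t + 3 ≤ k.val) → x0 k = 0) ∧
      (g *ᵥ x0) ⟨0, by omega⟩ = 0 ∧ (g *ᵥ x0) ⟨1, by omega⟩ = 0 := by
  obtain ⟨c, hc0, hp, hq⟩ := Cfsg.Agent.Lib.Helper50.two_by_three
    (fun j => g ⟨0, by omega⟩ ⟨t + j.val, by omega⟩)
    (fun j => g ⟨1, by omega⟩ ⟨t + j.val, by omega⟩)
  rw [dotProduct, Fin.sum_univ_three] at hp hq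
  refine ⟨c 0 • Pi.single ⟨t, by omega⟩ 1 + c 1 • Pi.single ⟨t + 1, by omega⟩ 1 +
    c 2 • Pi.single ⟨t + 2, by omega⟩ 1, ?_, ?_, ?_, ?_⟩
  · intro h
    apply hc0
    funext j
    fin_cases j
    · have h1 := congrFun h ⟨t, by omega⟩
      simpa [Pi.single_apply, Fin.ext_iff] using h1
    · have h1 := congrFun h ⟨t + 1, by omega⟩
      simpa [Pi.single_apply, Fin.ext_iff] using h1
    · have h1 := congrFun h ⟨t + 2, by omega⟩
      simpa [Pi.single_apply, Fin.ext_iff] using h1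
  · intro k hk
    have h4 : k ≠ ⟨t, by omega⟩ := by intro h; rw [h] at hk; simp at hk
    have h5 : k ≠ ⟨t + 1, by omega⟩ := by intro h; rw [h] at hk; simp at hk
    have h6 : k ≠ ⟨t + 2, by omega⟩ := by intro h; rw [h] at hk; simp at hk
    simp [h4, h5, h6]
  · rw [Matrix.mulVec_add, Matrix.mulVec_add, Matrix.mulVec_smul, Matrix.mulVec_smul,
      Matrix.mulVec_smul, Matrix.mulVec_single_one, Matrix.mulVec_single_one,
      Matrix.mulVec_single_one]
    simp only [Pi.add_apply, Pi.smul_apply, Matrix.col_apply, smul_eq_mul]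
    simp only [Fin.val_zero, Fin.val_one, Fin.val_two, add_zero] at hp
    linear_combination hp
  · rw [Matrix.mulVec_add, Matrix.mulVec_add, Matrix.mulVec_smul, Matrix.mulVec_smul,
      Matrix.mulVec_smul, Matrix.mulVec_single_one, Matrix.mulVec_single_one,
      Matrix.mulVec_single_one]
    simp only [Pi.add_apply, Pi.smul_apply, Matrix.col_apply, smul_eq_mul]
    simp only [Fin.val_zero, Fin.val_one, Fin.val_two, add_zero] at hq
    linear_combination hq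

/-- a rational matrix whose image is not contained in a line has a nonzero rational isotropic
vector in its image -/
theorem UD.exists_iso_im (D : UD F q n F₀ s r) (A : Matrix (Fin n) (Fin n) F)
    (hA : Cfsg.Agent.Lib.Helper50.RatM F₀ A)
    (hne : ∀ d : Fin n → F, ∃ x : Fin n → F, ∀ c : F, A *ᵥ x ≠ c • d) :
    ∃ e₀ : Fin n → F₀, e₀ ≠ 0 ∧ Cfsg.hermForm n F₀ s e₀ e₀ = 0 ∧
      ∃ y : Fin n → F, cv e₀ = A *ᵥ y := by
  classical
  have : Fintype F₀ := Fintype.ofFinite F₀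
  have hK' : Fintype.card F₀ = s ^ 2 := D.cardK
  have hA0 : A ≠ 0 := by
    intro h0
    obtain ⟨x, hx⟩ := hne 0
    apply hx 0
    rw [h0, Matrix.zero_mulVec, smul_zero]
  obtain ⟨k, hk⟩ := Cfsg.Agent.Lib.Helper50.exists_col_ne_zero hA0
  obtain ⟨x, hx⟩ := hne (A *ᵥ Pi.single k 1)
  have hl : ∃ l, ∀ c : F, A *ᵥ Pi.single l 1 ≠ c • (A *ᵥ Pi.single k 1) := by
    by_contra hcon
    push Not at hcon
    choose cl hcl using hcon
    apply hx (∑ l, x l * cl l)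
    rw [mulVec_eq_lincomb, Finset.sum_smul]
    refine Finset.sum_congr rfl fun l _ => ?_
    have h1 : colFr A l = A *ᵥ Pi.single l 1 := by
      funext i
      rw [Matrix.mulVec_single_one]
      rfl
    rw [h1, hcl l, smul_smul]
  obtain ⟨l, hl⟩ := hl
  obtain ⟨a₀, ha₀⟩ : ∃ a₀ : Fin n → F₀, cv a₀ = A *ᵥ Pi.single k 1 :=
    ⟨fun i => ⟨A i k, hA i k⟩, by funext i; rw [Matrix.mulVec_single_one]; rfl⟩
  obtain ⟨b₀, hb₀⟩ : ∃ b₀ : Fin n → F₀, cv b₀ = A *ᵥ Pi.single l 1 :=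
    ⟨fun i => ⟨A i l, hA i l⟩, by funext i; rw [Matrix.mulVec_single_one]; rfl⟩
  have ha0 : a₀ ≠ 0 := by
    intro h0
    apply hk
    rw [← ha₀, h0, cv_zero]
  have hli : LinearIndependent F₀ ![a₀, b₀] := by
    rw [LinearIndependent.pair_iff' ha0]
    intro c hc
    apply hl (c : F)
    rw [← hb₀, ← ha₀, ← cv_smul, hc]
  obtain ⟨lam, μ, hne0, hiso⟩ := exists_iso_comb hK' a₀ b₀ hli
  refine ⟨lam • a₀ + μ • b₀, hne0, hiso, (lam : F) • Pi.single k 1 + (μ : F) • Pi.single l 1, ?_⟩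
  rw [cv_add, cv_smul, cv_smul, ha₀, hb₀, Matrix.mulVec_add, Matrix.mulVec_smul,
    Matrix.mulVec_smul]

theorem hf_pv_right_zero (hF : Fintype.card F = q ^ 2) (ω : F) (i j : Fin n) (v : Fin n → F)
    (hi : v i = 0) (hj : v j = 0) : Cfsg.hermForm n F q v (pv ω i j) = 0 := by
  rw [hf_conj hF, hf_pv_left, hi, hj, zero_pow (herm_q_ne_zero hF), mul_zero, add_zero,
    zero_pow (herm_q_ne_zero hF)]

theorem trace_conj_gl (g x : GL (Fin n) F) :
    ((g * x * g⁻¹ : GL (Fin n) F) : Matrix (Fin n) (Fin n) F).trace =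
      (x : Matrix (Fin n) (Fin n) F).trace := by
  rw [Units.val_mul, Units.val_mul, Matrix.trace_mul_comm, ← Matrix.mul_assoc, Units.inv_mul,
    Matrix.one_mul]

/-- the dihedral argument in characteristic two -/
theorem UD.le_H1_two (D : UD F q n F₀ s r) {M : Subgroup (GL (Fin n) F)}
    (hHM : UH F₀ n q ≤ M)
    (hMK : M ≤ Cfsg.GU n F q ⊓ Cfsg.Geo.specialLinear (Fin n) F) (hG : NGPin q s F₀ M)
    (h2 : (2 : F) = 0) : M ≤ Cfsg.Agent.Lib.Helper50.H1 (Fin n) F₀ := by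
  classical
  have : Fintype F₀ := Fintype.ofFinite F₀
  have hK' : Fintype.card F₀ = s ^ 2 := D.cardK
  have hn := D.hn
  have hF := D.hF
  have hsq : ∀ c : F, c ^ 2 ∈ F₀ → c ∈ F₀ :=
    Cfsg.Agent.Lib.Helper50.mem_of_sq_mem F₀ r D.hcard (Or.inr D.hro)
  obtain ⟨ω, hω0, hω⟩ := exists_omega hK'
  obtain ⟨i0, hi0⟩ : ∃ i0 : Fin n, i0 = ⟨0, by omega⟩ := ⟨_, rfl⟩
  obtain ⟨i1, hi1⟩ : ∃ i1 : Fin n, i1 = ⟨1, by omega⟩ := ⟨_, rfl⟩
  obtain ⟨i2, hi2⟩ : ∃ i2 : Fin n, i2 = ⟨2, by omega⟩ := ⟨_, rfl⟩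
  obtain ⟨i3, hi3⟩ : ∃ i3 : Fin n, i3 = ⟨3, by omega⟩ := ⟨_, rfl⟩
  have n01 : i0 ≠ i1 := by rw [hi0, hi1]; simp
  have n02 : i0 ≠ i2 := by rw [hi0, hi2]; simp
  have n03 : i0 ≠ i3 := by rw [hi0, hi3]; simp
  have n12 : i1 ≠ i2 := by rw [hi1, hi2]; simp
  have n13 : i1 ≠ i3 := by rw [hi1, hi3]; simp
  have n23 : i2 ≠ i3 := by rw [hi2, hi3]; simp
  obtain ⟨z₁, hz₁⟩ : ∃ z₁ : Fin n → F₀, z₁ = pv ω i0 i1 := ⟨_, rfl⟩
  obtain ⟨z₂, hz₂⟩ : ∃ z₂ : Fin n → F₀, z₂ = pv ω i2 i3 := ⟨_, rfl⟩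
  have hz11 : Cfsg.hermForm n F₀ s z₁ z₁ = 0 := by rw [hz₁]; exact pv_iso ω hω n01
  have hz22 : Cfsg.hermForm n F₀ s z₂ z₂ = 0 := by rw [hz₂]; exact pv_iso ω hω n23
  have hz12 : Cfsg.hermForm n F₀ s z₁ z₂ = 0 := by
    rw [hz₁, hz₂]; exact pv_orth hK' ω n02 n03 n12 n13
  have hz21 : Cfsg.hermForm n F₀ s z₂ z₁ = 0 := hf_eq_zero_symm hK' n _ _ hz12
  have hz1ne : z₁ ≠ 0 := by rw [hz₁]; exact pv_ne_zero ω n01
  have hz2ne : z₂ ≠ 0 := by rw [hz₂]; exact pv_ne_zero ω n23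
  have hZ11 := D.hcv0 hz11
  have hZ22 := D.hcv0 hz22
  have hZ12 := D.hcv0 hz12
  have hZ21 := D.hcv0 hz21
  have c10 : cv z₁ i0 = (1 : F) := by
    rw [hz₁]
    show ((pv ω i0 i1 i0 : F₀) : F) = 1
    rw [pv_apply_left ω n01]; rfl
  have c20 : cv z₂ i0 = (0 : F) := by
    rw [hz₂]
    show ((pv ω i2 i3 i0 : F₀) : F) = 0
    rw [pv_apply_ne ω n02 n03]; rfl
  have c22 : cv z₂ i2 = (1 : F) := by
    rw [hz₂]
    show ((pv ω i2 i3 i2 : F₀) : F) = 1
    rw [pv_apply_left ω n23]; rfl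
  have c12 : cv z₁ i2 = (0 : F) := by
    rw [hz₁]
    show ((pv ω i0 i1 i2 : F₀) : F) = 0
    rw [pv_apply_ne ω n02.symm n12.symm]; rfl
  have h20 : (1 : F₀) + 1 ^ s + Cfsg.hermForm n F₀ s (0 : Fin n → F₀) 0 = 0 := by
    rw [hf_zero_left, one_pow, add_zero]
    apply Subtype.ext
    push_cast
    rw [one_add_one_eq_two]; exact h2
  obtain ⟨A1, hA1H, hA1⟩ := D.heis_rat z₁ 0 1 hz11 (hf_zero_left n z₁) h20
  obtain ⟨A2, hA2H, hA2⟩ := D.heis_rat z₂ 0 1 hz22 (hf_zero_left n z₂) h20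
  rw [cv_zero] at hA1 hA2
  have hA1mv : ∀ y : Fin n → F, (A1 : Matrix (Fin n) (Fin n) F) *ᵥ y =
      y + Cfsg.hermForm n F q y (cv z₁) • cv z₁ := by
    intro y
    rw [hA1, heis_mulVec, smul_zero, add_zero, hf_zero_right hF, sub_zero]
    push_cast
    rw [one_mul]
  have hA2mv : ∀ y : Fin n → F, (A2 : Matrix (Fin n) (Fin n) F) *ᵥ y =
      y + Cfsg.hermForm n F q y (cv z₂) • cv z₂ := by
    intro y
    rw [hA2, heis_mulVec, smul_zero, add_zero, hf_zero_right hF, sub_zero]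
    push_cast
    rw [one_mul]
  have hsm2 : ∀ (x : F) (v : Fin n → F), x • v + x • v = 0 := by
    intro x v
    rw [← two_smul F (x • v), h2, zero_smul]
  intro m hm
  by_contra hmH
  have hmiM := M.inv_mem hm
  have haM : A1 ∈ M := hHM hA1H
  obtain ⟨b0, hb0⟩ : ∃ b0 : GL (Fin n) F, b0 = A1 * A2 := ⟨_, rfl⟩
  have hb0M : b0 ∈ M := by rw [hb0]; exact M.mul_mem haM (hHM hA2H)
  have hb0mv : ∀ y : Fin n → F, (b0 : Matrix (Fin n) (Fin n) F) *ᵥ y =
      y + Cfsg.hermForm n F q y (cv z₂) • cv z₂ + Cfsg.hermForm n F q y (cv z₁) • cv z₁ := by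
    intro y
    rw [hb0, Units.val_mul, ← Matrix.mulVec_mulVec, hA2mv, hA1mv, hf_add_left, hf_smul_left,
      hZ21, mul_zero, add_zero]
  have ha2 : A1 * A1 = 1 := by
    apply Units.ext
    rw [Units.val_mul, Units.val_one]
    apply Matrix.mulVec_injective
    funext y
    rw [← Matrix.mulVec_mulVec, hA1mv, hA1mv, Matrix.one_mulVec, hf_add_left, hf_smul_left,
      hZ11, mul_zero, add_zero, add_assoc, hsm2, add_zero]
  have hb2 : b0 * b0 = 1 := by
    apply Units.ext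
    rw [Units.val_mul, Units.val_one]
    apply Matrix.mulVec_injective
    funext y
    rw [← Matrix.mulVec_mulVec, hb0mv, hb0mv, Matrix.one_mulVec]
    simp only [hf_add_left, hf_smul_left, hZ11, hZ22, hZ12, hZ21, mul_zero, add_zero]
    have e1 := hsm2 (Cfsg.hermForm n F q y (cv z₂)) (cv z₂)
    have e2 := hsm2 (Cfsg.hermForm n F q y (cv z₁)) (cv z₁)
    calc y + Cfsg.hermForm n F q y (cv z₂) • cv z₂ + Cfsg.hermForm n F q y (cv z₁) • cv z₁
          + Cfsg.hermForm n F q y (cv z₂) • cv z₂ + Cfsg.hermForm n F q y (cv z₁) • cv z₁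
        = y + (Cfsg.hermForm n F q y (cv z₂) • cv z₂ + Cfsg.hermForm n F q y (cv z₂) • cv z₂)
          + (Cfsg.hermForm n F q y (cv z₁) • cv z₁
            + Cfsg.hermForm n F q y (cv z₁) • cv z₁) := by abel
      _ = y := by rw [e1, e2, add_zero, add_zero]
  obtain ⟨b, hb⟩ : ∃ b : GL (Fin n) F, b = m * b0 * m⁻¹ := ⟨_, rfl⟩
  have hbM : b ∈ M := by rw [hb]; exact M.mul_mem (M.mul_mem hm hb0M) hmiM
  have hbb : b * b = 1 := by
    have h1 : b * b = m * (b0 * b0) * m⁻¹ := by rw [hb]; group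
    rw [h1, hb2, mul_one, mul_inv_cancel]
  have hbU := (hMK hbM).1
  have hmb : ∀ x : Fin n → F, ((m⁻¹ : GL (Fin n) F) : Matrix (Fin n) (Fin n) F) *ᵥ
      ((b : Matrix (Fin n) (Fin n) F) *ᵥ x) = (b0 : Matrix (Fin n) (Fin n) F) *ᵥ
        (((m⁻¹ : GL (Fin n) F) : Matrix (Fin n) (Fin n) F) *ᵥ x) := by
    intro x
    rw [hb, Units.val_mul, Units.val_mul, ← Matrix.mulVec_mulVec, ← Matrix.mulVec_mulVec,
      gl_inv_mulVec]
  rcases Cfsg.Agent.Lib.Helper50.dihedral_alt A1 b ha2 hbb with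
    ⟨g, hg⟩ | ⟨j, hz1, hzz, haz, hbz⟩
  · obtain ⟨g', hg'⟩ : ∃ g' : GL (Fin n) F, g' = m⁻¹ * g := ⟨_, rfl⟩
    have h1 : b0 = g' * A1 * g'⁻¹ := by
      have h0 : b0 = m⁻¹ * b * m := by rw [hb]; group
      rw [h0, hg, hg']; group
    have h3 : ∀ y : Fin n → F, Cfsg.hermForm n F q y (cv z₂) • cv z₂ +
        Cfsg.hermForm n F q y (cv z₁) • cv z₁ =
        Cfsg.hermForm n F q (((g'⁻¹ : GL (Fin n) F) : Matrix (Fin n) (Fin n) F) *ᵥ y) (cv z₁) •
          ((g' : Matrix (Fin n) (Fin n) F) *ᵥ cv z₁) := by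
      intro y
      have h4 := hb0mv y
      rw [h1, Units.val_mul, Units.val_mul, ← Matrix.mulVec_mulVec, ← Matrix.mulVec_mulVec,
        hA1mv, Matrix.mulVec_add, Matrix.mulVec_smul, gl_mulVec_inv, add_assoc] at h4
      exact (add_left_cancel h4).symm
    have e1 := h3 (Pi.single i0 1)
    have e2 := h3 (Pi.single i2 1)
    rw [hf_single_left, hf_single_left] at e1 e2
    have f1 := congrFun e1 i0
    have f2 := congrFun e2 i0
    have f3 := congrFun e2 i2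
    have hq0 : (0 : F) ^ q = 0 := zero_pow (herm_q_ne_zero hF)
    simp only [Pi.add_apply, Pi.smul_apply, smul_eq_mul, c10, c20, c22, c12, one_pow, mul_one,
      mul_zero, zero_add, add_zero, hq0] at f1 f2 f3
    rcases mul_eq_zero.mp f2.symm with h5 | h5
    · rw [h5, zero_mul] at f3
      exact one_ne_zero f3
    · rw [h5, mul_zero] at f1
      exact one_ne_zero f1
  · obtain ⟨z, hz⟩ : ∃ z : GL (Fin n) F, z = (A1 * b) ^ j := ⟨_, rfl⟩
    rw [← hz] at hz1 hzz haz hbz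
    have hzM : z ∈ M := by rw [hz]; exact M.pow_mem (M.mul_mem haM hbM) j
    have hzU := (hMK hzM).1
    have h1 : (A1 : Matrix (Fin n) (Fin n) F) *ᵥ ((z : Matrix (Fin n) (Fin n) F) *ᵥ cv z₁) =
        (z : Matrix (Fin n) (Fin n) F) *ᵥ cv z₁ := by
      rw [Matrix.mulVec_mulVec, ← Units.val_mul, haz, Units.val_mul, ← Matrix.mulVec_mulVec,
        hA1mv, hZ11, zero_smul, add_zero]
    rw [hA1mv] at h1
    have h3 : Cfsg.hermForm n F q ((z : Matrix (Fin n) (Fin n) F) *ᵥ cv z₁) (cv z₁) = 0 := by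
      have h4 : Cfsg.hermForm n F q ((z : Matrix (Fin n) (Fin n) F) *ᵥ cv z₁) (cv z₁) •
          cv z₁ = (0 : Fin n → F) :=
        add_left_cancel (a := (z : Matrix (Fin n) (Fin n) F) *ᵥ cv z₁) (by rw [h1, add_zero])
      rcases smul_eq_zero.mp h4 with h5 | h5
      · exact h5
      · exact absurd h5 (cv_ne_zero hz1ne)
    have hzH := hG z hzM z₁ z₁ hz1ne hz1ne hz11 hz11 h3
    have hzr := ratM_of_invol hsq (by omega) z hzH hzz
    have hzm : (z : Matrix (Fin n) (Fin n) F) - 1 ≠ 0 := by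
      intro h
      apply hz1
      apply Units.ext
      rw [Units.val_one]
      exact sub_eq_zero.mp h
    obtain ⟨k, hk⟩ := Cfsg.Agent.Lib.Helper50.exists_col_ne_zero hzm
    obtain ⟨c₀, hc₀⟩ := exists_cv (F₀ := F₀)
      (((z : Matrix (Fin n) (Fin n) F) - 1) *ᵥ Pi.single k 1)
      (fun i => Cfsg.Agent.Lib.Helper50.ratM_mulVec (Cfsg.Agent.Lib.Helper50.ratM_sub hzr
        (Cfsg.Agent.Lib.Helper50.ratM_one F₀))
        (Cfsg.Agent.Lib.Helper50.ratV_single F₀ k F₀.one_mem) i)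
    have hc0ne : c₀ ≠ 0 := by
      intro h0
      apply hk
      rw [← hc₀, h0, cv_zero]
    have hc00 : Cfsg.hermForm n F₀ s c₀ c₀ = 0 := by
      have h4 := D.herm_cv c₀ c₀
      rw [hc₀, inv_iso2 hF h2 z hzU hzz] at h4
      exact Subtype.ext h4.symm
    have hbz' : (b : Matrix (Fin n) (Fin n) F) *ᵥ
        (((z : Matrix (Fin n) (Fin n) F) - 1) *ᵥ Pi.single k 1) =
        ((z : Matrix (Fin n) (Fin n) F) - 1) *ᵥ
          ((b : Matrix (Fin n) (Fin n) F) *ᵥ Pi.single k 1) := by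
      rw [Matrix.sub_mulVec, Matrix.sub_mulVec, Matrix.one_mulVec, Matrix.one_mulVec,
        Matrix.mulVec_sub, Matrix.mulVec_mulVec, Matrix.mulVec_mulVec, ← Units.val_mul,
        ← Units.val_mul, hbz]
    have h5 : Cfsg.hermForm n F q ((b : Matrix (Fin n) (Fin n) F) *ᵥ cv c₀) (cv c₀) = 0 := by
      rw [hc₀, hbz']
      exact inv_iso2 hF h2 z hzU hzz _ _
    have hbH := hG b hbM c₀ c₀ hc0ne hc0ne hc00 hc00 h5
    have hbr := ratM_of_invol hsq (by omega) b hbH hbb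
    have hbm : (b : Matrix (Fin n) (Fin n) F) - 1 ≠ 0 := by
      intro h
      have h6 : (b : Matrix (Fin n) (Fin n) F) = 1 := sub_eq_zero.mp h
      have h7 : b = 1 := Units.ext (by rw [h6, Units.val_one])
      have h8 : b0 = 1 := by
        have h0 : b0 = m⁻¹ * b * m := by rw [hb]; group
        rw [h0, h7]; group
      have h9 := hb0mv (Pi.single i0 1)
      rw [h8, Units.val_one, Matrix.one_mulVec, hf_single_left, hf_single_left] at h9
      have h10 := congrFun h9 i0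
      have hq0 : (0 : F) ^ q = 0 := zero_pow (herm_q_ne_zero hF)
      simp only [Pi.add_apply, Pi.smul_apply, smul_eq_mul, c10, c20, one_pow, mul_one,
        mul_zero, add_zero, hq0, Pi.single_eq_same] at h10
      have h11 : (1 : F) = 0 := by linear_combination (-1 : F) * h10
      exact one_ne_zero h11
    obtain ⟨k', hk'⟩ := Cfsg.Agent.Lib.Helper50.exists_col_ne_zero hbm
    obtain ⟨c₁, hc₁⟩ := exists_cv (F₀ := F₀)
      (((b : Matrix (Fin n) (Fin n) F) - 1) *ᵥ Pi.single k' 1)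
      (fun i => Cfsg.Agent.Lib.Helper50.ratM_mulVec (Cfsg.Agent.Lib.Helper50.ratM_sub hbr
        (Cfsg.Agent.Lib.Helper50.ratM_one F₀))
        (Cfsg.Agent.Lib.Helper50.ratV_single F₀ k' F₀.one_mem) i)
    have hc1ne : c₁ ≠ 0 := by
      intro h0
      apply hk'
      rw [← hc₁, h0, cv_zero]
    have hc11 : Cfsg.hermForm n F₀ s c₁ c₁ = 0 := by
      have h4 := D.herm_cv c₁ c₁
      rw [hc₁, inv_iso2 hF h2 b hbU hbb] at h4
      exact Subtype.ext h4.symm
    have h11 : Cfsg.hermForm n F q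
        (((m⁻¹ : GL (Fin n) F) : Matrix (Fin n) (Fin n) F) *ᵥ cv c₁) (cv z₁) = 0 := by
      rw [hc₁, Matrix.sub_mulVec, Matrix.one_mulVec, Matrix.mulVec_sub, hmb, hb0mv,
        hf_sub_left, hf_add_left, hf_add_left, hf_smul_left, hf_smul_left, hZ21, hZ11]
      ring
    have hmiH := hG m⁻¹ hmiM c₁ z₁ hc1ne hz1ne hc11 hz11 h11
    apply hmH
    have h12 := (Cfsg.Agent.Lib.Helper50.H1 (Fin n) F₀).inv_mem hmiH
    rwa [inv_inv] at h12

/-- the dihedral argument in odd characteristic -/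
theorem UD.le_H1_odd (D : UD F q n F₀ s r) {M : Subgroup (GL (Fin n) F)}
    (hHM : UH F₀ n q ≤ M)
    (hMK : M ≤ Cfsg.GU n F q ⊓ Cfsg.Geo.specialLinear (Fin n) F) (hG : NGPin q s F₀ M)
    (h2 : (2 : F) ≠ 0) : M ≤ Cfsg.Agent.Lib.Helper50.H1 (Fin n) F₀ := by
  classical
  have : Fintype F₀ := Fintype.ofFinite F₀
  have hK' : Fintype.card F₀ = s ^ 2 := D.cardK
  have hn := D.hn
  have hF := D.hF
  have hsq : ∀ c : F, c ^ 2 ∈ F₀ → c ∈ F₀ :=
    Cfsg.Agent.Lib.Helper50.mem_of_sq_mem F₀ r D.hcard (Or.inr D.hro)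
  obtain ⟨ω, hω0, hω⟩ := exists_omega hK'
  obtain ⟨i0, hi0⟩ : ∃ i0 : Fin n, i0 = ⟨0, by omega⟩ := ⟨_, rfl⟩
  obtain ⟨i1, hi1⟩ : ∃ i1 : Fin n, i1 = ⟨1, by omega⟩ := ⟨_, rfl⟩
  obtain ⟨i2, hi2⟩ : ∃ i2 : Fin n, i2 = ⟨2, by omega⟩ := ⟨_, rfl⟩
  obtain ⟨i3, hi3⟩ : ∃ i3 : Fin n, i3 = ⟨3, by omega⟩ := ⟨_, rfl⟩
  obtain ⟨i4, hi4⟩ : ∃ i4 : Fin n, i4 = ⟨4, by omega⟩ := ⟨_, rfl⟩
  obtain ⟨i5, hi5⟩ : ∃ i5 : Fin n, i5 = ⟨5, by omega⟩ := ⟨_, rfl⟩
  have n01 : i0 ≠ i1 := by rw [hi0, hi1]; simp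
  have n23 : i2 ≠ i3 := by rw [hi2, hi3]; simp
  have n45 : i4 ≠ i5 := by rw [hi4, hi5]; simp
  have hd4 : (Cfsg.Agent.Lib.Helper50.dsign n 4 F).det = 1 := by
    rw [Cfsg.Agent.Lib.Helper50.dsign_det n 4 (by omega)]; norm_num
  have hd2 : (Cfsg.Agent.Lib.Helper50.dsign n 2 F).det = 1 := by
    rw [Cfsg.Agent.Lib.Helper50.dsign_det n 2 (by omega)]; norm_num
  have hdU : ∀ j : ℕ, IsFr q n n (colFr (Cfsg.Agent.Lib.Helper50.dsign n j F)) := by
    intro j
    show IsFr q n n (colFr (Matrix.diagonal (fun k : Fin n => if k.val < j then (-1 : F) else 1)))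
    apply isFr_diagonal hF
    intro i
    show (if i.val < j then (-1 : F) else 1) ^ (q + 1) = 1
    split_ifs
    · rw [pow_succ, herm_neg_pow hF, one_pow]; ring
    · rw [one_pow]
  obtain ⟨a, ha⟩ : ∃ a : GL (Fin n) F, a = Matrix.GeneralLinearGroup.mkOfDetNeZero
      (Cfsg.Agent.Lib.Helper50.dsign n 4 F) (by rw [hd4]; exact one_ne_zero) := ⟨_, rfl⟩
  obtain ⟨b0, hb0⟩ : ∃ b0 : GL (Fin n) F, b0 = Matrix.GeneralLinearGroup.mkOfDetNeZero
      (Cfsg.Agent.Lib.Helper50.dsign n 2 F) (by rw [hd2]; exact one_ne_zero) := ⟨_, rfl⟩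
  have haval : (a : Matrix (Fin n) (Fin n) F) = Cfsg.Agent.Lib.Helper50.dsign n 4 F := by
    rw [ha]; rfl
  have hbval : (b0 : Matrix (Fin n) (Fin n) F) = Cfsg.Agent.Lib.Helper50.dsign n 2 F := by
    rw [hb0]; rfl
  have haM : a ∈ M := hHM ⟨Cfsg.Agent.Lib.Helper50.mem_H1_of F₀ a 1 one_ne_zero _
    (Cfsg.Agent.Lib.Helper50.ratM_dsign F₀ n 4) (by rw [one_smul, haval]),
    (mem_GU_iff_isFr hF a).mpr (by rw [haval]; exact hdU 4),
    (Cfsg.Agent.Lib.Helper97.mem_specialLinear_iff a).mpr (by rw [haval, hd4])⟩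
  have hb0M : b0 ∈ M := hHM ⟨Cfsg.Agent.Lib.Helper50.mem_H1_of F₀ b0 1 one_ne_zero _
    (Cfsg.Agent.Lib.Helper50.ratM_dsign F₀ n 2) (by rw [one_smul, hbval]),
    (mem_GU_iff_isFr hF b0).mpr (by rw [hbval]; exact hdU 2),
    (Cfsg.Agent.Lib.Helper97.mem_specialLinear_iff b0).mpr (by rw [hbval, hd2])⟩
  have ha2 : a * a = 1 :=
    Units.ext (by rw [Units.val_mul, haval, Cfsg.Agent.Lib.Helper50.dsign_mul_self,
      Units.val_one])
  have hb2 : b0 * b0 = 1 :=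
    Units.ext (by rw [Units.val_mul, hbval, Cfsg.Agent.Lib.Helper50.dsign_mul_self,
      Units.val_one])
  have hneg : ∀ x : F, -1 * x = x → x = 0 := by
    intro x hx
    have h3 : (2 : F) * x = 0 := by linear_combination (-1 : F) * hx
    rcases mul_eq_zero.mp h3 with h4 | h4
    · exact absurd h4 h2
    · exact h4
  have htwo : ∀ v : Fin n → F, v + v = 0 → v = 0 := by
    intro v hv
    rw [← two_smul F v] at hv
    rcases smul_eq_zero.mp hv with h | h
    · exact absurd h h2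
    · exact h
  intro m hm
  by_contra hmH
  have hmiM := M.inv_mem hm
  obtain ⟨b, hb⟩ : ∃ b : GL (Fin n) F, b = m * b0 * m⁻¹ := ⟨_, rfl⟩
  have hbM : b ∈ M := by rw [hb]; exact M.mul_mem (M.mul_mem hm hb0M) hmiM
  have hbb : b * b = 1 := by
    have h1 : b * b = m * (b0 * b0) * m⁻¹ := by rw [hb]; group
    rw [h1, hb2, mul_one, mul_inv_cancel]
  have hbU := (hMK hbM).1
  have hmb : ∀ x : Fin n → F, ((m⁻¹ : GL (Fin n) F) : Matrix (Fin n) (Fin n) F) *ᵥ
      ((b : Matrix (Fin n) (Fin n) F) *ᵥ x) = (b0 : Matrix (Fin n) (Fin n) F) *ᵥ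
        (((m⁻¹ : GL (Fin n) F) : Matrix (Fin n) (Fin n) F) *ᵥ x) := by
    intro x
    rw [hb, Units.val_mul, Units.val_mul, ← Matrix.mulVec_mulVec, ← Matrix.mulVec_mulVec,
      gl_inv_mulVec]
  have hbm : ∀ x : Fin n → F, (b : Matrix (Fin n) (Fin n) F) *ᵥ
      ((m : Matrix (Fin n) (Fin n) F) *ᵥ x) = (m : Matrix (Fin n) (Fin n) F) *ᵥ
        ((b0 : Matrix (Fin n) (Fin n) F) *ᵥ x) := by
    intro x
    rw [hb, Units.val_mul, Units.val_mul, ← Matrix.mulVec_mulVec, ← Matrix.mulVec_mulVec,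
      gl_inv_mulVec]
  obtain ⟨z₀, hz₀⟩ : ∃ z₀ : Fin n → F₀, z₀ = pv ω i0 i1 := ⟨_, rfl⟩
  have hz00 : Cfsg.hermForm n F₀ s z₀ z₀ = 0 := by rw [hz₀]; exact pv_iso ω hω n01
  have hz0ne : z₀ ≠ 0 := by rw [hz₀]; exact pv_ne_zero ω n01
  rcases Cfsg.Agent.Lib.Helper50.dihedral_alt a b ha2 hbb with
    ⟨g, hg⟩ | ⟨j, hz1, hzz, haz, hbz⟩
  · have h1 : (b : Matrix (Fin n) (Fin n) F).trace =
        ((g * a * g⁻¹ : GL (Fin n) F) : Matrix (Fin n) (Fin n) F).trace := by rw [hg]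
    rw [hb, trace_conj_gl, trace_conj_gl, hbval, haval,
      Cfsg.Agent.Lib.Helper50.dsign_trace n 2 (by omega),
      Cfsg.Agent.Lib.Helper50.dsign_trace n 4 (by omega)] at h1
    push_cast at h1
    have h3 : (2 : F) * 2 = 0 := by linear_combination h1
    exact h2 (mul_self_eq_zero.mp h3)
  · obtain ⟨z, hz⟩ : ∃ z : GL (Fin n) F, z = (a * b) ^ j := ⟨_, rfl⟩
    rw [← hz] at hz1 hzz haz hbz
    have hzM : z ∈ M := by rw [hz]; exact M.pow_mem (M.mul_mem haM hbM) j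
    have hzU := (hMK hzM).1
    have hzS := (hMK hzM).2
    obtain ⟨e₄, he₄⟩ : ∃ e₄ : Fin n → F₀, e₄ = pv ω i4 i5 := ⟨_, rfl⟩
    have he44 : Cfsg.hermForm n F₀ s e₄ e₄ = 0 := by rw [he₄]; exact pv_iso ω hω n45
    have he4ne : e₄ ≠ 0 := by rw [he₄]; exact pv_ne_zero ω n45
    have hae : (a : Matrix (Fin n) (Fin n) F) *ᵥ cv e₄ = cv e₄ := by
      funext k
      rw [haval, Cfsg.Agent.Lib.Helper50.dsign_mulVec]
      split_ifs with hk
      · have h0 : cv e₄ k = (0 : F) := by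
          rw [he₄, cv_pv]
          exact pv_apply_ne _ (by intro h; rw [h, hi4] at hk; simp at hk)
            (by intro h; rw [h, hi5] at hk; simp at hk)
        rw [h0, mul_zero]
      · rw [one_mul]
    have h1 : (a : Matrix (Fin n) (Fin n) F) *ᵥ ((z : Matrix (Fin n) (Fin n) F) *ᵥ cv e₄) =
        (z : Matrix (Fin n) (Fin n) F) *ᵥ cv e₄ := by
      rw [Matrix.mulVec_mulVec, ← Units.val_mul, haz, Units.val_mul, ← Matrix.mulVec_mulVec, hae]
    have hzk : ∀ k : Fin n, k.val < 4 → ((z : Matrix (Fin n) (Fin n) F) *ᵥ cv e₄) k = 0 := by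
      intro k hk
      have h4 := congrFun h1 k
      rw [haval, Cfsg.Agent.Lib.Helper50.dsign_mulVec, if_pos hk] at h4
      exact hneg _ h4
    have h3 : Cfsg.hermForm n F q ((z : Matrix (Fin n) (Fin n) F) *ᵥ cv e₄) (cv z₀) = 0 := by
      rw [hz₀, cv_pv]
      exact hf_pv_right_zero hF _ i0 i1 _ (hzk i0 (by rw [hi0]; simp))
        (hzk i1 (by rw [hi1]; simp))
    have hzH := hG z hzM e₄ z₀ he4ne hz0ne he44 hz00 h3
    have hzr := ratM_of_invol hsq (by omega) z hzH hzz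
    obtain ⟨x0, hx0, hsupp, h00, h01⟩ := exists_x0_off 4 (by omega) (by omega)
      ((m⁻¹ : GL (Fin n) F) : Matrix (Fin n) (Fin n) F)
    obtain ⟨x1, hx1, hsupp1, h10, h11⟩ := exists_x0_off 7 (by omega) (by omega)
      ((m⁻¹ : GL (Fin n) F) : Matrix (Fin n) (Fin n) F)
    have hfix : ∀ x : Fin n → F, (∀ k : Fin n, k.val < 4 → x k = 0) →
        (((m⁻¹ : GL (Fin n) F) : Matrix (Fin n) (Fin n) F) *ᵥ x) ⟨0, by omega⟩ = 0 →
        (((m⁻¹ : GL (Fin n) F) : Matrix (Fin n) (Fin n) F) *ᵥ x) ⟨1, by omega⟩ = 0 →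
        (z : Matrix (Fin n) (Fin n) F) *ᵥ x = x := by
      intro x hs h0 h1
      have hax : (a : Matrix (Fin n) (Fin n) F) *ᵥ x = x := by
        funext k
        rw [haval, Cfsg.Agent.Lib.Helper50.dsign_mulVec]
        split_ifs with hk
        · rw [hs k hk, mul_zero]
        · rw [one_mul]
      have hb0x : (b0 : Matrix (Fin n) (Fin n) F) *ᵥ
          (((m⁻¹ : GL (Fin n) F) : Matrix (Fin n) (Fin n) F) *ᵥ x) =
          ((m⁻¹ : GL (Fin n) F) : Matrix (Fin n) (Fin n) F) *ᵥ x := by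
        funext k
        rw [hbval, Cfsg.Agent.Lib.Helper50.dsign_mulVec]
        split_ifs with hk
        · have h5 : k = ⟨0, by omega⟩ ∨ k = ⟨1, by omega⟩ := by
            rcases Nat.lt_or_ge k.val 1 with h6 | h6
            · left; exact Fin.ext (by simp; omega)
            · right; exact Fin.ext (by simp; omega)
          rcases h5 with h5 | h5
          · rw [h5, h0, mul_zero]
          · rw [h5, h1, mul_zero]
        · rw [one_mul]
      have hbx : (b : Matrix (Fin n) (Fin n) F) *ᵥ x = x := by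
        rw [hb, Units.val_mul, Units.val_mul, ← Matrix.mulVec_mulVec, ← Matrix.mulVec_mulVec,
          hb0x, gl_mulVec_inv]
      rw [hz, Units.val_pow_eq_pow_val]
      apply Cfsg.Agent.Lib.Helper50.pow_mulVec_fix
      rw [Units.val_mul, ← Matrix.mulVec_mulVec, hbx, hax]
    have hzx0 := hfix x0 (fun k hk => hsupp k (Or.inl hk)) h00 h01
    have hzx1 := hfix x1 (fun k hk => hsupp1 k (Or.inl (by omega))) h10 h11
    have hplus : ∀ d : Fin n → F, ∃ x : Fin n → F, ∀ c : F,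
        ((z : Matrix (Fin n) (Fin n) F) + 1) *ᵥ x ≠ c • d := by
      by_contra hcon
      push Not at hcon
      obtain ⟨d, hd⟩ := hcon
      obtain ⟨c0, hc0⟩ := hd x0
      obtain ⟨c1, hc1⟩ := hd x1
      rw [Matrix.add_mulVec, Matrix.one_mulVec, hzx0] at hc0
      rw [Matrix.add_mulVec, Matrix.one_mulVec, hzx1] at hc1
      obtain ⟨i, hi⟩ := Function.ne_iff.mp hx0
      rw [Pi.zero_apply] at hi
      have hi1 : x1 i = 0 := by
        apply hsupp1
        by_contra hcon2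
        push Not at hcon2
        exact hi (hsupp i (Or.inr (by omega)))
      have f0 := congrFun hc0 i
      have f1 := congrFun hc1 i
      rw [Pi.add_apply, Pi.smul_apply, smul_eq_mul] at f0 f1
      rw [hi1, add_zero] at f1
      have hdi : d i ≠ 0 := by
        intro h
        rw [h, mul_zero] at f0
        have h4 : (2 : F) * x0 i = 0 := by linear_combination f0
        rcases mul_eq_zero.mp h4 with h' | h'
        · exact h2 h'
        · exact hi h'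
      have hc1z : c1 = 0 := by
        rcases mul_eq_zero.mp f1.symm with h | h
        · exact h
        · exact absurd h hdi
      rw [hc1z, zero_smul] at hc1
      exact hx1 (htwo x1 hc1)
    obtain ⟨ep, hep0, hepp, yp, hyp⟩ := D.exists_iso_im ((z : Matrix (Fin n) (Fin n) F) + 1)
      (Cfsg.Agent.Lib.Helper50.ratM_add hzr (Cfsg.Agent.Lib.Helper50.ratM_one F₀)) hplus
    have hminus : ∀ d : Fin n → F, ∃ x : Fin n → F, ∀ c : F,
        ((z : Matrix (Fin n) (Fin n) F) - 1) *ᵥ x ≠ c • d := by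
      by_contra hcon
      push Not at hcon
      obtain ⟨d, hd⟩ := hcon
      choose φ hφ using fun l : Fin n => hd (Pi.single l 1)
      have hzv : (z : Matrix (Fin n) (Fin n) F) = 1 + Matrix.vecMulVec d φ := by
        ext i l
        have h4 := congrFun (hφ l) i
        rw [Matrix.mulVec_single_one] at h4
        have h5 : ((z : Matrix (Fin n) (Fin n) F) - 1) i l = φ l * d i := h4
        rw [Matrix.sub_apply] at h5
        rw [Matrix.add_apply, Matrix.vecMulVec_apply]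
        linear_combination h5
      have hdet : (z : Matrix (Fin n) (Fin n) F).det = 1 :=
        (Cfsg.Agent.Lib.Helper97.mem_specialLinear_iff z).1 hzS
      rw [hzv, det_one_add_vecMulVec'] at hdet
      have hφd : φ ⬝ᵥ d = 0 := by linear_combination hdet
      have hzmv : ∀ x : Fin n → F, (z : Matrix (Fin n) (Fin n) F) *ᵥ x = x + (φ ⬝ᵥ x) • d := by
        intro x
        rw [hzv, Matrix.add_mulVec, Matrix.one_mulVec, vecMulVec_mulVec']
      apply hz1
      apply Units.ext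
      rw [Units.val_one]
      apply Matrix.mulVec_injective
      funext x
      have h6 : (z : Matrix (Fin n) (Fin n) F) *ᵥ ((z : Matrix (Fin n) (Fin n) F) *ᵥ x) = x := by
        rw [Matrix.mulVec_mulVec, ← Units.val_mul, hzz, Units.val_one, Matrix.one_mulVec]
      rw [hzmv x, hzmv, dotProduct_add, dotProduct_smul, hφd, smul_zero, add_zero] at h6
      have h7 : (φ ⬝ᵥ x) • d + (φ ⬝ᵥ x) • d = 0 :=
        add_left_cancel (a := x) (by rw [← add_assoc, h6, add_zero])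
      rw [hzmv, htwo _ h7, add_zero, Matrix.one_mulVec]
    obtain ⟨em, hem0, hemm, ym, hym⟩ := D.exists_iso_im ((z : Matrix (Fin n) (Fin n) F) - 1)
      (Cfsg.Agent.Lib.Helper50.ratM_sub hzr (Cfsg.Agent.Lib.Helper50.ratM_one F₀)) hminus
    have h5 : Cfsg.hermForm n F q ((b : Matrix (Fin n) (Fin n) F) *ᵥ cv ep) (cv em) = 0 := by
      rw [hyp, hym]
      have h6 : (b : Matrix (Fin n) (Fin n) F) *ᵥ (((z : Matrix (Fin n) (Fin n) F) + 1) *ᵥ yp) =
          ((z : Matrix (Fin n) (Fin n) F) + 1) *ᵥ ((b : Matrix (Fin n) (Fin n) F) *ᵥ yp) := by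
        rw [Matrix.add_mulVec, Matrix.add_mulVec, Matrix.one_mulVec, Matrix.one_mulVec,
          Matrix.mulVec_add, Matrix.mulVec_mulVec, Matrix.mulVec_mulVec, ← Units.val_mul,
          ← Units.val_mul, hbz]
      rw [h6]
      exact inv_orth hF z hzU hzz _ _
    have hbH := hG b hbM ep em hep0 hem0 hepp hemm h5
    have hbr := ratM_of_invol hsq (by omega) b hbH hbb
    have hb0s : ∀ l : Fin n, 2 ≤ l.val →
        (b0 : Matrix (Fin n) (Fin n) F) *ᵥ Pi.single l 1 = Pi.single l 1 := by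
      intro l hl
      funext k
      rw [hbval, Cfsg.Agent.Lib.Helper50.dsign_mulVec]
      split_ifs with hk
      · rw [Pi.single_eq_of_ne (by intro h; rw [h] at hk; omega), mul_zero]
      · rw [one_mul]
    have hbplus : ∀ d : Fin n → F, ∃ x : Fin n → F, ∀ c : F,
        ((b : Matrix (Fin n) (Fin n) F) + 1) *ᵥ x ≠ c • d := by
      by_contra hcon
      push Not at hcon
      obtain ⟨d, hd⟩ := hcon
      obtain ⟨c2, hc2⟩ := hd ((m : Matrix (Fin n) (Fin n) F) *ᵥ Pi.single i2 1)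
      obtain ⟨c3, hc3⟩ := hd ((m : Matrix (Fin n) (Fin n) F) *ᵥ Pi.single i3 1)
      rw [Matrix.add_mulVec, Matrix.one_mulVec, hbm, hb0s i2 (by rw [hi2])] at hc2
      rw [Matrix.add_mulVec, Matrix.one_mulVec, hbm, hb0s i3 (by rw [hi3]; simp)] at hc3
      have h6 : (m : Matrix (Fin n) (Fin n) F) *ᵥ
          (c3 • Pi.single i2 1 - c2 • Pi.single i3 1) = 0 := by
        apply htwo
        rw [Matrix.mulVec_sub, Matrix.mulVec_smul, Matrix.mulVec_smul]
        calc c3 • (m : Matrix (Fin n) (Fin n) F) *ᵥ Pi.single i2 1 -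
              c2 • (m : Matrix (Fin n) (Fin n) F) *ᵥ Pi.single i3 1 +
              (c3 • (m : Matrix (Fin n) (Fin n) F) *ᵥ Pi.single i2 1 -
              c2 • (m : Matrix (Fin n) (Fin n) F) *ᵥ Pi.single i3 1)
            = c3 • ((m : Matrix (Fin n) (Fin n) F) *ᵥ Pi.single i2 1 +
                (m : Matrix (Fin n) (Fin n) F) *ᵥ Pi.single i2 1) -
              c2 • ((m : Matrix (Fin n) (Fin n) F) *ᵥ Pi.single i3 1 +
                (m : Matrix (Fin n) (Fin n) F) *ᵥ Pi.single i3 1) := by module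
          _ = 0 := by rw [hc2, hc3]; module
      have h7 : c3 • Pi.single i2 1 - c2 • Pi.single i3 1 = (0 : Fin n → F) := by
        have h8 := gl_inv_mulVec m (c3 • Pi.single i2 1 - c2 • Pi.single i3 1)
        rw [h6, Matrix.mulVec_zero] at h8
        exact h8.symm
      have h9 := congrFun h7 i3
      rw [Pi.sub_apply, Pi.smul_apply, Pi.smul_apply, Pi.single_eq_same,
        Pi.single_eq_of_ne n23.symm, smul_eq_mul, smul_eq_mul, mul_zero, mul_one, zero_sub,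
        Pi.zero_apply, neg_eq_zero] at h9
      rw [h9, zero_smul] at hc2
      have h10 := htwo _ hc2
      have h11 := gl_inv_mulVec m (Pi.single i2 1)
      rw [h10, Matrix.mulVec_zero] at h11
      have h12 := congrFun h11 i2
      rw [Pi.zero_apply, Pi.single_eq_same] at h12
      exact zero_ne_one h12
    obtain ⟨e', he'0, he'e', y', hy'⟩ := D.exists_iso_im ((b : Matrix (Fin n) (Fin n) F) + 1)
      (Cfsg.Agent.Lib.Helper50.ratM_add hbr (Cfsg.Agent.Lib.Helper50.ratM_one F₀)) hbplus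
    have hk2 : ∀ k : Fin n, k.val < 2 →
        (((m⁻¹ : GL (Fin n) F) : Matrix (Fin n) (Fin n) F) *ᵥ cv e') k = 0 := by
      intro k hk
      rw [hy', Matrix.add_mulVec, Matrix.one_mulVec, Matrix.mulVec_add, hmb, Pi.add_apply, hbval,
        Cfsg.Agent.Lib.Helper50.dsign_mulVec, if_pos hk]
      ring
    have h11 : Cfsg.hermForm n F q
        (((m⁻¹ : GL (Fin n) F) : Matrix (Fin n) (Fin n) F) *ᵥ cv e') (cv z₀) = 0 := by
      rw [hz₀, cv_pv]
      exact hf_pv_right_zero hF _ i0 i1 _ (hk2 i0 (by rw [hi0]; simp))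
        (hk2 i1 (by rw [hi1]; simp))
    have hmiH := hG m⁻¹ hmiM e' z₀ he'0 hz0ne he'e' hz00 h11
    apply hmH
    have h12 := (Cfsg.Agent.Lib.Helper50.H1 (Fin n) F₀).inv_mem hmiH
    rwa [inv_inv] at h12

/-- **The dihedral argument.** -/
theorem UD.le_H1_of_ngp (D : UD F q n F₀ s r) {M : Subgroup (GL (Fin n) F)}
    (hHM : UH F₀ n q ≤ M)
    (hMK : M ≤ Cfsg.GU n F q ⊓ Cfsg.Geo.specialLinear (Fin n) F) (hG : NGPin q s F₀ M) :
    M ≤ Cfsg.Agent.Lib.Helper50.H1 (Fin n) F₀ := by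
  by_cases h2 : (2 : F) = 0
  · exact D.le_H1_two hHM hMK hG h2
  · exact D.le_H1_odd hHM hMK hG h2

end SubfUF

end Cfsg.Agent.Lib.Helper18
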