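import Mathlib
import Cfsg.Prelude.Def_GeometricClasses
import Cfsg.Prelude.Def_ClassicalGeometry
import Cfsg.Agent.Lib.Helper18.SubfUF
import Cfsg.Agent.S0780

/-!
# Unitary subfield groups of odd prime degree in `SU_n(q)`, part G (helper18)

The full case: if the parameter field of `M` is `F`, then `M` contains all unitary transvections,
hence `SU_n(q)`.  Together with strictness this gives the maximality theorem.
-/

set_option autoImplicit false
set_option linter.unusedSectionVars false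
set_option linter.unusedVariables false

namespace Cfsg.Agent.Lib.Helper18

open Matrix Module Cfsg.Agent.Lib.Helper7

section SubfUG

variable {F : Type*} [Field F] [Fintype F] {q n : ℕ} {F₀ : Subfield F} {s r : ℕ}

/-- A subgroup of `GL` containing all unitary transvections contains `SU`. -/
theorem su_le_of_UC' (hF : Fintype.card F = q ^ 2) (n : ℕ) (hn : 3 ≤ n)
    (h32 : ¬ (n = 3 ∧ q = 2)) (M : Subgroup (GL (Fin n) F))
    (hM : ∀ x : Fin n → F, Cfsg.hermForm n F q x x = 0 → Cfsg.Agent.Lib.Helper44.UC n q M x) :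
    Cfsg.GU n F q ⊓ Cfsg.Geo.specialLinear (Fin n) F ≤ M := by
  classical
  have hgen := Cfsg.Agent.S0780.result hF n hn h32
  intro g hg
  have hdet : (g : Matrix (Fin n) (Fin n) F).det = 1 :=
    (Cfsg.Agent.Lib.Helper97.mem_specialLinear_iff g).1 hg.2
  have hA₀ : (⟨(g : Matrix (Fin n) (Fin n) F), hdet⟩ : Matrix.SpecialLinearGroup (Fin n) F) ∈
      Cfsg.SU n F q := fun u v => (mem_GU_iff g).1 hg.1 u v
  have hle : Subgroup.closure {A : ↥(Cfsg.SU n F q) | ∃ (v : Fin n → F) (c : F),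
      Cfsg.hermForm n F q v v = 0 ∧ ((A : Matrix.SpecialLinearGroup (Fin n) F) :
        Matrix (Fin n) (Fin n) F) = Cfsg.unitaryTransvection n q v c} ≤
      M.comap ((Matrix.SpecialLinearGroup.toGL).comp (Cfsg.SU n F q).subtype) := by
    rw [Subgroup.closure_le]
    rintro A ⟨v, c, hv, hAv⟩
    show Matrix.SpecialLinearGroup.toGL (A : Matrix.SpecialLinearGroup (Fin n) F) ∈ M
    by_cases hv0 : v = 0
    · have h1 : Matrix.SpecialLinearGroup.toGL (A : Matrix.SpecialLinearGroup (Fin n) F) = 1 := by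
        apply Units.ext
        show ((A : Matrix.SpecialLinearGroup (Fin n) F) : Matrix (Fin n) (Fin n) F) = 1
        rw [hAv, hv0]
        unfold Cfsg.unitaryTransvection
        ext i j
        simp
      rw [h1]
      exact M.one_mem
    · have hc : c + c ^ q = 0 := by
        obtain ⟨i, hi⟩ := Function.ne_iff.mp hv0
        rw [Pi.zero_apply] at hi
        have hpres : Cfsg.hermForm n F q
            (((A : Matrix.SpecialLinearGroup (Fin n) F) : Matrix (Fin n) (Fin n) F) *ᵥ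
              Pi.single i 1)
            (((A : Matrix.SpecialLinearGroup (Fin n) F) : Matrix (Fin n) (Fin n) F) *ᵥ
              Pi.single i 1) =
            Cfsg.hermForm n F q (Pi.single i 1) (Pi.single i 1) := A.2 _ _
        rw [hAv, unitaryTransvection_mulVec] at hpres
        simp only [hf_add_left, hf_add_right hF, hf_smul_left, hf_smul_right, hv, mul_zero,
          add_zero, hf_single_left, hf_single_right hF, mul_pow, herm_pow_pow hF, Pi.add_apply,
          Pi.smul_apply, Pi.single_eq_same, smul_eq_mul] at hpres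
        have h2 : (c + c ^ q) * (v i * v i ^ q) = 0 := by
          linear_combination hpres
        exact (mul_eq_zero.mp h2).resolve_right (mul_ne_zero hi (pow_ne_zero _ hi))
      exact hM v hv c hc _ hAv
  have hmem : (⟨⟨(g : Matrix (Fin n) (Fin n) F), hdet⟩, hA₀⟩ : ↥(Cfsg.SU n F q)) ∈
      Subgroup.closure {A : ↥(Cfsg.SU n F q) | ∃ (v : Fin n → F) (c : F),
      Cfsg.hermForm n F q v v = 0 ∧ ((A : Matrix.SpecialLinearGroup (Fin n) F) :
        Matrix (Fin n) (Fin n) F) = Cfsg.unitaryTransvection n q v c} := by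
    rw [hgen]
    trivial
  have h3 := hle hmem
  have h4 : ((Matrix.SpecialLinearGroup.toGL).comp (Cfsg.SU n F q).subtype)
      (⟨⟨(g : Matrix (Fin n) (Fin n) F), hdet⟩, hA₀⟩ : ↥(Cfsg.SU n F q)) = g := Units.ext rfl
  rwa [Subgroup.mem_comap, h4] at h3

variable {M : Subgroup (GL (Fin n) F)}

/-- the parameter field of `M` is `F` -/
def FullSP (q s : ℕ) (F₀ : Subfield F) (M : Subgroup (GL (Fin n) F)) : Prop :=
  ∀ u z : Fin n → F₀, TIP s u z → ∀ c : F, SP q M u z c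

theorem UD.LU_iso (D : UD F q n F₀ s r) (hfull : FullSP q s F₀ M) (u₀ r₀ : Fin n → F₀)
    (hu0 : u₀ ≠ 0) (huu : Cfsg.hermForm n F₀ s u₀ u₀ = 0)
    (hrr : Cfsg.hermForm n F₀ s r₀ r₀ = 0) (hru : Cfsg.hermForm n F₀ s r₀ u₀ = 0) (c : F) :
    LU q M (cv u₀) (c • cv r₀) := by
  classical
  have : Fintype F₀ := Fintype.ofFinite F₀
  have hK' : Fintype.card F₀ = s ^ 2 := D.cardK
  by_cases hli : LinearIndependent F₀ ![u₀, r₀]
  · exact hfull u₀ r₀ ⟨huu, hrr, hf_eq_zero_symm hK' n _ _ hru, hli⟩ c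
  · rw [LinearIndependent.pair_iff' hu0] at hli
    push Not at hli
    obtain ⟨t, ht⟩ := hli
    have h1 : c • cv r₀ = (c * (t : F)) • cv u₀ := by
      rw [← ht, cv_smul, smul_smul]
    rw [h1]
    exact LU_smul_u D.hF M (D.hcv0 huu) _

theorem UD.LU_rat_full (D : UD F q n F₀ s r) (hfull : FullSP q s F₀ M) (u₀ r₀ : Fin n → F₀)
    (hu0 : u₀ ≠ 0) (huu : Cfsg.hermForm n F₀ s u₀ u₀ = 0)
    (hru : Cfsg.hermForm n F₀ s r₀ u₀ = 0) (c : F) :
    LU q M (cv u₀) (c • cv r₀) := by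
  classical
  have : Fintype F₀ := Fintype.ofFinite F₀
  have hK' : Fintype.card F₀ = s ^ 2 := D.cardK
  have hn := D.hn
  by_cases hrr : Cfsg.hermForm n F₀ s r₀ r₀ = 0
  · exact D.LU_iso hfull u₀ r₀ hu0 huu hrr hru c
  · obtain ⟨s₀, hss, hsu, hrs⟩ :=
      exists_iso_perp_one hK' (show 4 ≤ n by omega) u₀ r₀ hu0 huu hru hrr
    obtain ⟨l, hl⟩ := exists_trace_one hK'
    obtain ⟨α, hα⟩ : ∃ α : F₀, α = Cfsg.hermForm n F₀ s r₀ r₀ := ⟨_, rfl⟩
    have hαs : α ^ s = α := by rw [hα]; exact hf_self_pow hK' n r₀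
    have hsr : Cfsg.hermForm n F₀ s s₀ r₀ = 1 := by rw [hf_conj hK' n r₀ s₀, hrs, one_pow]
    have h1 : Cfsg.hermForm n F₀ s (r₀ - (l * α) • s₀) (r₀ - (l * α) • s₀) = 0 := by
      simp only [hf_sub_left, hf_sub_right hK', hf_smul_left, hf_smul_right, hss, hrs, hsr, ← hα,
        mul_pow, hαs]
      linear_combination (-α) * hl
    have h2 : Cfsg.hermForm n F₀ s (r₀ - (l * α) • s₀) u₀ = 0 := by
      rw [hf_sub_left, hf_smul_left, hru, hsu]; ring
    have h3 : Cfsg.hermForm n F₀ s ((l * α) • s₀) ((l * α) • s₀) = 0 := by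
      rw [hf_smul_left, hf_smul_right, hss]; ring
    have h4 : Cfsg.hermForm n F₀ s ((l * α) • s₀) u₀ = 0 := by
      rw [hf_smul_left, hsu, mul_zero]
    have e1 := D.LU_iso hfull u₀ _ hu0 huu h1 h2 c
    have e2 := D.LU_iso hfull u₀ _ hu0 huu h3 h4 c
    have e3 := LU_add D.hF (D.hcv0 huu) (by rw [hf_smul_left, D.hcv0 h2, mul_zero])
      (by rw [hf_smul_left, D.hcv0 h4, mul_zero]) e1 e2
    refine LU_congr e3 ?_
    rw [← smul_add, ← cv_add, sub_add_cancel]

/-- in the full case every vector orthogonal to a rational isotropic vector is a parameter -/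
theorem UD.LU_full (D : UD F q n F₀ s r) (hfull : FullSP q s F₀ M) (u₀ : Fin n → F₀)
    (hu0 : u₀ ≠ 0) (huu : Cfsg.hermForm n F₀ s u₀ u₀ = 0) (w : Fin n → F)
    (hwu : Cfsg.hermForm n F q w (cv u₀) = 0) : LU q M (cv u₀) w := by
  classical
  have : Fintype F₀ := Fintype.ofFinite F₀
  have hK' : Fintype.card F₀ = s ^ 2 := D.cardK
  obtain ⟨v₀, hvv, huv⟩ := exists_partner hK' u₀ hu0 huu
  have hvu : Cfsg.hermForm n F₀ s v₀ u₀ = 1 := by rw [hf_conj hK' n u₀ v₀, huv, one_pow]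
  obtain ⟨e', he'⟩ : ∃ e' : Fin n → Fin n → F₀, e' = fun i =>
      Pi.single i 1 - Cfsg.hermForm n F₀ s (Pi.single i 1) u₀ • v₀ := ⟨_, rfl⟩
  have he'u : ∀ i, Cfsg.hermForm n F₀ s (e' i) u₀ = 0 := by
    intro i
    rw [he']
    show Cfsg.hermForm n F₀ s (Pi.single i 1 - Cfsg.hermForm n F₀ s (Pi.single i 1) u₀ • v₀)
      u₀ = 0
    rw [hf_sub_left, hf_smul_left, hvu, mul_one, sub_self]
  have hw : w = ∑ i, w i • cv (e' i) := by
    have h1 : ∀ i, w i • cv (e' i) = w i • Pi.single i 1 - (w i * (cv u₀ i) ^ q) • cv v₀ := by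
      intro i
      rw [he']
      show w i • cv (Pi.single i 1 - Cfsg.hermForm n F₀ s (Pi.single i 1) u₀ • v₀) = _
      rw [cv_sub, cv_smul, cv_single, hf_single_left, smul_sub, smul_smul]
      have h0 : (((u₀ i) ^ s : F₀) : F) = (cv u₀ i) ^ q := by
        push_cast
        exact (D.hpow (u₀ i)).symm
      rw [h0]
    simp_rw [h1]
    rw [Finset.sum_sub_distrib, ← Finset.sum_smul]
    have h2 : ∑ i, w i * cv u₀ i ^ q = Cfsg.hermForm n F q w (cv u₀) := rfl
    rw [h2, hwu, zero_smul, sub_zero]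
    funext j
    simp [Finset.sum_apply, Pi.single_apply]
  rw [hw]
  have key : ∀ S : Finset (Fin n), LU q M (cv u₀) (∑ i ∈ S, w i • cv (e' i)) ∧
      Cfsg.hermForm n F q (∑ i ∈ S, w i • cv (e' i)) (cv u₀) = 0 := by
    intro S
    induction S using Finset.induction_on with
    | empty =>
      refine ⟨?_, ?_⟩
      · rw [Finset.sum_empty]
        have h0 := LU_smul_u D.hF M (D.hcv0 huu) 0
        rwa [zero_smul] at h0
      · rw [Finset.sum_empty, hf_zero_left]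
    | insert a S ha ih =>
      have h5 : Cfsg.hermForm n F q (w a • cv (e' a)) (cv u₀) = 0 := by
        rw [hf_smul_left, D.hcv0 (he'u a), mul_zero]
      rw [Finset.sum_insert ha]
      refine ⟨LU_add D.hF (D.hcv0 huu) h5 ih.2
        (D.LU_rat_full hfull u₀ (e' a) hu0 huu (he'u a) (w a)) ih.1, ?_⟩
      rw [hf_add_left, h5, ih.2, add_zero]
  exact (key Finset.univ).1

/-- in the full case, rational isotropic vectors are centres -/
theorem UD.UC_rat (D : UD F q n F₀ s r) (hfull : FullSP q s F₀ M) (u₀ : Fin n → F₀)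
    (hu0 : u₀ ≠ 0) (huu : Cfsg.hermForm n F₀ s u₀ u₀ = 0) :
    Cfsg.Agent.Lib.Helper44.UC n q M (cv u₀) := by
  classical
  have : Fintype F₀ := Fintype.ofFinite F₀
  have hK' : Fintype.card F₀ = s ^ 2 := D.cardK
  have hn := D.hn
  have hF := D.hF
  obtain ⟨v₀, hvv, huv⟩ := exists_partner hK' u₀ hu0 huu
  obtain ⟨r₀, hrr, hru, hrv⟩ :=
    exists_unit_perp_pair hK' (show 3 ≤ n by omega) u₀ v₀ huu hvv huv
  intro b hb t ht
  obtain ⟨l, hl⟩ := exists_trace_one hF
  obtain ⟨β, hβ⟩ : ∃ β : F, β = -(b * l) := ⟨_, rfl⟩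
  have hRU := D.hcv0 hru
  have hRR := D.hcv1 hrr
  have hUU := D.hcv0 huu
  obtain ⟨a, ha, X, hXM, hX⟩ := D.LU_rat_full hfull u₀ r₀ hu0 huu hru 1
  obtain ⟨a', ha', Y, hYM, hY⟩ := D.LU_rat_full hfull u₀ r₀ hu0 huu hru β
  rw [one_smul] at hX
  have hc := comm_heis_GL hF X Y (cv u₀) (cv r₀) (β • cv r₀) a a' hUU hRU
    (by rw [hf_smul_left, hRU, mul_zero]) hX hY
  have hval : Cfsg.hermForm n F q (cv r₀) (β • cv r₀) -
      Cfsg.hermForm n F q (β • cv r₀) (cv r₀) = b := by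
    rw [hf_smul_right, hf_smul_left, hRR, hβ, herm_neg_pow hF, mul_pow]
    have hb' : b ^ q = -b := by linear_combination hb
    rw [hb']
    linear_combination b * hl
  rw [hval] at hc
  have h1 : t = X * Y * X⁻¹ * Y⁻¹ := Units.ext (by rw [ht, hc])
  rw [h1]
  exact M.mul_mem (M.mul_mem (M.mul_mem hXM hYM) (M.inv_mem hXM)) (M.inv_mem hYM)

/-- in the full case, every isotropic vector is a centre -/
theorem UD.UC_all (D : UD F q n F₀ s r)
    (hMK : M ≤ Cfsg.GU n F q ⊓ Cfsg.Geo.specialLinear (Fin n) F) (hfull : FullSP q s F₀ M)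
    (y : Fin n → F) (hyy : Cfsg.hermForm n F q y y = 0) :
    Cfsg.Agent.Lib.Helper44.UC n q M y := by
  classical
  have : Fintype F₀ := Fintype.ofFinite F₀
  have hK' : Fintype.card F₀ = s ^ 2 := D.cardK
  have hn := D.hn
  have hF := D.hF
  by_cases hy0 : y = 0
  · rw [hy0]; exact UC_zero M
  obtain ⟨i, hi⟩ := Function.ne_iff.mp hy0
  rw [Pi.zero_apply] at hi
  have hex : ∃ u₀ : Fin n → F₀, Cfsg.hermForm n F₀ s u₀ u₀ = 0 ∧
      Cfsg.hermForm n F q y (cv u₀) ≠ 0 := by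
    have h11 : Cfsg.hermForm n F₀ s (Pi.single i 1) (Pi.single i 1) = 1 := by
      rw [hf_single_left, Pi.single_eq_same, one_pow]
    obtain ⟨s₀, hss, hes⟩ := exists_iso_one hK' (show 2 ≤ n by omega) (Pi.single i 1)
      (by rw [h11]; exact one_ne_zero)
    obtain ⟨l, hl⟩ := exists_trace_one hK'
    have hse : Cfsg.hermForm n F₀ s s₀ (Pi.single i 1) = 1 := by
      rw [hf_conj hK' n (Pi.single i 1) s₀, hes, one_pow]
    have h1 : Cfsg.hermForm n F₀ s (Pi.single i 1 - l • s₀) (Pi.single i 1 - l • s₀) = 0 := by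
      simp only [hf_sub_left, hf_sub_right hK', hf_smul_left, hf_smul_right, hss, hes, hse, h11]
      linear_combination -hl
    by_cases h2 : Cfsg.hermForm n F q y (cv s₀) = 0
    · refine ⟨Pi.single i 1 - l • s₀, h1, ?_⟩
      rw [cv_sub, cv_smul, cv_single, hf_sub_right hF, hf_smul_right, h2, mul_zero, sub_zero,
        hf_single_right hF]
      exact hi
    · exact ⟨s₀, hss, h2⟩
  obtain ⟨u₀, huu, hyu⟩ := hex
  have hu0 : u₀ ≠ 0 := by
    intro h0
    apply hyu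
    rw [h0, cv_zero, hf_zero_right hF]
  obtain ⟨v₀, hvv, huv⟩ := exists_partner hK' u₀ hu0 huu
  have hvu : Cfsg.hermForm n F₀ s v₀ u₀ = 1 := by rw [hf_conj hK' n u₀ v₀, huv, one_pow]
  have hv0 : v₀ ≠ 0 := by
    intro h0
    rw [h0, hf_zero_left] at hvu
    exact zero_ne_one hvu
  have hUU := D.hcv0 huu
  have hVV := D.hcv0 hvv
  have hUV := D.hcv1 huv
  have hVU := D.hcv1 hvu
  obtain ⟨κ, hκ⟩ : ∃ κ : F, κ = Cfsg.hermForm n F q y (cv u₀) := ⟨_, rfl⟩
  rw [← hκ] at hyu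
  obtain ⟨y', hy'⟩ : ∃ y' : Fin n → F, y' = κ⁻¹ • y := ⟨_, rfl⟩
  have hy'u : Cfsg.hermForm n F q y' (cv u₀) = 1 := by
    rw [hy', hf_smul_left, ← hκ, inv_mul_cancel₀ hyu]
  have hy'y' : Cfsg.hermForm n F q y' y' = 0 := by
    rw [hy', hf_smul_left, hf_smul_right, hyy]; ring
  obtain ⟨w, hw⟩ : ∃ w : Fin n → F, w = y' - cv v₀ := ⟨_, rfl⟩
  have hwu : Cfsg.hermForm n F q w (cv u₀) = 0 := by
    rw [hw, hf_sub_left, hy'u, hVU, sub_self]
  obtain ⟨a₁, ha₁, X, hXM, hX⟩ := D.LU_full hfull u₀ hu0 huu w hwu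
  obtain ⟨a, ha⟩ : ∃ a : F, a = Cfsg.hermForm n F q (cv v₀) y' := ⟨_, rfl⟩
  have hww : Cfsg.hermForm n F q w w = -(a + a ^ q) := by
    rw [hw]
    simp only [hf_sub_left, hf_sub_right hF, hy'y', hVV]
    rw [hf_conj hF n (cv v₀) y', ← ha]
    ring
  have hc : (a - a₁) + (a - a₁) ^ q = 0 := by
    rw [herm_sub_pow hF]
    linear_combination hww - ha₁
  obtain ⟨T, hT⟩ := Cfsg.Agent.Lib.Helper44.exists_utG (q := q) hUU (a - a₁)
  have hTM : T ∈ M := D.UC_rat hfull u₀ hu0 huu (a - a₁) hc T hT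
  obtain ⟨N, hN⟩ : ∃ N : GL (Fin n) F, N = T * X := ⟨_, rfl⟩
  have hNM : N ∈ M := by rw [hN]; exact M.mul_mem hTM hXM
  have hNval : (N : Matrix (Fin n) (Fin n) F) = heis q n (cv u₀) w a := by
    rw [hN, Units.val_mul, hT, hX, transvection_mul_heis hF n (cv u₀) w a₁ (a - a₁) hUU hwu]
    congr 1
    ring
  have hvw : Cfsg.hermForm n F q (cv v₀) w = a := by
    rw [hw, hf_sub_right hF, hVV, sub_zero, ha]
  have hNv : (N : Matrix (Fin n) (Fin n) F) *ᵥ cv v₀ = y' := by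
    rw [hNval, heis_mulVec, hVU, one_smul, mul_one, hvw, sub_self, zero_smul, add_zero, hw]
    abel
  have hNU := (hMK hNM).1
  have h1 := Cfsg.Agent.Lib.Helper44.UC_conj hNM hNU (D.UC_rat hfull v₀ hv0 hvv)
  rw [hNv] at h1
  have h2 := Cfsg.Agent.Lib.Helper44.UC_smul hF h1 κ
  rw [hy', smul_smul, mul_inv_cancel₀ hyu, one_smul] at h2
  exact h2

/-- in the full case, `M` contains `SU_n(q)` -/
theorem UD.full_le (D : UD F q n F₀ s r)
    (hMK : M ≤ Cfsg.GU n F q ⊓ Cfsg.Geo.specialLinear (Fin n) F) (hfull : FullSP q s F₀ M) :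
    Cfsg.GU n F q ⊓ Cfsg.Geo.specialLinear (Fin n) F ≤ M :=
  su_le_of_UC' D.hF n (by have := D.hn; omega) (by have := D.hn; omega) M
    (fun x hx => D.UC_all hMK hfull x hx)

/-- the subfield group is a proper subgroup of `SU_n(q)` -/
theorem UD.lt (D : UD F q n F₀ s r) :
    UH F₀ n q < Cfsg.GU n F q ⊓ Cfsg.Geo.specialLinear (Fin n) F := by
  classical
  have : Fintype F₀ := Fintype.ofFinite F₀
  have hK' : Fintype.card F₀ = s ^ 2 := D.cardK
  have hn := D.hn
  have hF := D.hF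
  refine lt_of_le_of_ne inf_le_right ?_
  intro heq
  obtain ⟨θ, hθ⟩ : ∃ θ : F, θ ∉ F₀ := by
    by_contra hcon
    push Not at hcon
    have h1 : Nat.card F₀ = Fintype.card F := by
      rw [← Nat.card_eq_fintype_card]
      exact Nat.card_congr (Equiv.subtypeUnivEquiv hcon)
    have h2 := D.hcard
    rw [h1] at h2
    have h3 : 1 < Fintype.card F := Fintype.one_lt_card
    have h4 := Nat.pow_lt_pow_right h3 D.hr.one_lt
    rw [pow_one] at h4
    omega
  obtain ⟨x, f, hxx, hff, hxf⟩ := exists_hyp3 hK' (show 6 ≤ n by omega)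
  have hu0 : x 0 ≠ 0 := by
    intro h0
    have h1 := hxf 0 0
    rw [h0, hf_zero_left] at h1
    simp at h1
  have hU := D.hcv0 (hxx 0 0)
  have hZU : Cfsg.hermForm n F q (θ • cv (x 1)) (cv (x 0)) = 0 := by
    rw [hf_smul_left, D.hcv0 (hxx 1 0), mul_zero]
  have hdet := heis_det hF n (cv (x 0)) (θ • cv (x 1)) 0 hU hZU
  have hpres := heis_preserves hF n (cv (x 0)) (θ • cv (x 1)) 0 hU hZU (by
    rw [hf_smul_left, hf_smul_right, D.hcv0 (hxx 1 1), zero_pow (herm_q_ne_zero hF)]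
    ring)
  obtain ⟨Z, hZ⟩ : ∃ Z : GL (Fin n) F,
      (Z : Matrix (Fin n) (Fin n) F) = heis q n (cv (x 0)) (θ • cv (x 1)) 0 :=
    ⟨Matrix.GeneralLinearGroup.mkOfDetNeZero (heis q n (cv (x 0)) (θ • cv (x 1)) 0)
      (by rw [hdet]; exact one_ne_zero), rfl⟩
  have hZK : Z ∈ Cfsg.GU n F q ⊓ Cfsg.Geo.specialLinear (Fin n) F :=
    ⟨(mem_GU_iff Z).2 (by rw [hZ]; exact hpres),
      (Cfsg.Agent.Lib.Helper97.mem_specialLinear_iff Z).2 (by rw [hZ]; exact hdet)⟩
  rw [← heq] at hZK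
  obtain ⟨-, r₀, φ, hrφ⟩ := D.heis_H1 (x 0) hu0 (hxx 0 0) (θ • cv (x 1)) 0 hZU Z hZK.1 hZ
  have h1 := congrArg (fun v => Cfsg.hermForm n F q v (cv (f 1))) hrφ
  have e11 : Cfsg.hermForm n F₀ s (x 1) (f 1) = 1 := (hxf 1 1).trans (if_pos rfl)
  have e01 : Cfsg.hermForm n F₀ s (x 0) (f 1) = 0 := (hxf 0 1).trans (if_neg (by decide))
  simp only [hf_add_left, hf_smul_left, D.hcv1 e11, D.hcv0 e01, D.herm_cv, mul_one, mul_zero,
    add_zero] at h1
  apply hθ
  rw [h1]
  exact (Cfsg.hermForm n F₀ s r₀ (f 1)).2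

/-- **Maximality of the unitary subfield group (standard rational structure).** -/
theorem UD.main (D : UD F q n F₀ s r) :
    Cfsg.Geo.IsMaximalIn (Cfsg.GU n F q ⊓ Cfsg.Geo.specialLinear (Fin n) F)
      (Cfsg.Agent.Lib.Helper50.H1 (Fin n) F₀ ⊓
        (Cfsg.GU n F q ⊓ Cfsg.Geo.specialLinear (Fin n) F)) := by
  refine ⟨D.lt, ?_⟩
  intro M hHM hMK
  rcases D.SP_dichotomy hHM hMK with hS | hS
  · left
    have hNR : NoNew q s F₀ M := fun u₀ hu0 huu w a hwu ha X hXM hX =>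
      D.no_new hHM hMK hS u₀ hu0 huu w a hwu ha X hXM hX
    have hG : NGPin q s F₀ M := fun m hmM e₀ z₀ he0 hz0 hee hzz hmez =>
      D.ngp hHM hMK hNR m hmM e₀ z₀ he0 hz0 hee hzz hmez
    have hle := D.le_H1_of_ngp hHM hMK hG
    exact le_antisymm (le_inf hle hMK) hHM
  · right
    exact le_antisymm hMK (D.full_le hMK hS)

end SubfUG

end Cfsg.Agent.Lib.Helper18
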