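import Mathlib

set_option autoImplicit false

namespace Cfsg.Agent.Lib.Helper18.TG

open Polynomial

/-- PIECE CYCHOM -/
theorem cyc_hom {A : Type*} [Ring A] (m : ℕ) (hm : 0 < m) (ω : ℂ) (hω : IsPrimitiveRoot ω m)
    (x : A) (hx : Polynomial.eval₂ (Int.castRingHom A) x (Polynomial.cyclotomic m ℤ) = 0) :
    ∃ φ : Subring.closure ({ω} : Set ℂ) →+* A,
      ∀ (P : Polynomial ℤ)
        (h : Polynomial.eval₂ (Int.castRingHom ℂ) ω P ∈ Subring.closure ({ω} : Set ℂ)),
        φ ⟨Polynomial.eval₂ (Int.castRingHom ℂ) ω P, h⟩ =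
          Polynomial.eval₂ (Int.castRingHom A) x P := by
  classical
  obtain ⟨evC, hevC⟩ : ∃ evC : ℤ[X] →+* ℂ, evC = Polynomial.eval₂RingHom (Int.castRingHom ℂ) ω :=
    ⟨_, rfl⟩
  obtain ⟨evA, hevA⟩ : ∃ evA : ℤ[X] →+* A,
      evA = Polynomial.eval₂RingHom' (Int.castRingHom A) x (fun a => Int.cast_commute a x) :=
    ⟨_, rfl⟩
  have hevC' : ∀ P, evC P = Polynomial.eval₂ (Int.castRingHom ℂ) ω P := by
    intro P; rw [hevC]; rfl
  have hevA' : ∀ P, evA P = Polynomial.eval₂ (Int.castRingHom A) x P := by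
    intro P; rw [hevA]; rfl
  have hint : IsIntegral ℤ ω := hω.isIntegral hm
  have hker : RingHom.ker evC.rangeRestrict ≤ RingHom.ker evA := by
    intro P hP
    rw [RingHom.mem_ker] at hP ⊢
    have h0 : evC P = 0 := by
      have := congrArg Subtype.val hP
      simpa using this
    have h1 : Polynomial.aeval ω P = 0 := by
      rw [Polynomial.aeval_def, ← h0, hevC']
      rfl
    have h2 : minpoly ℤ ω ∣ P := minpoly.isIntegrallyClosed_dvd hint h1
    rw [← Polynomial.cyclotomic_eq_minpoly hω hm] at h2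
    obtain ⟨Q, rfl⟩ := h2
    rw [map_mul, hevA' (cyclotomic m ℤ), hx, zero_mul]
  have hle : Subring.closure ({ω} : Set ℂ) ≤ evC.range := by
    rw [Subring.closure_le]
    intro y hy
    rw [Set.mem_singleton_iff] at hy
    refine ⟨Polynomial.X, ?_⟩
    rw [hy, hevC', Polynomial.eval₂_X]
  refine ⟨((evC.rangeRestrict).liftOfSurjective evC.rangeRestrict_surjective ⟨evA, hker⟩).comp
    (Subring.inclusion hle), ?_⟩
  intro P h
  have e : (Subring.inclusion hle) ⟨Polynomial.eval₂ (Int.castRingHom ℂ) ω P, h⟩ =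
      evC.rangeRestrict P := by
    apply Subtype.ext
    show Polynomial.eval₂ (Int.castRingHom ℂ) ω P = evC P
    rw [hevC']
  rw [RingHom.comp_apply, e, RingHom.liftOfSurjective_comp_apply]
  exact hevA' P

end Cfsg.Agent.Lib.Helper18.TG
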