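import Mathlib
import Cfsg.Agent.Lib.Helper18.TLDefs

set_option autoImplicit false

namespace Cfsg.Agent.Lib.Helper18.TL

open Subgroup
open scoped commutatorElement

universe u

variable {G : Type u} [Group G]

theorem E4 {Z Y P W T : Subgroup G} (h : Red0 Z Y P W T)
    (hm : ∀ a ∈ T, ∀ x ∈ P, ∀ y ∈ P, ⁅x * y, a⁆ ^ 2 = ⁅x, a⁆ ^ 2 * ⁅y, a⁆ ^ 2) :
    ∀ a ∈ T, ∀ w ∈ W, a * w = w * a → ∀ x ∈ P, ⁅⁅x, w⁆, a⁆ ∈ Z := by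
  intro a ha w hw haw x hx
  rw [h.cfg.amb.memZ]
  have hxi : x⁻¹ ∈ P := P.inv_mem hx
  have hwx : w * x⁻¹ * w⁻¹ ∈ P := (Subgroup.mem_normalizer_iff.1 (h.adm.WP hw) x⁻¹).1 hxi
  have e1 : ⁅x, w⁆ = x * (w * x⁻¹ * w⁻¹) := by rw [commutatorElement_def]; group
  have hk : ⁅x⁻¹, a⁆ ∈ P := by
    have e : ⁅x⁻¹, a⁆ = x⁻¹ * (a * x⁻¹ * a⁻¹)⁻¹ := by rw [commutatorElement_def]; group
    rw [e]
    exact P.mul_mem hxi (P.inv_mem ((Subgroup.mem_normalizer_iff.1 (h.adm.TP ha) x⁻¹).1 hxi))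
  have hk2 : ⁅x⁻¹, a⁆ ^ 2 ∈ Z := h.sqP _ hk
  have e2 : ⁅w * x⁻¹ * w⁻¹, a⁆ = w * ⁅x⁻¹, a⁆ * w⁻¹ := by
    have h1 : w⁻¹ * a * w = a := by
      rw [mul_assoc, haw, ← mul_assoc, inv_mul_cancel, one_mul]
    have h2 : w⁻¹ * a⁻¹ * w = a⁻¹ := by
      have : w⁻¹ * a⁻¹ * w = (w⁻¹ * a * w)⁻¹ := by group
      rw [this, h1]
    calc ⁅w * x⁻¹ * w⁻¹, a⁆ = w * x⁻¹ * (w⁻¹ * a * w) * x * (w⁻¹ * a⁻¹ * w) * w⁻¹ := by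
          rw [commutatorElement_def]; group
      _ = w * ⁅x⁻¹, a⁆ * w⁻¹ := by rw [h1, h2, commutatorElement_def]; group
  have e3 : ⁅w * x⁻¹ * w⁻¹, a⁆ ^ 2 = ⁅x⁻¹, a⁆ ^ 2 := by
    rw [e2]
    have h3 : (w * ⁅x⁻¹, a⁆ * w⁻¹) ^ 2 = w * ⁅x⁻¹, a⁆ ^ 2 * w⁻¹ := by
      generalize ⁅x⁻¹, a⁆ = k
      rw [pow_two, pow_two]; group
    rw [h3]
    have h4 := (Subgroup.mem_centralizer_iff.1 (h.adm.WZ hw)) _ hk2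
    rw [← h4]; group
  rw [e1, hm a ha x hx _ hwx, e3, ← hm a ha x hx x⁻¹ hxi, mul_inv_cancel,
    commutatorElement_one_left, one_pow]

end Cfsg.Agent.Lib.Helper18.TL
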