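import Mathlib
import Cfsg.Agent.Lib.Helper18.TLDefs

set_option autoImplicit false

namespace Cfsg.Agent.Lib.Helper18.TL

open Subgroup
open scoped commutatorElement

universe u

variable {G : Type u} [Group G]

theorem F_a {Z Y P W T : Subgroup G} (h : Red0 Z Y P W T)
    (hE4 : ∀ a ∈ T, ∀ w ∈ W, a * w = w * a → ∀ x ∈ P, ⁅⁅x, w⁆, a⁆ ∈ Z)
    (B : Subgroup G) (hB : B ≤ T) :
    ∀ u ∈ ⁅P, W ⊓ centralizer (B : Set G)⁆, ∀ b ∈ B, ⁅u, b⁆ ∈ Z := by
  intro u hu b hb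
  have hZc : ∀ z ∈ Z, ∀ p ∈ P, z * p = p * z := fun z hz p hp =>
    (Subgroup.mem_centralizer_iff.1 (h.PZ hp)) z hz
  have key : u ∈ P ∧ ⁅u, b⁆ ∈ Z := by
    rw [Subgroup.commutator_def] at hu
    induction hu using Subgroup.closure_induction with
    | mem g hg =>
      obtain ⟨x, hx, w, hw, rfl⟩ := hg
      have hwx : w * x⁻¹ * w⁻¹ ∈ P :=
        (Subgroup.mem_normalizer_iff.1 (h.adm.WP hw.1) x⁻¹).1 (P.inv_mem hx)
      have e1 : ⁅x, w⁆ = x * (w * x⁻¹ * w⁻¹) := by rw [commutatorElement_def]; group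
      refine ⟨by rw [e1]; exact P.mul_mem hx hwx, ?_⟩
      have hbw : b * w = w * b := (Subgroup.mem_centralizer_iff.1 hw.2) b hb
      exact hE4 b (hB hb) w hw.1 hbw x hx
    | one =>
      refine ⟨P.one_mem, ?_⟩
      rw [commutatorElement_one_left]; exact Z.one_mem
    | mul x y _ _ ihx ihy =>
      refine ⟨P.mul_mem ihx.1 ihy.1, ?_⟩
      have e : ⁅x * y, b⁆ = (x * ⁅y, b⁆) * x⁻¹ * ⁅x, b⁆ := by
        simp only [commutatorElement_def]; group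
      rw [e, ← hZc _ ihy.2 x ihx.1, mul_assoc ⁅y, b⁆, mul_inv_cancel, mul_one]
      exact Z.mul_mem ihy.2 ihx.2
    | inv x _ ihx =>
      refine ⟨P.inv_mem ihx.1, ?_⟩
      have e : ⁅x⁻¹, b⁆ = x⁻¹ * (⁅x, b⁆⁻¹ * x) := by
        simp only [commutatorElement_def]; group
      rw [e, hZc _ (Z.inv_mem ihx.2) x ihx.1, ← mul_assoc, inv_mul_cancel, one_mul]
      exact Z.inv_mem ihx.2
  exact key.2

end Cfsg.Agent.Lib.Helper18.TL
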