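import Mathlib
import Cfsg.Agent.Lib.Helper18.TLDefs

set_option autoImplicit false

namespace Cfsg.Agent.Lib.Helper18.TL

open Subgroup
open scoped commutatorElement

universe u

variable {G : Type u} [Group G]

private theorem fc_comm_le {P W1 : Subgroup G} (hW : W1 ≤ normalizer (P : Set G)) :
    ⁅P, W1⁆ ≤ P := by
  rw [Subgroup.commutator_le]
  intro x hx w hw
  have hwx : w * x⁻¹ * w⁻¹ ∈ P := (Subgroup.mem_normalizer_iff.1 (hW hw) x⁻¹).1 (P.inv_mem hx)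
  have e1 : ⁅x, w⁆ = x * (w * x⁻¹ * w⁻¹) := by rw [commutatorElement_def]; group
  rw [e1]; exact P.mul_mem hx hwx

theorem F_c {Z Y P W T : Subgroup G} (h : Red0 Z Y P W T) (W1 W2 : Subgroup G) (h1 : W1 ≤ W)
    (h2 : W2 ≤ W) (hc : W2 ≤ centralizer ((⁅P, W1⁆ : Subgroup G) : Set G)) :
    ∀ u ∈ ⁅P, W1⁆, ∀ v ∈ ⁅P, W2⁆, u * v = v * u := by
  intro u hu v hv
  have hZc : ∀ z ∈ Z, ∀ p ∈ P, z * p = p * z := fun z hz p hp =>
    (Subgroup.mem_centralizer_iff.1 (h.PZ hp)) z hz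
  have huP : u ∈ P := fc_comm_le (h1.trans h.adm.WP) hu
  have hcm : ∀ {a b : G}, a ∈ P → b ∈ P → ⁅a, b⁆ ∈ Z := fun ha hb =>
    h.commP (Subgroup.commutator_mem_commutator ha hb)
  have hle : ⁅P, W2⁆ ≤ centralizer ({u} : Set G) := by
    rw [Subgroup.commutator_le]
    intro x hx w hw
    rw [Subgroup.mem_centralizer_iff]
    intro g hg
    rw [Set.mem_singleton_iff] at hg
    subst hg
    -- `g` commutes with `w`
    have hgw : g * w = w * g := (Subgroup.mem_centralizer_iff.1 (hc hw)) g hu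
    have hwZ : ∀ z ∈ Z, w * z * w⁻¹ = z := by
      intro z hz
      have := (Subgroup.mem_centralizer_iff.1 (h.adm.WZ (h2 hw))) z hz
      rw [← this]; group
    have hxi : x⁻¹ ∈ P := P.inv_mem hx
    -- ⁅g, w x⁻¹ w⁻¹⁆ = ⁅g, x⁻¹⁆
    have e2 : ⁅g, w * x⁻¹ * w⁻¹⁆ = ⁅g, x⁻¹⁆ := by
      have h3 : w⁻¹ * g * w = g := by rw [mul_assoc, hgw, ← mul_assoc, inv_mul_cancel, one_mul]
      have h4 : w⁻¹ * g⁻¹ * w = g⁻¹ := by
        have : w⁻¹ * g⁻¹ * w = (w⁻¹ * g * w)⁻¹ := by group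
        rw [this, h3]
      calc ⁅g, w * x⁻¹ * w⁻¹⁆ = w * ((w⁻¹ * g * w) * x⁻¹ * (w⁻¹ * g⁻¹ * w) * x) * w⁻¹ := by
            rw [commutatorElement_def]; group
        _ = w * ⁅g, x⁻¹⁆ * w⁻¹ := by rw [h3, h4, commutatorElement_def]; group
        _ = ⁅g, x⁻¹⁆ := hwZ _ (hcm huP hxi)
    -- ⁅g, x⁻¹⁆ = x⁻¹ ⁅g, x⁆⁻¹ x = ⁅g, x⁆⁻¹
    have e3 : ⁅g, x⁻¹⁆ = ⁅g, x⁆⁻¹ := by
      have e : ⁅g, x⁻¹⁆ = x⁻¹ * (⁅g, x⁆⁻¹ * x) := by
        simp only [commutatorElement_def]; group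
      rw [e, hZc _ (Z.inv_mem (hcm huP hx)) x hx, ← mul_assoc, inv_mul_cancel, one_mul]
    have e1 : ⁅x, w⁆ = x * (w * x⁻¹ * w⁻¹) := by rw [commutatorElement_def]; group
    -- g commutes with x * (w x⁻¹ w⁻¹)
    have e4 : g * (x * (w * x⁻¹ * w⁻¹)) = ⁅g, x⁆ * (x * (⁅g, w * x⁻¹ * w⁻¹⁆ * (w * x⁻¹ * w⁻¹))) * g := by
      simp only [commutatorElement_def]; group
    rw [e1, e4, e2, e3]
    have h5 := hZc _ (Z.inv_mem (hcm huP hx)) x hx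
    rw [← mul_assoc x, ← h5]
    group
  have := hle hv
  rw [Subgroup.mem_centralizer_iff] at this
  exact this u rfl

end Cfsg.Agent.Lib.Helper18.TL
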