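import Mathlib
import Cfsg.Agent.Lib.Helper18.TLDefs

set_option autoImplicit false

namespace Cfsg.Agent.Lib.Helper18.TL

open Subgroup
open scoped commutatorElement

universe u

variable {G : Type u} [Group G]

private theorem phi_cmem {Z P : Subgroup G} (hc : ⁅P, P⁆ ≤ Z) {u v : G} (hu : u ∈ P)
    (hv : v ∈ P) : ⁅u, v⁆ ∈ Z := hc (Subgroup.commutator_mem_commutator hu hv)

private theorem phi_cmul_left {Z P : Subgroup G} (hc : ⁅P, P⁆ ≤ Z)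
    (hZc : ∀ z ∈ Z, ∀ p ∈ P, z * p = p * z) {u v w : G} (hu : u ∈ P) (hv : v ∈ P)
    (hw : w ∈ P) : ⁅u * v, w⁆ = ⁅u, w⁆ * ⁅v, w⁆ := by
  have h1 : ⁅v, w⁆ ∈ Z := phi_cmem hc hv hw
  have h2 : ⁅v, w⁆ * u = u * ⁅v, w⁆ := hZc _ h1 u hu
  have h3 : ⁅u * v, w⁆ = (u * ⁅v, w⁆) * u⁻¹ * ⁅u, w⁆ := by
    simp only [commutatorElement_def]; group
  have h4 : ⁅v, w⁆ * ⁅u, w⁆ = ⁅u, w⁆ * ⁅v, w⁆ := by
    have hm : ⁅u, w⁆ ∈ P := by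
      rw [commutatorElement_def]
      exact P.mul_mem (P.mul_mem (P.mul_mem hu hw) (P.inv_mem hu)) (P.inv_mem hw)
    exact hZc _ h1 _ hm
  rw [h3, ← h2, mul_assoc (⁅v, w⁆), mul_inv_cancel, mul_one, h4]

private theorem phi_cmul_right {Z P : Subgroup G} (hc : ⁅P, P⁆ ≤ Z)
    (hZc : ∀ z ∈ Z, ∀ p ∈ P, z * p = p * z) {u v w : G} (hu : u ∈ P) (hv : v ∈ P)
    (hw : w ∈ P) : ⁅u, v * w⁆ = ⁅u, v⁆ * ⁅u, w⁆ := by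
  have h1 : ⁅u, w⁆ ∈ Z := phi_cmem hc hu hw
  have h2 : ⁅u, w⁆ * v = v * ⁅u, w⁆ := hZc _ h1 v hv
  have h3 : ⁅u, v * w⁆ = ⁅u, v⁆ * ((v * ⁅u, w⁆) * v⁻¹) := by
    simp only [commutatorElement_def]; group
  rw [h3, ← h2, mul_assoc (⁅u, w⁆), mul_inv_cancel, mul_one]

private theorem phi_cinv_left {Z P : Subgroup G} (hc : ⁅P, P⁆ ≤ Z)
    (hZc : ∀ z ∈ Z, ∀ p ∈ P, z * p = p * z) {u w : G} (hu : u ∈ P) (hw : w ∈ P) :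
    ⁅u⁻¹, w⁆ = ⁅u, w⁆⁻¹ := by
  have h := phi_cmul_left hc hZc (P.inv_mem hu) hu hw
  rw [inv_mul_cancel, commutatorElement_one_left] at h
  exact eq_inv_of_mul_eq_one_left h.symm

private theorem phi_cinv_right {Z P : Subgroup G} (hc : ⁅P, P⁆ ≤ Z)
    (hZc : ∀ z ∈ Z, ∀ p ∈ P, z * p = p * z) {u w : G} (hu : u ∈ P) (hw : w ∈ P) :
    ⁅u, w⁻¹⁆ = ⁅u, w⁆⁻¹ := by
  have h := phi_cmul_right hc hZc hu (P.inv_mem hw) hw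
  rw [inv_mul_cancel, commutatorElement_one_right] at h
  exact eq_inv_of_mul_eq_one_left h.symm

private theorem phi_conj_mem {P T : Subgroup G} (hTP : T ≤ normalizer (P : Set G)) {a x : G}
    (ha : a ∈ T) (hx : x ∈ P) : a * x * a⁻¹ ∈ P :=
  (Subgroup.mem_normalizer_iff.1 (hTP ha) x).1 hx

private theorem phi_Zc {Z Y P W T : Subgroup G} (h : Red0 Z Y P W T) :
    ∀ z ∈ Z, ∀ p ∈ P, z * p = p * z := fun z hz p hp =>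
  (Subgroup.mem_centralizer_iff.1 (h.PZ hp)) z hz

private theorem phi_sq_one {Z Y P W T : Subgroup G} (h : Red0 Z Y P W T) {z : G} (hz : z ∈ Z) :
    z * z = 1 := by
  have := (h.cfg.amb.memZ z).1 hz
  rwa [pow_two] at this

theorem phi_comm {Z Y P W T : Subgroup G} (h : Red0 Z Y P W T) :
    ∀ a ∈ T, ∀ x ∈ P, ∀ y ∈ P, ⁅⁅x, a⁆, ⁅y, a⁆⁆ = 1 := by
  intro a ha x hx y hy
  have hc := h.commP
  have hZc := phi_Zc h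
  have hx' : a * x * a⁻¹ ∈ P := phi_conj_mem h.adm.TP ha hx
  have hy' : a * y * a⁻¹ ∈ P := phi_conj_mem h.adm.TP ha hy
  have ex : ⁅x, a⁆ = x * (a * x * a⁻¹)⁻¹ := by rw [commutatorElement_def]; group
  have ey : ⁅y, a⁆ = y * (a * y * a⁻¹)⁻¹ := by rw [commutatorElement_def]; group
  have haZ : ∀ z ∈ Z, a * z * a⁻¹ = z := by
    intro z hz
    have := (Subgroup.mem_centralizer_iff.1 (h.adm.TZ ha)) z hz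
    rw [← this]; group
  -- fact 2
  have f2 : ⁅a * x * a⁻¹, a * y * a⁻¹⁆ = ⁅x, y⁆ := by
    have e : ⁅a * x * a⁻¹, a * y * a⁻¹⁆ = a * ⁅x, y⁆ * a⁻¹ := by
      simp only [commutatorElement_def]; group
    rw [e, haZ _ (phi_cmem hc hx hy)]
  -- fact 3
  have ha2 : a ^ 2 ∈ Z := h.sqT a ha
  have f3 : ⁅a * x * a⁻¹, y⁆ = ⁅x, a * y * a⁻¹⁆ := by
    have e1 : a⁻¹ * y * a = (a ^ 2)⁻¹ * ((a * y * a⁻¹) * a ^ 2) := by group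
    have e2 : (a * y * a⁻¹) * a ^ 2 = a ^ 2 * (a * y * a⁻¹) := (hZc _ ha2 _ hy').symm
    have e3 : a⁻¹ * y * a = a * y * a⁻¹ := by rw [e1, e2]; group
    have hm : a⁻¹ * y * a ∈ P := by rw [e3]; exact hy'
    have e : ⁅a * x * a⁻¹, y⁆ = a * ⁅x, a⁻¹ * y * a⁆ * a⁻¹ := by
      simp only [commutatorElement_def]; group
    rw [e, haZ _ (phi_cmem hc hx hm), e3]
  rw [ex, ey]
  rw [phi_cmul_left hc hZc hx (P.inv_mem hx') (P.mul_mem hy (P.inv_mem hy')),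
    phi_cmul_right hc hZc hx hy (P.inv_mem hy'),
    phi_cmul_right hc hZc (P.inv_mem hx') hy (P.inv_mem hy'),
    phi_cinv_right hc hZc hx hy', phi_cinv_left hc hZc hx' hy,
    phi_cinv_left hc hZc hx' (P.inv_mem hy'), phi_cinv_right hc hZc hx' hy', inv_inv, f2, f3]
  have hA : ⁅x, y⁆ ∈ Z := phi_cmem hc hx hy
  have hB : ⁅x, a * y * a⁻¹⁆ ∈ Z := phi_cmem hc hx hy'
  have hA2 := phi_sq_one h hA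
  have hB2 := phi_sq_one h hB
  have hBi : (⁅x, a * y * a⁻¹⁆)⁻¹ = ⁅x, a * y * a⁻¹⁆ := inv_eq_of_mul_eq_one_left hB2
  have hAB : ⁅x, y⁆ * ⁅x, a * y * a⁻¹⁆ = ⁅x, a * y * a⁻¹⁆ * ⁅x, y⁆ := hZc _ hA _ (h.ZP hB)
  rw [hBi]
  calc ⁅x, y⁆ * ⁅x, a * y * a⁻¹⁆ * (⁅x, a * y * a⁻¹⁆ * ⁅x, y⁆)
      = ⁅x, y⁆ * (⁅x, a * y * a⁻¹⁆ * ⁅x, a * y * a⁻¹⁆) * ⁅x, y⁆ := by group
    _ = 1 := by rw [hB2, mul_one, hA2]

theorem phi_mul {Z Y P W T : Subgroup G} (h : Red0 Z Y P W T)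
    (hc : ∀ a ∈ T, ∀ x ∈ P, ∀ y ∈ P, ⁅⁅x, a⁆, ⁅y, a⁆⁆ = 1) :
    ∀ a ∈ T, ∀ x ∈ P, ∀ y ∈ P, ⁅x * y, a⁆ ^ 2 = ⁅x, a⁆ ^ 2 * ⁅y, a⁆ ^ 2 := by
  intro a ha x hx y hy
  have hcP := h.commP
  have hZc := phi_Zc h
  have hg : ⁅x, a⁆ ∈ P := by
    have e : ⁅x, a⁆ = x * (a * x * a⁻¹)⁻¹ := by rw [commutatorElement_def]; group
    rw [e]; exact P.mul_mem hx (P.inv_mem (phi_conj_mem h.adm.TP ha hx))
  have hk : ⁅y, a⁆ ∈ P := by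
    have e : ⁅y, a⁆ = y * (a * y * a⁻¹)⁻¹ := by rw [commutatorElement_def]; group
    rw [e]; exact P.mul_mem hy (P.inv_mem (phi_conj_mem h.adm.TP ha hy))
  have hz : ⁅x, ⁅y, a⁆⁆ ∈ Z := phi_cmem hcP hx hk
  have e1 : ⁅x * y, a⁆ = ⁅x, ⁅y, a⁆⁆ * (⁅y, a⁆ * ⁅x, a⁆) := by
    simp only [commutatorElement_def]; group
  have hkg : ⁅y, a⁆ * ⁅x, a⁆ ∈ P := P.mul_mem hk hg
  have hcomm : ⁅x, a⁆ * ⁅y, a⁆ = ⁅y, a⁆ * ⁅x, a⁆ := by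
    have := hc a ha x hx y hy
    rw [commutatorElement_eq_one_iff_mul_comm] at this
    exact this
  have hg2 : ⁅x, a⁆ ^ 2 ∈ Z := h.sqP _ hg
  have hk2 : ⁅y, a⁆ ^ 2 ∈ Z := h.sqP _ hk
  have hz2 := phi_sq_one h hz
  have e2 : (⁅x, ⁅y, a⁆⁆ * (⁅y, a⁆ * ⁅x, a⁆)) ^ 2
      = (⁅x, ⁅y, a⁆⁆ * ⁅x, ⁅y, a⁆⁆) * (⁅y, a⁆ * ⁅x, a⁆) ^ 2 := by
    rw [pow_two, pow_two]
    have := hZc _ hz _ hkg
    calc ⁅x, ⁅y, a⁆⁆ * (⁅y, a⁆ * ⁅x, a⁆) * (⁅x, ⁅y, a⁆⁆ * (⁅y, a⁆ * ⁅x, a⁆))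
        = ⁅x, ⁅y, a⁆⁆ * ((⁅y, a⁆ * ⁅x, a⁆) * ⁅x, ⁅y, a⁆⁆) * (⁅y, a⁆ * ⁅x, a⁆) := by group
      _ = ⁅x, ⁅y, a⁆⁆ * (⁅x, ⁅y, a⁆⁆ * (⁅y, a⁆ * ⁅x, a⁆)) * (⁅y, a⁆ * ⁅x, a⁆) := by rw [this]
      _ = _ := by group
  rw [e1, e2, hz2, one_mul, ← hcomm]
  exact (show Commute ⁅x, a⁆ ⁅y, a⁆ from hcomm).mul_pow 2

end Cfsg.Agent.Lib.Helper18.TL
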