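import Mathlib
import Cfsg.Agent.Lib.Helper18.TLCop

set_option autoImplicit false

namespace Cfsg.Agent.Lib.Helper18.TL

open Subgroup
open scoped commutatorElement

universe u

variable {G : Type u} [Group G]

/-- the elements centralizing `Z` and acting trivially on `M` modulo `Z`. -/
private def trivSub (Z M : Subgroup G) : Subgroup G where
  carrier := {g | g ∈ centralizer (Z : Set G) ∧ ∀ u ∈ M, u⁻¹ * (g * u * g⁻¹) ∈ Z}
  one_mem' := by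
    refine ⟨Subgroup.one_mem _, fun u _ => ?_⟩
    have e : u⁻¹ * (1 * u * 1⁻¹) = 1 := by group
    rw [e]; exact Z.one_mem
  mul_mem' := by
    rintro g k ⟨hg1, hg2⟩ ⟨hk1, hk2⟩
    refine ⟨Subgroup.mul_mem _ hg1 hk1, fun u hu => ?_⟩
    have h1 := hk2 u hu
    have h2 := hg2 u hu
    have hc : u⁻¹ * (k * u * k⁻¹) * g = g * (u⁻¹ * (k * u * k⁻¹)) :=
      (Subgroup.mem_centralizer_iff.1 hg1) _ h1
    have e : u⁻¹ * (g * k * u * (g * k)⁻¹) =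
        u⁻¹ * (g * u * g⁻¹) * ((g * (u⁻¹ * (k * u * k⁻¹))) * g⁻¹) := by group
    rw [e, ← hc, mul_assoc (u⁻¹ * (k * u * k⁻¹)), mul_inv_cancel, mul_one]
    exact Z.mul_mem h2 h1
  inv_mem' := by
    rintro g ⟨hg1, hg2⟩
    refine ⟨Subgroup.inv_mem _ hg1, fun u hu => ?_⟩
    have h2 := hg2 u hu
    have hc : (u⁻¹ * (g * u * g⁻¹))⁻¹ * g⁻¹ = g⁻¹ * (u⁻¹ * (g * u * g⁻¹))⁻¹ :=
      (Subgroup.mem_centralizer_iff.1 (Subgroup.inv_mem _ hg1)) _ (Z.inv_mem h2)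
    have e : u⁻¹ * (g⁻¹ * u * g⁻¹⁻¹) = (g⁻¹ * (u⁻¹ * (g * u * g⁻¹))⁻¹) * g := by group
    rw [e, ← hc, mul_assoc, inv_mul_cancel, mul_one]
    exact Z.inv_mem h2

theorem triv_act [Finite G] {Z Y P W T : Subgroup G} (h : Red0 Z Y P W T) (M : Subgroup G)
    (hMP : M ≤ P) (hWM : W ≤ normalizer (M : Set G)) (hM : ∀ u ∈ M, ∀ t ∈ T, ⁅u, t⁆ ∈ Z) :
    W ≤ centralizer (M : Set G) := by
  have hMZ : ∀ u ∈ M, ∀ z ∈ Z, z * u = u * z := fun u hu z hz =>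
    (Subgroup.mem_centralizer_iff.1 (h.PZ (hMP hu))) z hz
  -- `T ≤ trivSub`
  have hT : T ≤ trivSub Z M := by
    intro t ht
    refine ⟨h.adm.TZ ht, fun u hu => ?_⟩
    have h1 : ⁅u, t⁆⁻¹ ∈ Z := Z.inv_mem (hM u hu t ht)
    have e : u⁻¹ * (t * u * t⁻¹) = u⁻¹ * (⁅u, t⁆⁻¹ * u) := by
      simp only [commutatorElement_def]; group
    rw [e, hMZ u hu _ h1, ← mul_assoc, inv_mul_cancel, one_mul]
    exact h1
  -- conjugates of `T` by `W` lie in `trivSub`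
  have hconj : ∀ w ∈ W, ∀ t ∈ T, w * t * w⁻¹ ∈ trivSub Z M := by
    intro w hw t ht
    have hwZ := h.adm.WZ hw
    have htZ := h.adm.TZ ht
    refine ⟨Subgroup.mul_mem _ (Subgroup.mul_mem _ hwZ htZ) (Subgroup.inv_mem _ hwZ), ?_⟩
    intro u hu
    have hu' : w⁻¹ * u * w ∈ M := by
      have := (Subgroup.mem_normalizer_iff.1 (Subgroup.inv_mem _ (hWM hw)) u).1 hu
      simpa using this
    have h1 := (hT ht).2 _ hu'
    have hc : (w⁻¹ * u * w)⁻¹ * (t * (w⁻¹ * u * w) * t⁻¹) * w =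
        w * ((w⁻¹ * u * w)⁻¹ * (t * (w⁻¹ * u * w) * t⁻¹)) :=
      (Subgroup.mem_centralizer_iff.1 hwZ) _ h1
    have e : u⁻¹ * (w * t * w⁻¹ * u * (w * t * w⁻¹)⁻¹) =
        (w * ((w⁻¹ * u * w)⁻¹ * (t * (w⁻¹ * u * w) * t⁻¹))) * w⁻¹ := by group
    rw [e, ← hc, mul_assoc, mul_inv_cancel, mul_one]
    exact h1
  have hW : W ≤ trivSub Z M := by
    have hWT : ⁅W, T⁆ ≤ trivSub Z M := by
      rw [Subgroup.commutator_le]
      intro w hw t ht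
      have e : ⁅w, t⁆ = (w * t * w⁻¹) * t⁻¹ := by rw [commutatorElement_def]
      rw [e]
      exact Subgroup.mul_mem _ (hconj w hw t ht) (Subgroup.inv_mem _ (hT ht))
    rw [h.WT] at hWT
    exact hWT
  -- `[M, W] ≤ Z`
  have hMW : ⁅M, W⁆ ≤ Z := by
    rw [Subgroup.commutator_le]
    intro u hu w hw
    have h1 : (u⁻¹ * (w * u * w⁻¹))⁻¹ ∈ Z := Z.inv_mem ((hW hw).2 u hu)
    have e : ⁅u, w⁆ = u * (u⁻¹ * (w * u * w⁻¹))⁻¹ * u⁻¹ := by
      rw [commutatorElement_def]; group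
    rw [e, ← hMZ u hu _ h1, mul_assoc, mul_inv_cancel, mul_one]
    exact h1
  have hpM : IsPGroup 2 M := h.adm.pP.to_le hMP
  apply cop_centralizes hpM h.adm.oddW hWM
  exact h.adm.WZ.trans (Subgroup.centralizer_le hMW)

end Cfsg.Agent.Lib.Helper18.TL
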