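import Mathlib
import Cfsg.Agent.Lib.Helper18.TLCop

set_option autoImplicit false

namespace Cfsg.Agent.Lib.Helper18.TL

open Subgroup
open scoped commutatorElement

universe u

variable {G : Type u} [Group G]

theorem W_ab [Finite G] {Z Y P W T : Subgroup G} (h : Red0 Z Y P W T)
    (hnt : ∀ W1 : Subgroup G, W1 ≤ W → W ≤ normalizer (W1 : Set G) →
      Y ≤ normalizer (W1 : Set G) → W1 ≤ centralizer (T : Set G) → W1 = ⊥) :
    (∀ w ∈ W, ∀ w' ∈ W, w * w' = w' * w) ∧ W ⊓ centralizer (T : Set G) = ⊥ := by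
  have : Group.IsSolvable G := h.cfg.amb.solv
  have hab : ∀ w ∈ W, ∀ w' ∈ W, w * w' = w' * w := by
    by_cases hW : W = ⊥
    · intro w hw w' hw'
      rw [hW, Subgroup.mem_bot] at hw hw'
      rw [hw, hw']
    · have hlt : ⁅W, W⁆ < W := Group.IsSolvable.commutator_lt_of_ne_bot hW
      have hc := h.maxW ⁅W, W⁆ hlt.le hlt.ne
        (fun t ht => Cfsg.Agent.Lib.Helper72.HH.mem_normalizer_commutator (h.adm.TW ht)
          (h.adm.TW ht))
        (fun y hy => Cfsg.Agent.Lib.Helper72.HH.mem_normalizer_commutator (h.adm.YW hy)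
          (h.adm.YW hy))
      have hbot := hnt ⁅W, W⁆ hlt.le
        (fun w hw => Cfsg.Agent.Lib.Helper72.HH.mem_normalizer_commutator
          (Subgroup.le_normalizer hw) (Subgroup.le_normalizer hw))
        (fun y hy => Cfsg.Agent.Lib.Helper72.HH.mem_normalizer_commutator (h.adm.YW hy)
          (h.adm.YW hy)) hc
      intro w hw w' hw'
      have h1 : ⁅w, w'⁆ ∈ ⁅W, W⁆ := Subgroup.commutator_mem_commutator hw hw'
      rw [hbot, Subgroup.mem_bot, commutatorElement_eq_one_iff_mul_comm] at h1
      exact h1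
  refine ⟨hab, ?_⟩
  apply hnt _ inf_le_left
  · intro w hw
    rw [Subgroup.mem_normalizer_iff]
    intro x
    constructor
    · intro hx
      have e : w * x * w⁻¹ = x := by
        rw [hab w hw x hx.1, mul_assoc, mul_inv_cancel, mul_one]
      rw [e]; exact hx
    · intro hx
      have hx1 : x ∈ W := by
        have := (Subgroup.mem_normalizer_iff.1 (Subgroup.le_normalizer hw : w ∈ normalizer (W : Set G)) x).2 hx.1
        exact this
      have e : w * x * w⁻¹ = x := by
        rw [hab w hw x hx1, mul_assoc, mul_inv_cancel, mul_one]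
      rw [e] at hx; exact hx
  · intro y hy
    exact Cfsg.Agent.Lib.Helper72.HH.mem_normalizer_inf (h.adm.YW hy)
      (Cfsg.Agent.Lib.Helper72.HH.mem_normalizer_centralizer (h.adm.YT hy))
  · exact inf_le_right

end Cfsg.Agent.Lib.Helper18.TL
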