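import Mathlib
import Cfsg.Agent.Lib.Helper18.TLCop
import Cfsg.Agent.Lib.Helper18.TLFA

set_option autoImplicit false

namespace Cfsg.Agent.Lib.Helper18.TL

open Subgroup
open scoped commutatorElement

universe u

variable {G : Type u} [Group G]

theorem W_norm_triv [Finite G] {Z Y P W T : Subgroup G} (h : Red0 Z Y P W T)
    (hE4 : ∀ a ∈ T, ∀ w ∈ W, a * w = w * a → ∀ x ∈ P, ⁅⁅x, w⁆, a⁆ ∈ Z)
    (htriv : ∀ M : Subgroup G, M ≤ P → W ≤ normalizer (M : Set G) →
      (∀ u ∈ M, ∀ t ∈ T, ⁅u, t⁆ ∈ Z) → W ≤ centralizer (M : Set G))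
    (W1 : Subgroup G) (h1 : W1 ≤ W) (hn : W ≤ normalizer (W1 : Set G))
    (hY : Y ≤ normalizer (W1 : Set G)) (hc : W1 ≤ centralizer (T : Set G)) : W1 = ⊥ := by
  have hW1P : W1 ≤ normalizer (P : Set G) := h1.trans h.adm.WP
  have hE1P : ⁅P, W1⁆ ≤ P := Cfsg.Agent.Lib.Helper72.HH.commutator_le_left_of_normalizer hW1P
  have hTW1 : T ≤ normalizer (W1 : Set G) := by
    intro t ht
    rw [Subgroup.mem_normalizer_iff]
    intro w
    constructor
    · intro hw
      have e : t * w * t⁻¹ = w := by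
        have := (Subgroup.mem_centralizer_iff.1 (hc hw)) t ht
        rw [this, mul_assoc, mul_inv_cancel, mul_one]
      rw [e]; exact hw
    · intro hw
      have h2 := (Subgroup.mem_centralizer_iff.1 (hc hw)) t ht
      have e : w = t * w * t⁻¹ := by
        calc w = t⁻¹ * ((t * w * t⁻¹) * t) := by group
          _ = t⁻¹ * (t * (t * w * t⁻¹)) := by rw [h2]
          _ = t * w * t⁻¹ := by group
      rw [e]; exact hw
  have hE1T : ∀ u ∈ ⁅P, W1⁆, ∀ t ∈ T, ⁅u, t⁆ ∈ Z := by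
    intro u hu t ht
    exact F_a h hE4 T le_rfl u (Subgroup.commutator_mono le_rfl (le_inf h1 hc) hu) t ht
  have hfaith : ∀ W' : Subgroup G, W' ≤ W → W' ≤ centralizer (P : Set G) → W' = ⊥ := by
    intro W' h1' h2'
    rw [eq_bot_iff, ← h.faith]
    exact le_inf h1' h2'
  by_cases hE : ⁅P, W1⁆ = P
  · have hW := htriv P le_rfl h.adm.WP (by rw [hE] at hE1T; exact hE1T)
    have hWbot := hfaith W le_rfl hW
    rw [eq_bot_iff, ← hWbot]
    exact h1
  · have hWE : W ≤ centralizer ((⁅P, W1⁆ : Subgroup G) : Set G) :=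
      h.minP ⁅P, W1⁆ hE1P hE
        (fun w hw => Cfsg.Agent.Lib.Helper72.HH.mem_normalizer_commutator (h.adm.WP hw) (hn hw))
        (fun t ht => Cfsg.Agent.Lib.Helper72.HH.mem_normalizer_commutator (h.adm.TP ht)
          (hTW1 ht))
        (fun y hy => Cfsg.Agent.Lib.Helper72.HH.mem_normalizer_commutator (h.adm.YP hy) (hY hy))
    have hoddW1 : Odd (Nat.card W1) := Odd.of_dvd_nat h.adm.oddW (Subgroup.card_dvd_of_le h1)
    have hW1 := cop_centralizes h.adm.pP hoddW1 hW1P (h1.trans hWE)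
    exact hfaith W1 h1 hW1

end Cfsg.Agent.Lib.Helper18.TL
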