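import Mathlib
import Cfsg.Prelude.Def_Solvable
import Cfsg.Prelude.Def_Local
import Cfsg.Agent.Lib.Helper18.TLDefs
import Cfsg.Agent.Lib.Helper18.TLCop
import Cfsg.Agent.Lib.Helper18.TLE4
import Cfsg.Agent.Lib.Helper18.TLFA
import Cfsg.Agent.Lib.Helper18.TLFC
import Cfsg.Agent.Lib.Helper18.TLPHI
import Cfsg.Agent.Lib.Helper18.TLTRIV
import Cfsg.Agent.Lib.Helper18.TLWAB
import Cfsg.Agent.Lib.Helper18.TLWNT
import Cfsg.Agent.Lib.Helper20.TLCOMMZ
import Cfsg.Agent.Lib.Helper20.TLHOMOCYC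
import Cfsg.Agent.Lib.Helper20.TLQUOT
import Cfsg.Agent.Lib.Helper39.TLAUTY
import Cfsg.Agent.Lib.Helper39.TLCWT
import Cfsg.Agent.Lib.Helper39.TLEXMIN
import Cfsg.Agent.Lib.Helper39.TLMIN3
import Cfsg.Agent.Lib.Helper40.TLEXB
import Cfsg.Agent.Lib.Helper40.TLEXSQ
import Cfsg.Agent.Lib.Helper40.TLFAITH
import Cfsg.Agent.Lib.Helper40.TLFB
import Cfsg.Agent.Lib.Helper40.TLFINAL
import Cfsg.Agent.Lib.Helper40.TLTOP
import Cfsg.Agent.Lib.Helper59.TLEXW0
import Cfsg.Agent.Lib.Helper59.TLFUSION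
import Cfsg.Agent.Lib.Helper59.TLSPLIT
import Cfsg.Agent.Lib.Helper79.TLAMB
import Cfsg.Agent.Lib.Helper79.TLCOMMINV
import Cfsg.Agent.Lib.Helper79.TLEXZ
import Cfsg.Agent.Lib.Helper79.TLL0TOP
import Cfsg.Agent.Lib.Helper79.TLPCTOP
import Cfsg.Agent.Lib.Helper79.TLPCZ
import Cfsg.Agent.Lib.Helper79.TLSUP
import Cfsg.Agent.Lib.Helper79.TLZCENT
import Cfsg.Agent.Lib.Helper81.TLAVG
import Cfsg.Agent.Lib.Helper81.TLDEQZ
import Cfsg.Agent.Lib.Helper81.TLTIDX
import Cfsg.Agent.Lib.Helper83.TLPLX1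
import Cfsg.Agent.Lib.Helper83.TLPLX2
import Cfsg.Agent.Lib.Helper88.TLCLASS2
import Cfsg.Agent.Lib.Helper88.TLDCENT
import Cfsg.Agent.Lib.Helper88.TLINIT
import Cfsg.Agent.Lib.Helper88.TLPCOMM
import Cfsg.Agent.Lib.Helper88.TLPSQ
import Cfsg.Agent.Lib.Helper88.TLTSQ

/-!
# Soluble groups with one class of involutions have 2-length one: assembly (helper18)

The pieces `TL*` (job board) are assembled into `main_ind`: a finite soluble group in which all
involutions are conjugate and which has two distinct commuting involutions has 2-length at most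
one (in helper72's internal form `PL ⊤`).
-/

set_option autoImplicit false

namespace Cfsg.Agent.Lib.Helper18.TL

open Subgroup
open scoped commutatorElement

universe u

variable {G : Type u} [Group G]

/-! ## Glue -/

theorem odd_card_of_le [Finite G] {A B : Subgroup G} (h : A ≤ B) (hB : Odd (Nat.card B)) :
    Odd (Nat.card A) := by
  obtain ⟨k, hk⟩ := Subgroup.card_dvd_of_le h
  rw [hk] at hB
  exact (Nat.odd_mul.1 hB).1

theorem red_false [Finite G] {Z Y P W T : Subgroup G} (h : Red Z Y P W T) : False := by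
  have hphi := phi_comm h.red0
  have hmul := phi_mul h.red0 hphi
  have hE4 := E4 h.red0 hmul
  have htriv := fun M hMP hWM hM => triv_act h.red0 M hMP hWM hM
  have hFa := fun B hB => F_a h.red0 hE4 B hB
  obtain ⟨B, B', hBB, hB, hB', hWB, hWB'⟩ := exists_B h
  have hFb : ∀ B B' : Subgroup G, IsMaxIn Z T B → IsMaxIn Z T B' → B ≠ B' →
      W ⊓ centralizer (B' : Set G) ≤
        centralizer ((⁅P, W ⊓ centralizer (B : Set G)⁆ : Subgroup G) : Set G) :=
    fun B B' hB hB' hne => F_b h hFa htriv B B' hB.2.1 hB'.2.1 (sup_of_max hB hB' hne)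
  have hFc : ∀ B B' : Subgroup G, IsMaxIn Z T B → IsMaxIn Z T B' → B ≠ B' →
      ∀ u ∈ ⁅P, W ⊓ centralizer (B : Set G)⁆, ∀ v ∈ ⁅P, W ⊓ centralizer (B' : Set G)⁆,
        u * v = v * u :=
    fun B B' hB hB' hne => F_c h.red0 (W ⊓ centralizer (B : Set G))
      (W ⊓ centralizer (B' : Set G)) inf_le_left inf_le_left (hFb B B' hB hB' hne)
  have havg : ∀ B : Subgroup G, IsMaxIn Z T B → ∀ x ∈ ⁅P, W ⊓ centralizer (B : Set G)⁆,
      x ∈ centralizer ((W ⊓ centralizer (B : Set G) : Subgroup G) : Set G) → x ∈ Z :=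
    fun B _ => avg h.red0.ZP h.red0.PZ h.red0.commP h.red0.sqP
      (inf_le_left.trans h.red0.adm.WP) (inf_le_left.trans h.red0.adm.WZ)
      (odd_card_of_le inf_le_left h.red0.adm.oddW)
  exact final h hphi hFa hFb hFc havg B B' hBB hB hB'
    (exists_sq h hFa htriv B hB hWB) (exists_sq h hFa htriv B' hB' hWB')

theorem min_false [Finite G] {Z Y P W T : Subgroup G} (hC : Cfg Z Y) (h : MinAdm Z Y P W T) :
    False := by
  have htop := adm_top hC h.1
  have hWT := comm_WT hC h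
  have hf := faithful hC h.1 htop
  have hminP := min_P h hWT
  have hmaxW := max_W h hf
  have hmaxT := max_T h hf
  have hPW := P_comm h.1 hWT hminP
  obtain ⟨hc1, hc2⟩ := P_class2 h.1 hWT hminP hPW
  obtain ⟨hsq, hcZ⟩ := P_sq hC h.1 hWT hminP hPW hc1 hc2
  have hPP := comm_eq_Z hC h.1 hWT hsq hcZ
  have hZP : Z ≤ P := by
    rw [← hPP]
    exact Subgroup.commutator_le.2 (fun x hx y hy => by
      rw [commutatorElement_def]
      exact P.mul_mem (P.mul_mem (P.mul_mem hx hy) (P.inv_mem hx)) (P.inv_mem hy))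
  have hPZ : P ≤ centralizer (Z : Set G) := by
    rw [← hPP]
    exact Subgroup.le_centralizer_iff.1 hc2
  have hsqP : ∀ x ∈ P, x ^ 2 ∈ Z := fun x hx => hPP ▸ hsq x hx
  have hZW : Z ≤ centralizer (W : Set G) := Subgroup.le_centralizer_iff.1 h.1.WZ
  have hcPW : P ⊓ centralizer (W : Set G) = Z := by
    apply le_antisymm
    · intro x hx
      have hx1 : x ∈ ⁅P, W⁆ := by rw [hPW]; exact hx.1
      exact avg hZP hPZ hPP.le hsqP h.1.WP h.1.WZ h.1.oddW x hx1 hx.2
    · exact le_inf hZP hZW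
  obtain ⟨hsqT', hcommT'⟩ := T_sq h.1 hWT hmaxT
  have hD := D_cent_P hC h.1 hPW hPP hPZ hcPW hminP
  have hcTW := D_eq_Z hC h.1 hPP hsqP hcPW hD
  have hsqT : ∀ a ∈ T, a ^ 2 ∈ Z := fun a ha => by
    rw [← hcTW]
    exact ⟨T.pow_mem ha 2, hsqT' a ha⟩
  have hcommT : ∀ a ∈ T, ∀ b ∈ T, ⁅a, b⁆ ∈ Z := fun a ha b hb => by
    rw [← hcTW]
    refine ⟨?_, hcommT' a ha b hb⟩
    rw [commutatorElement_def]
    exact T.mul_mem (T.mul_mem (T.mul_mem ha hb) (T.inv_mem ha)) (T.inv_mem hb)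
  have hidx := T_index hC h.1 hWT hcTW hsqT
  have hTirr : ∀ T' : Subgroup G, Z ≤ T' → T' ≤ T → Y ≤ normalizer (T' : Set G) →
      T' = Z ∨ T' = T := by
    intro T' hZT' hT'T hYT'
    by_cases hne : T' = T
    · exact Or.inr hne
    · left
      apply le_antisymm _ hZT'
      rw [← hcTW]
      exact le_inf hT'T (hmaxT T' hZT' hT'T hne hYT')
  have h0 : Red0 Z Y P W T :=
    { cfg := hC, adm := h.1, ZP := hZP, PZ := hPZ, commP := hPP.le, sqP := hsqP, PW := hPW,
      cPW := hcPW, faith := hf, WT := hWT, cTW := hcTW, sqT := hsqT, commT := hcommT,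
      Tirr := hTirr, Tidx := hidx, minP := hminP, maxW := hmaxW }
  have hphi := phi_comm h0
  have hmul := phi_mul h0 hphi
  have hE4 := E4 h0 hmul
  have htriv := fun M hMP hWM hM => triv_act h0 M hMP hWM hM
  have hnt := fun W1 h1 hn hY hc => W_norm_triv h0 hE4 htriv W1 h1 hn hY hc
  obtain ⟨hab, hcWT⟩ := W_ab h0 hnt
  exact red_false ⟨h0, hab, hcWT⟩

theorem sylow_normal [Finite G] {Z : Subgroup G} (hA : Amb G Z) :
    ∀ S : Sylow 2 G, (S : Subgroup G).Normal := by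
  by_cases hP : Cfsg.pCore 2 G = ⊤
  · exact pcore_top hP
  obtain ⟨W0, hodd, hne, htop⟩ := exists_W0 hA.solv hP
  by_cases hL : normalizer (W0 : Set G) ⊔ Z = ⊤
  · exact case_top hA hodd hne hL
  have hZL : Z ≤ normalizer (W0 : Set G) ⊔ Z := le_sup_right
  have hPL : Cfsg.pCore 2 G ⊔ (normalizer (W0 : Set G) ⊔ Z) = ⊤ := by
    rw [← sup_assoc, htop, top_sup_eq]
  have hpl := hA.ih _ hL hZL (trans_L hA hPL)
  obtain ⟨A, S1, Y, hAL, hSL, hYL, hLA, hoddA, hS1, hoddY, hYS, hsplit, hmax⟩ := pl_split hpl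
  rcases init_adm hA hZL hPL hAL hSL hYL hLA hoddA hS1 hoddY hYS hsplit hmax with h | ⟨hC, hadm⟩
  · exact h
  · obtain ⟨P', W', T', hmin⟩ := exists_min hadm
    exact (min_false hC hmin).elim

theorem main_ind : ∀ (n : ℕ) (G : Type u) [Group G] [Finite G], Nat.card G = n →
    Group.IsSolvable G →
    (∀ x y : G, x ≠ 1 → x ^ 2 = 1 → y ≠ 1 → y ^ 2 = 1 → IsConj x y) →
    (∃ x y : G, x ≠ y ∧ x ≠ 1 ∧ x ^ 2 = 1 ∧ y ≠ 1 ∧ y ^ 2 = 1 ∧ x * y = y * x) →
    PL (⊤ : Subgroup G) := by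
  intro n
  induction n using Nat.strong_induction_on with
  | _ n IH =>
    intro G _ _ hn hs hconj htwo
    by_cases hO : ∃ N : Subgroup G, N.Normal ∧ Odd (Nat.card N) ∧ N ≠ ⊥
    · obtain ⟨N, hNn, hNodd, hNne⟩ := hO
      have := hNn
      obtain ⟨hc', ht'⟩ := quot_hyp N hNodd hconj htwo
      have hcard : Nat.card (G ⧸ N) < n := by
        rw [← hn, ← Subgroup.index_eq_card, ← Subgroup.card_mul_index N]
        have h1 : 1 < Nat.card N := (Subgroup.one_lt_card_iff_ne_bot N).2 hNne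
        have h2 : 0 < N.index := Nat.pos_of_ne_zero Subgroup.index_ne_zero_of_finite
        nlinarith
      have hsq : Group.IsSolvable (G ⧸ N) :=
        Group.isSolvable_of_surjective (QuotientGroup.mk'_surjective N)
      exact pl_quot N hNodd (IH _ hcard (G ⧸ N) rfl hsq hc' ht')
    · have hodd : ∀ N : Subgroup G, N.Normal → Odd (Nat.card N) → N = ⊥ := by
        intro N h1 h2
        by_contra h3
        exact hO ⟨N, h1, h2, h3⟩
      have hinv : ∃ x : G, x ≠ 1 ∧ x ^ 2 = 1 := by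
        obtain ⟨x0, y0, -, hx0, hx02, -⟩ := htwo
        exact ⟨x0, hx0, hx02⟩
      obtain ⟨Z, hZ⟩ := exists_Z hs hodd hconj hinv
      have hA : Amb G Z := by
        apply amb_of hs hodd hconj htwo Z hZ
        intro H hH hsH hcH htH
        have hcard : Nat.card ↥H < n := by
          rw [← hn]
          have h1 : H.index ≠ 1 := fun h => hH (Subgroup.index_eq_one.1 h)
          have h2 : 0 < H.index := Nat.pos_of_ne_zero Subgroup.index_ne_zero_of_finite
          have h3 := Subgroup.card_mul_index H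
          have h4 : 0 < Nat.card ↥H := Nat.card_pos
          have h5 : 2 ≤ H.index := by omega
          nlinarith
        exact pl_subtype H (IH _ hcard ↥H rfl hsH hcH htH)
      exact pl_of_sylow_normal default (sylow_normal hA default)



end Cfsg.Agent.Lib.Helper18.TL
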