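import Mathlib
import Cfsg.Prelude.Def_ClassicalGeometry
import Cfsg.Prelude.Def_LieClassical
import Cfsg.Prelude.Def_SporadicB
import Cfsg.Agent.Lib.Helper18.UnitaryTv

/-!
# The unitary transvections of `SU_n(2)` are a class of 3-transpositions (helper18)

`su2_three_transposition`: over the field with four elements and for `n ≥ 3`, if the unitary
transvections generate `SU_n(2)` then the elements `g` with `g - 1` of rank one form a
generating conjugacy class of 3-transpositions.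
-/

set_option autoImplicit false
set_option linter.unusedSectionVars false
set_option linter.unusedVariables false

namespace Cfsg.Agent.Lib.Helper18

open Matrix Cfsg.Agent.Lib.Helper7

theorem su2_three_transposition {F : Type*} [Field F] [Fintype F]
    (hF : Fintype.card F = 2 ^ 2) (n : ℕ) (hn : 3 ≤ n)
    (hgen : Subgroup.closure {A : ↥(Cfsg.SU n F 2) | ∃ (v : Fin n → F) (c : F),
      Cfsg.hermForm n F 2 v v = 0 ∧
      ((A : Matrix.SpecialLinearGroup (Fin n) F) : Matrix (Fin n) (Fin n) F) =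
        Cfsg.unitaryTransvection n 2 v c} = ⊤) :
    Cfsg.IsThreeTranspositionClass {g : ↥(Cfsg.SU n F 2) |
      (((g : Matrix.SpecialLinearGroup (Fin n) F) : Matrix (Fin n) (Fin n) F) - 1).rank = 1} := by
  classical
  have h2 := two_eq_zero_of_card hF
  obtain ⟨D, hD⟩ : ∃ D : Set ↥(Cfsg.SU n F 2), D = {g : ↥(Cfsg.SU n F 2) |
      (((g : Matrix.SpecialLinearGroup (Fin n) F) : Matrix (Fin n) (Fin n) F) - 1).rank = 1} :=
    ⟨_, rfl⟩
  rw [← hD]
  have hDmem : ∀ g : ↥(Cfsg.SU n F 2), g ∈ D ↔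
      (((g : Matrix.SpecialLinearGroup (Fin n) F) : Matrix (Fin n) (Fin n) F) - 1).rank = 1 := by
    intro g; rw [hD]; exact Iff.rfl
  have hchar : ∀ g : ↥(Cfsg.SU n F 2), g ∈ D → ∃ v : Fin n → F, v ≠ 0 ∧
      Cfsg.hermForm n F 2 v v = 0 ∧
      ((g : Matrix.SpecialLinearGroup (Fin n) F) : Matrix (Fin n) (Fin n) F) =
        Cfsg.unitaryTransvection n 2 v 1 := by
    intro g hg
    obtain ⟨v, c, hv, hc0, hvv, hcc, hM⟩ :=
      su_rank_one hF _ g.1.2 ((mem_SU_iff g.1).mp g.2) ((hDmem g).mp hg)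
    have hc1 : c = 1 := by
      have h3 : c * (1 + c) = 0 := by linear_combination hcc
      have h4 : 1 + c = 0 := (mul_eq_zero.mp h3).resolve_left hc0
      linear_combination h4 - h2
    exact ⟨v, hv, hvv, by rw [hM, hc1]⟩
  have hchar' : ∀ (g : ↥(Cfsg.SU n F 2)) (v : Fin n → F), v ≠ 0 →
      ((g : Matrix.SpecialLinearGroup (Fin n) F) : Matrix (Fin n) (Fin n) F) =
        Cfsg.unitaryTransvection n 2 v 1 → g ∈ D := by
    intro g v hv hM
    rw [hDmem, hM]
    exact transvection_sub_one_rank hF v 1 hv one_ne_zero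
  have hone : (1 : ↥(Cfsg.SU n F 2)) ∉ D := by
    rw [hDmem]
    have : (((1 : ↥(Cfsg.SU n F 2)) : Matrix.SpecialLinearGroup (Fin n) F) :
        Matrix (Fin n) (Fin n) F) - 1 = 0 := sub_self _
    rw [this, Matrix.rank_zero]
    exact zero_ne_one
  have hext : ∀ a b : ↥(Cfsg.SU n F 2),
      ((a : Matrix.SpecialLinearGroup (Fin n) F) : Matrix (Fin n) (Fin n) F) =
        ((b : Matrix.SpecialLinearGroup (Fin n) F) : Matrix (Fin n) (Fin n) F) → a = b :=
    fun a b h => Subtype.ext (Subtype.ext h)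
  refine ⟨⟨?_, ?_⟩, ?_, ?_⟩
  · -- order two
    intro d hd
    obtain ⟨v, hv, hvv, hM⟩ := hchar d hd
    have : Fact (Nat.Prime 2) := ⟨Nat.prime_two⟩
    apply orderOf_eq_prime
    · apply hext
      rw [pow_two]
      show ((d : Matrix.SpecialLinearGroup (Fin n) F) : Matrix (Fin n) (Fin n) F) *
        ((d : Matrix.SpecialLinearGroup (Fin n) F) : Matrix (Fin n) (Fin n) F) = 1
      rw [hM]
      exact transv_sq hF n v hvv
    · rintro rfl
      exact hone hd
  · -- products
    intro d hd e he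
    obtain ⟨u, hu, huu, hMd⟩ := hchar d hd
    obtain ⟨v, hv, hvv, hMe⟩ := hchar e he
    by_cases huv : Cfsg.hermForm n F 2 u v = 0
    · left
      apply hext
      have h3 := transv_comm_sq hF n u v huu hvv huv
      rw [← hMd, ← hMe] at h3
      rw [Subgroup.coe_pow, Matrix.SpecialLinearGroup.coe_pow, Subgroup.coe_mul,
        Matrix.SpecialLinearGroup.coe_mul]
      exact h3
    · right
      apply hext
      have h3 := transv_cube hF n u v huu hvv huv
      rw [← hMd, ← hMe] at h3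
      rw [Subgroup.coe_pow, Matrix.SpecialLinearGroup.coe_pow, Subgroup.coe_mul,
        Matrix.SpecialLinearGroup.coe_mul]
      exact h3
  · -- a single class
    obtain ⟨ω, hω0, hω⟩ := exists_omega hF
    obtain ⟨i0, hi0⟩ : ∃ i0 : Fin n, i0 = ⟨0, by omega⟩ := ⟨_, rfl⟩
    obtain ⟨i1, hi1⟩ : ∃ i1 : Fin n, i1 = ⟨1, by omega⟩ := ⟨_, rfl⟩
    have hne : i0 ≠ i1 := by
      rw [hi0, hi1]
      intro h
      exact absurd (congrArg Fin.val h) (by simp)
    obtain ⟨u₀, hu₀⟩ : ∃ u₀ : Fin n → F, u₀ = Pi.single i0 1 + ω • Pi.single i1 1 := ⟨_, rfl⟩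
    have hu₀0 : u₀ i0 = 1 := by rw [hu₀]; simp [hne]
    have hu₀1 : u₀ i1 = ω := by rw [hu₀]; simp [hne.symm]
    have hu₀ne : u₀ ≠ 0 := by
      intro h0
      rw [h0] at hu₀0
      exact zero_ne_one hu₀0
    have huu : Cfsg.hermForm n F 2 u₀ u₀ = 0 := by
      nth_rewrite 1 [hu₀]
      rw [hf_add_left, hf_smul_left, hf_single_left, hf_single_left, hu₀0, hu₀1]
      linear_combination hω
    have hcc : (1 : F) + 1 ^ 2 = 0 := by linear_combination h2
    obtain ⟨d₀, hd₀⟩ : ∃ d₀ : ↥(Cfsg.SU n F 2),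
        ((d₀ : Matrix.SpecialLinearGroup (Fin n) F) : Matrix (Fin n) (Fin n) F) =
          Cfsg.unitaryTransvection n 2 u₀ 1 :=
      ⟨suMk hF (Cfsg.unitaryTransvection n 2 u₀ 1) (transvection_det n u₀ 1 huu)
        (isFr_of_preserves hF _ (transvection_preserves hF n u₀ 1 huu hcc)), rfl⟩
    have hd₀D : d₀ ∈ D := hchar' d₀ u₀ hu₀ne hd₀
    refine ⟨d₀, hd₀D, ?_⟩
    ext g
    have hcj : g ∈ conjugatesOf d₀ ↔ ∃ k : ↥(Cfsg.SU n F 2), k * d₀ * k⁻¹ = g := by
      show IsConj d₀ g ↔ _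
      exact isConj_iff
    rw [hcj]
    constructor
    · intro hg
      obtain ⟨v, hv, hvv, hM⟩ := hchar g hg
      obtain ⟨k, hk⟩ := exists_SU_map_iso hF hn u₀ v hu₀ne hv huu hvv
      refine ⟨k, ?_⟩
      rw [mul_inv_eq_iff_eq_mul]
      apply hext
      rw [Subgroup.coe_mul, Matrix.SpecialLinearGroup.coe_mul, Subgroup.coe_mul,
        Matrix.SpecialLinearGroup.coe_mul, hd₀, hM,
        conj_transvection _ ((mem_SU_iff k.1).mp k.2), hk]
    · rintro ⟨k, rfl⟩
      rw [hDmem]
      have e1 : (((k * d₀ * k⁻¹ : ↥(Cfsg.SU n F 2)) : Matrix.SpecialLinearGroup (Fin n) F) :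
          Matrix (Fin n) (Fin n) F) - 1 =
          ((k : Matrix.SpecialLinearGroup (Fin n) F) : Matrix (Fin n) (Fin n) F) *
          (((d₀ : Matrix.SpecialLinearGroup (Fin n) F) : Matrix (Fin n) (Fin n) F) - 1) *
          (((k⁻¹ : ↥(Cfsg.SU n F 2)) : Matrix.SpecialLinearGroup (Fin n) F) :
            Matrix (Fin n) (Fin n) F) := by
        have e2 : ((k : Matrix.SpecialLinearGroup (Fin n) F) : Matrix (Fin n) (Fin n) F) *
            (((k⁻¹ : ↥(Cfsg.SU n F 2)) : Matrix.SpecialLinearGroup (Fin n) F) :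
            Matrix (Fin n) (Fin n) F) = 1 := by
          rw [← Matrix.SpecialLinearGroup.coe_mul, ← Subgroup.coe_mul, mul_inv_cancel]
          rfl
        rw [Subgroup.coe_mul, Matrix.SpecialLinearGroup.coe_mul, Subgroup.coe_mul,
          Matrix.SpecialLinearGroup.coe_mul, Matrix.mul_sub, Matrix.sub_mul, Matrix.mul_one, e2]
      rw [e1, Matrix.rank_mul_eq_left_of_isUnit_det _ _ (by rw [(k⁻¹).1.2]; exact isUnit_one),
        Matrix.rank_mul_eq_right_of_isUnit_det _ _ (by rw [k.1.2]; exact isUnit_one)]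
      exact (hDmem d₀).mp hd₀D
  · -- generation
    rw [eq_top_iff, ← hgen]
    apply (Subgroup.closure_le _).mpr
    rintro A ⟨v, c, hvv, hM⟩
    by_cases hA1 : A = 1
    · rw [hA1]; exact one_mem _
    · apply Subgroup.subset_closure
      rw [hDmem]
      have hle : (((A : Matrix.SpecialLinearGroup (Fin n) F) : Matrix (Fin n) (Fin n) F) -
          1).rank ≤ 1 := by
        rw [hM]; exact transvection_sub_one_rank_le n v c
      have hpos := rank_pos_of_ne_zero
        (((A : Matrix.SpecialLinearGroup (Fin n) F) : Matrix (Fin n) (Fin n) F) - 1)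
        (fun h0 => hA1 (hext A 1 (sub_eq_zero.mp h0)))
      omega

end Cfsg.Agent.Lib.Helper18
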